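import Mathlib
import Cfsg.Agent.Lib.ElusH.Diag
import Cfsg.Agent.Lib.Elusive.Count
import Cfsg.Agent.Lib.Asch.Form
import Cfsg.Agent.Lib.MatConj.PrimeForm
import Cfsg.Agent.Lib.MatConj.Unitary
import Cfsg.Agent.Lib.Forms.SymmDisc
import Cfsg.Agent.Lib.Forms.Herm
import Cfsg.Agent.Lib.Symp.Order

/-!
Matrices that are conjugate into the similarity group of a form: transport along isometries of
forms, and index arithmetic.
-/

set_option autoImplicit false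
set_option linter.unusedSectionVars false

namespace CfsgLib.ElusF

open Matrix Polynomial CfsgLib.MatConj CfsgLib.Elusive CfsgLib.ElusH Cfsg.Geo CfsgLib.Asch

variable {F : Type*} [Field F] {ι κ : Type} [Fintype ι] [DecidableEq ι] [Fintype κ] [DecidableEq κ]
  {σ : F →+* F}

/-- `A` multiplies the form with Gram matrix `G` by `μ`. -/
def Sm (σ : F →+* F) (G A : Matrix ι ι F) (μ : F) : Prop := Aᵀ * G * A.map σ = μ • G

theorem sm_iff {G A : Matrix ι ι F} {μ : F} :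
    Sm σ G A μ ↔ ∀ u v, gform σ G (A *ᵥ u) (A *ᵥ v) = μ * gform σ G u v := by
  simp only [gform_mulVec, ← gform_smul]
  exact ⟨fun h u v => by rw [h], gform_ext⟩

theorem sm_id {G A : Matrix ι ι F} {μ : F} : Sm (RingHom.id F) G A μ ↔ Aᵀ * G * A = μ • G := by
  rw [Sm]; rfl

theorem Sm.mul {G A B : Matrix ι ι F} {μ ν : F} (h : Sm σ G A μ) (h' : Sm σ G B ν) :
    Sm σ G (A * B) (μ * ν) := by
  rw [sm_iff] at *
  intro u v
  rw [← mulVec_mulVec, ← mulVec_mulVec, h, h', mul_assoc]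

theorem Sm.one (G : Matrix ι ι F) : Sm σ G 1 1 := by simp [Sm]

theorem Sm.pow {G A : Matrix ι ι F} {μ : F} (h : Sm σ G A μ) (k : ℕ) : Sm σ G (A ^ k) (μ ^ k) := by
  induction k with
  | zero => simpa using Sm.one G
  | succ k ih => rw [pow_succ, pow_succ]; exact ih.mul h

theorem Sm.smul {G A : Matrix ι ι F} {μ : F} (h : Sm σ G A μ) (c : F) :
    Sm σ G (c • A) (c * σ c * μ) := by
  rw [sm_iff] at *
  intro u v
  rw [smul_mulVec, smul_mulVec, (isSesq0_gform σ G).smul_left, (isSesq0_gform σ G).smul_right, h]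
  ring

theorem Sm.unique [Nonempty ι] {G A : Matrix ι ι F} (hG : G.det ≠ 0) {μ ν : F} (h : Sm σ G A μ)
    (h' : Sm σ G A ν) : μ = ν := by
  by_contra hne
  have : (μ - ν) • G = 0 := by rw [sub_smul, ← h, ← h', sub_self]
  rw [smul_eq_zero, sub_eq_zero] at this
  exact hG (by rw [this.resolve_left hne, det_zero])

theorem Sm.pow_eq [Nonempty ι] {G A : Matrix ι ι F} (hG : G.det ≠ 0) {μ z : F} (h : Sm σ G A μ)
    {k : ℕ} (hk : A ^ k = z • 1) : μ ^ k = z * σ z := by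
  have h1 := h.pow k
  rw [hk] at h1
  simpa using h1.unique hG ((Sm.one G).smul z)

theorem Sm.det_ne_zero {G A : Matrix ι ι F} (hG : G.det ≠ 0) {μ : F} (hμ : μ ≠ 0)
    (h : Sm σ G A μ) : A.det ≠ 0 := by
  intro h0
  have := congrArg det h
  rw [det_mul, det_mul, det_transpose, h0, det_smul] at this
  simp [hμ, hG] at this

theorem Sm.rk {G A : Matrix ι ι F} (hG : G.det ≠ 0) {μ : F} (hμ : μ ≠ 0) (h : Sm σ G A μ) {a : F}
    (ha : a ≠ 0) : rk A (μ * (σ a)⁻¹) = rk A a := rk_sim hG hμ h ha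

theorem Sm.edM_tilde (hσ : ∀ x, σ (σ x) = x) {G A : Matrix ι ι F} (hG : G.det ≠ 0)
    (h : Sm σ G A 1) : (edM A).map (fun x => (tilde σ x.1, x.2)) = edM A := by
  have hG' : IsUnit G.det := Ne.isUnit hG
  have h1 : (G⁻¹ * Aᵀ * G) * A.map σ = 1 := by
    rw [mul_assoc, mul_assoc, ← mul_assoc Aᵀ, h, one_smul, nonsing_inv_mul _ hG']
  have h2 : IsConj Aᵀ (G⁻¹ * Aᵀ * G) :=
    isConj_iff_exists_unit.2 ⟨G⁻¹, isUnit_nonsing_inv_det _ hG', by
      rw [mul_assoc _ G, mul_nonsing_inv _ hG', mul_one]⟩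
  rw [← MatConj.edM_tilde hσ h1, ← isConj_iff_edM.1 h2, edM_transpose]

theorem mem_sim_iff {f : (ι → F) → (ι → F) → F} (hf : IsSesq0 σ f) {g : GL ι F} :
    g ∈ similarityGroup f ↔ ∃ μ, μ ≠ 0 ∧ Sm σ (gramMatrix f) g μ := by
  simp only [sm_iff, ← hf.eq_gform]
  exact ⟨fun ⟨c, hc⟩ => ⟨c, c.ne_zero, hc⟩, fun ⟨c, h0, hc⟩ => ⟨Units.mk0 c h0, hc⟩⟩

theorem ci_sim_iff {f : (ι → F) → (ι → F) → F} (hf : IsSesq0 σ f) (hn : IsNondegenerateForm f)
    {A : Matrix ι ι F} : CI (similarityGroup f) A ↔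
      ∃ B μ, μ ≠ 0 ∧ IsConj A B ∧ Sm σ (gramMatrix f) B μ := by
  constructor
  · rintro ⟨g, hg, e⟩
    obtain ⟨μ, h0, h⟩ := (mem_sim_iff hf).1 hg
    exact ⟨g, μ, h0, e, h⟩
  · rintro ⟨B, μ, h0, e, h⟩
    obtain ⟨g, rfl⟩ := exists_GL (h.det_ne_zero (hf.isUnit_det hn).ne_zero h0)
    exact ⟨g, (mem_sim_iff hf).2 ⟨μ, h0, h⟩, e⟩

/-- The two forms are similar. -/
def Eqv (σ : F →+* F) (G : Matrix ι ι F) (G' : Matrix κ κ F) : Prop :=
  ∃ (e : (ι → F) ≃ₗ[F] (κ → F)) (c : F), c ≠ 0 ∧ ∀ u v, gform σ G' (e u) (e v) = c * gform σ G u v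

theorem Eqv.symm {G : Matrix ι ι F} {G' : Matrix κ κ F} (h : Eqv σ G G') : Eqv σ G' G := by
  obtain ⟨e, c, hc, h⟩ := h
  refine ⟨e.symm, c⁻¹, inv_ne_zero hc, fun u v => ?_⟩
  have := h (e.symm u) (e.symm v)
  rw [e.apply_symm_apply, e.apply_symm_apply] at this
  rw [this, inv_mul_cancel_left₀ hc]

theorem Eqv.trans {μ : Type} [Fintype μ] [DecidableEq μ] {G : Matrix ι ι F} {G' : Matrix κ κ F}
    {G'' : Matrix μ μ F} (h : Eqv σ G G') (h' : Eqv σ G' G'') : Eqv σ G G'' := by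
  obtain ⟨e, c, hc, h⟩ := h
  obtain ⟨e', c', hc', h'⟩ := h'
  exact ⟨e.trans e', c' * c, mul_ne_zero hc' hc, fun u v => by
    rw [LinearEquiv.trans_apply, LinearEquiv.trans_apply, h', h, mul_assoc]⟩

theorem eqv_smul (G : Matrix ι ι F) {c : F} (hc : c ≠ 0) : Eqv σ G (c • G) :=
  ⟨LinearEquiv.refl _ _, c, hc, fun u v => gform_smul σ c G u v⟩

/-- Transport of matrices along a linear equivalence of column spaces. -/
noncomputable def tr (e : (ι → F) ≃ₗ[F] (κ → F)) : Matrix κ κ F →* Matrix ι ι F where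
  toFun A := LinearMap.toMatrix' (e.symm.conj (toLin' A))
  map_one' := by simp
  map_mul' A B := by
    rw [toLin'_mul, LinearEquiv.conj_comp, LinearMap.toMatrix'_comp]

theorem tr_mulVec (e : (ι → F) ≃ₗ[F] (κ → F)) (A : Matrix κ κ F) (v : ι → F) :
    e (tr e A *ᵥ v) = A *ᵥ e v := by
  simp [tr, LinearMap.toMatrix'_mulVec, LinearEquiv.conj_apply]

theorem tr_injective (e : (ι → F) ≃ₗ[F] (κ → F)) : Function.Injective (tr e) := by
  intro A B h
  refine Forms.matrix_ext_mulVec fun v => ?_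
  obtain ⟨v, rfl⟩ := e.surjective v
  rw [← tr_mulVec, ← tr_mulVec, h]

theorem det_tr (e : (ι → F) ≃ₗ[F] (κ → F)) (A : Matrix κ κ F) : (tr e A).det = A.det := by
  change (LinearMap.toMatrix' (e.symm.conj (toLin' A))).det = _
  rw [LinearMap.det_toMatrix', LinearEquiv.conj_apply, LinearMap.comp_assoc, LinearMap.det_conj,
    LinearMap.det_toLin']

theorem edM_tr (e : (ι → F) ≃ₗ[F] (κ → F)) (A : Matrix κ κ F) : edM (tr e A) = edM A := by
  obtain ⟨B, h1, h2⟩ := exists_matrix_of_equiv e A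
  rw [← h2]
  congr 1
  exact Forms.matrix_ext_mulVec fun v => e.injective (by rw [tr_mulVec, h1])

theorem Sm.tr {G : Matrix ι ι F} {G' A : Matrix κ κ F} {e : (ι → F) ≃ₗ[F] (κ → F)} {c : F}
    (hc : c ≠ 0) (h : ∀ u v, gform σ G' (e u) (e v) = c * gform σ G u v) {μ : F}
    (hA : Sm σ G' A μ) : Sm σ G (tr e A) μ := by
  rw [sm_iff] at *
  intro u v
  refine mul_left_cancel₀ hc ?_
  rw [← h, tr_mulVec, tr_mulVec, hA, h]
  ring

theorem Eqv.exists_sm {G : Matrix ι ι F} {G' A : Matrix κ κ F} (h : Eqv σ G G') {μ : F}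
    (hA : Sm σ G' A μ) : ∃ B, Sm σ G B μ ∧ edM B = edM A := by
  obtain ⟨e, c, hc, h⟩ := h
  exact ⟨_, hA.tr hc h, edM_tr e A⟩

theorem ci_sim_of_eqv {f : (ι → F) → (ι → F) → F} (hf : IsSesq0 σ f) (hn : IsNondegenerateForm f)
    {G' A' : Matrix κ κ F} (h : Eqv σ (gramMatrix f) G') {μ : F} (hμ : μ ≠ 0) (hA : Sm σ G' A' μ)
    {A : Matrix ι ι F} (e : edM A = edM A') : CI (similarityGroup f) A := by
  obtain ⟨B, h1, h2⟩ := h.exists_sm hA
  exact (ci_sim_iff hf hn).2 ⟨B, μ, hμ, isConj_iff_edM.2 (e.trans h2.symm), h1⟩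

theorem gform_basis (G : Matrix ι ι F) (b : Module.Basis κ F (ι → F)) (u v : ι → F) :
    gform σ (Matrix.of fun i j => gform σ G (b i) (b j)) (b.equivFun u) (b.equivFun v) =
      1 * gform σ G u v := by
  conv_rhs => rw [← b.sum_equivFun u, ← b.sum_equivFun v]
  rw [one_mul, gform_eq_sum, (isSesq0_gform σ G).sum_left]
  refine Finset.sum_congr rfl fun i _ => ?_
  rw [(isSesq0_gform σ G).sum_right]
  refine Finset.sum_congr rfl fun j _ => ?_
  rw [(isSesq0_gform σ G).smul_left, (isSesq0_gform σ G).smul_right, of_apply]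
  ring

theorem eqv_of_basis (G : Matrix ι ι F) (b : Module.Basis κ F (ι → F)) :
    Eqv σ G (Matrix.of fun i j => gform σ G (b i) (b j)) :=
  ⟨b.equivFun, 1, one_ne_zero, gform_basis G b⟩

theorem gform_id (G : Matrix ι ι F) (u v : ι → F) :
    gform (RingHom.id F) G u v = toBilin' G u v := by
  rw [toBilin'_apply']; rfl

theorem nondeg_toBilin' {G : Matrix ι ι F} (hG : G.det ≠ 0) : (toBilin' G).Nondegenerate :=
  LinearMap.BilinForm.nondegenerate_toBilin'_iff_det_ne_zero.2 hG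

/-! ### Alternating forms -/

theorem eqv_J {G : Matrix ι ι F} (hG : G.det ≠ 0) (h1 : Gᵀ = -G) (h2 : ∀ i, G i i = 0) {m : ℕ}
    (hm : Fintype.card ι = 2 * m) : ∃ e : (ι → F) ≃ₗ[F] (Fin m ⊕ Fin m → F), ∀ u v,
      gform (RingHom.id F) (Matrix.J (Fin m) F) (e u) (e v) = 1 * gform (RingHom.id F) G u v := by
  obtain ⟨e, he⟩ := Forms.exists_isIso₂_spPQ (toBilin' G) (isAlt_toBilin' h1 h2)
    (nondeg_toBilin' hG) (m := m) (by simpa using hm)
  refine ⟨e, fun u v => ?_⟩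
  rw [one_mul, gform_id, gform_id]
  exact he.B_eq u v

theorem eqv_alt {G : Matrix ι ι F} (hG : G.det ≠ 0) (h1 : Gᵀ = -G) (h2 : ∀ i, G i i = 0)
    {G' : Matrix κ κ F} (hG' : G'.det ≠ 0) (h1' : G'ᵀ = -G') (h2' : ∀ i, G' i i = 0)
    (h : Fintype.card ι = Fintype.card κ) : Eqv (RingHom.id F) G G' := by
  obtain ⟨m, hm⟩ := Forms.even_finrank_of_alt (toBilin' G) (isAlt_toBilin' h1 h2)
    (nondeg_toBilin' hG)
  rw [Module.finrank_fintype_fun_eq_card, ← two_mul] at hm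
  obtain ⟨e, he⟩ := eqv_J hG h1 h2 hm
  obtain ⟨e', he'⟩ := eqv_J hG' h1' h2' (h ▸ hm)
  exact Eqv.trans ⟨e, 1, one_ne_zero, he⟩ (Eqv.symm ⟨e', 1, one_ne_zero, he'⟩)

theorem mem_sp_iff_sm {m : ℕ} {A : Matrix (Fin m ⊕ Fin m) (Fin m ⊕ Fin m) F} :
    A ∈ symplecticGroup (Fin m) F ↔ Sm (RingHom.id F) (Matrix.J (Fin m) F) A 1 := by
  rw [SymplecticGroup.mem_iff', sm_id, one_smul]

theorem Sm.det_alt {G A : Matrix ι ι F} (hG : G.det ≠ 0) (h1 : Gᵀ = -G) (h2 : ∀ i, G i i = 0)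
    (h : Sm (RingHom.id F) G A 1) : A.det = 1 := by
  obtain ⟨m, hm⟩ := Forms.even_finrank_of_alt (toBilin' G) (isAlt_toBilin' h1 h2)
    (nondeg_toBilin' hG)
  rw [Module.finrank_fintype_fun_eq_card, ← two_mul] at hm
  obtain ⟨e, he⟩ := eqv_J hG h1 h2 hm
  have := SymplecticGroup.det_eq_one (mem_sp_iff_sm.2 (h.tr (e := e.symm) one_ne_zero fun u v => by
    rw [← one_mul (gform _ G _ _), ← he, e.apply_symm_apply, e.apply_symm_apply, one_mul]))
  rwa [det_tr] at this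

theorem gram_symp {f : (ι → F) → (ι → F) → F} (hf : IsSymplecticForm f) :
    (gramMatrix f).det ≠ 0 ∧ (gramMatrix f)ᵀ = -gramMatrix f ∧ ∀ i, gramMatrix f i i = 0 :=
  ⟨((isSesq0_of_bilin hf.bilinear).isUnit_det hf.nondegenerate).ne_zero, by
    ext i j; exact hf.skew _ _, fun i => hf.alternating _⟩

theorem ci_symp_of {f : (ι → F) → (ι → F) → F} (hf : IsSymplecticForm f) {G' A' : Matrix κ κ F}
    (hG' : G'.det ≠ 0) (h1' : G'ᵀ = -G') (h2' : ∀ i, G' i i = 0) {μ : F} (hμ : μ ≠ 0)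
    (hA : Sm (RingHom.id F) G' A' μ) {A : Matrix ι ι F} (e : edM A = edM A') :
    CI (similarityGroup f) A := by
  obtain ⟨h0, h1, h2⟩ := gram_symp hf
  exact ci_sim_of_eqv (isSesq0_of_bilin hf.bilinear) hf.nondegenerate
    (eqv_alt h0 h1 h2 hG' h1' h2' (by rw [card_eq_mdeg A, card_eq_mdeg A', e])) hμ hA e

theorem ci_symp_of_altReal {f : (ι → F) → (ι → F) → F} (hf : IsSymplecticForm f)
    {A : Matrix ι ι F} (h : AltReal (edM A)) : CI (similarityGroup f) A := by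
  obtain ⟨κ, _, _, A', G', e, h0, h1, h2, h3⟩ := h
  exact ci_symp_of hf h0 h1 h2 one_ne_zero (by rw [sm_id, one_smul, h3]) e.symm

/-! ### Symmetric forms -/

theorem eqv_diag [Finite F] (h2 : (2 : F) ≠ 0) {G : Matrix ι ι F} (hG : G.det ≠ 0) (h1 : Gᵀ = G)
    {n : ℕ} (hn : Fintype.card ι = n + 1) : ∃ c : F, c ≠ 0 ∧ IsSquare (G.det * c) ∧
      Eqv (RingHom.id F) G (diagonal fun i : Fin (n + 1) => if i = Fin.last n then c else 1) := by
  obtain ⟨b, hb1, hb2, hb3⟩ := Forms.exists_orthogonal_basis_one h2 (toBilin' G)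
    (by
      refine ⟨fun u v => ?_⟩
      rw [toBilin'_apply', toBilin'_apply', dotProduct_mulVec, ← mulVec_transpose, h1,
        dotProduct_comm]) (nondeg_toBilin' hG) (n := n) (by simpa using hn)
  have key : (Matrix.of fun i j => gform (RingHom.id F) G (b i) (b j)) = diagonal fun i =>
      if i = Fin.last n then toBilin' G (b (Fin.last n)) (b (Fin.last n)) else 1 := by
    ext i j
    rw [of_apply, gform_id, diagonal_apply]
    split_ifs with h h'
    · rw [← h, h']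
    · rw [← h, hb2 i h']
    · exact hb1 i j h
  refine ⟨_, hb3, ?_, key ▸ eqv_of_basis G b⟩
  have := Forms.isSquare_det_mul_det (toBilin' G) (Pi.basisFun F ι) b
  rw [Forms.det_toMatrix_of_orthogonal _ b hb1, Finset.prod_eq_single (Fin.last n)
    (fun i _ hi => hb2 i hi) (by simp)] at this
  convert this
  ext i j
  simp [toBilin'_apply']

theorem eqv_diag_sq {n : ℕ} {c c' : F} (hc : c ≠ 0) (hc' : c' ≠ 0) (h : IsSquare (c * c')) :
    Eqv (RingHom.id F) (diagonal fun i : Fin (n + 1) => if i = Fin.last n then c else 1)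
      (diagonal fun i : Fin (n + 1) => if i = Fin.last n then c' else 1) := by
  obtain ⟨s, hs⟩ := h
  have hs0 : s ≠ 0 := by rintro rfl; exact mul_ne_zero hc hc' (by simpa using hs)
  let d : Fin (n + 1) → F := fun i => if i = Fin.last n then s / c' else 1
  have hd : ∀ i, d i ≠ 0 := fun i => by simp only [d]; split_ifs <;> simp [hs0, hc']
  refine ⟨LinearEquiv.piCongrRight fun i => LinearEquiv.smulOfNeZero F F (d i) (hd i), 1,
    one_ne_zero, fun u v => ?_⟩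
  simp only [gform, mulVec_diagonal, dotProduct, one_mul, LinearEquiv.piCongrRight_apply,
    LinearEquiv.smulOfNeZero_apply, Function.comp, RingHom.id_apply, smul_eq_mul]
  refine Finset.sum_congr rfl fun i _ => ?_
  simp only [d]
  split_ifs
  · field_simp
    linear_combination (-(u i * v i)) * hs
  · ring

theorem eqv_symm [Finite F] (h2 : (2 : F) ≠ 0) {G : Matrix ι ι F} (hG : G.det ≠ 0) (h1 : Gᵀ = G)
    {G' : Matrix κ κ F} (hG' : G'.det ≠ 0) (h1' : G'ᵀ = G') (h : Fintype.card ι = Fintype.card κ)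
    [Nonempty ι] (hs : IsSquare (G.det * G'.det)) : Eqv (RingHom.id F) G G' := by
  obtain ⟨n, hn⟩ : ∃ n, Fintype.card ι = n + 1 :=
    ⟨_, (Nat.sub_add_cancel Fintype.card_pos).symm⟩
  obtain ⟨c, hc, ⟨s, h3⟩, e⟩ := eqv_diag h2 hG h1 hn
  obtain ⟨c', hc', ⟨s', h3'⟩, e'⟩ := eqv_diag h2 hG' h1' (h ▸ hn)
  obtain ⟨t, ht⟩ := hs
  have ht0 : t ≠ 0 := by rintro rfl; exact mul_ne_zero hG hG' (by simpa using ht)
  refine (e.trans (eqv_diag_sq hc hc' ⟨s * s' / t, ?_⟩)).trans e'.symm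
  field_simp
  linear_combination (-(c * c')) * ht + (G'.det * c') * h3 + (s * s) * h3'

theorem eqv_symm_odd [Finite F] (h2 : (2 : F) ≠ 0) {G : Matrix ι ι F} (hG : G.det ≠ 0)
    (h1 : Gᵀ = G) {G' : Matrix κ κ F} (hG' : G'.det ≠ 0) (h1' : G'ᵀ = G')
    (h : Fintype.card ι = Fintype.card κ) (ho : Odd (Fintype.card ι)) :
    Eqv (RingHom.id F) G G' := by
  haveI : Nonempty ι := Fintype.card_pos_iff.1 ho.pos
  obtain ⟨k, hk⟩ := ho
  have h0 := mul_ne_zero hG hG'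
  refine (eqv_smul G h0).trans (eqv_symm h2 (by simp [h0, hG]) (by rw [transpose_smul, h1])
    hG' h1' h ⟨(G.det * G'.det) ^ (k + 1), ?_⟩)
  rw [det_smul, hk]; ring

/-! ### Hermitian forms -/

theorem eqv_herm [Finite F] (hσ : σ ≠ RingHom.id F) (hσ2 : ∀ a, σ (σ a) = a) {G : Matrix ι ι F}
    (hG : G.det ≠ 0) (h1 : (G.map σ)ᵀ = G) {n : ℕ} (hn : Fintype.card ι = n) :
    ∃ e : (ι → F) ≃ₗ[F] (Fin n → F), ∀ u v,
      gform σ (1 : Matrix (Fin n) (Fin n) F) (e u) (e v) = 1 * gform σ G u v := by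
  let B : (ι → F) →ₛₗ[σ] (ι → F) →ₗ[F] F := LinearMap.mk₂'ₛₗ σ (RingHom.id F)
    (fun u v => gform σ G v u) (fun _ _ _ => (isSesq0_gform σ G).add_right _ _ _)
    (fun _ _ _ => (isSesq0_gform σ G).smul_right _ _ _)
    (fun _ _ _ => (isSesq0_gform σ G).add_left _ _ _)
    (fun _ _ _ => (isSesq0_gform σ G).smul_left _ _ _)
  have hS : B.IsSymm := ⟨fun u v => by
    change σ (gform σ G v u) = gform σ G u v
    rw [map_gform hσ2, h1]⟩
  have hH := Forms.ofHerm_isHerm_of_finite hσ hσ2 B hS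
  have hN : (Forms.ofHerm hσ hσ2 B hS).Nondeg := by
    intro x hx
    by_contra h0
    obtain ⟨y, hy⟩ := (nondeg_gform (σ := σ) (Ne.isUnit hG) x h0).1
    exact hy (hx y)
  obtain ⟨b, hb⟩ := hH.exists_orthonormal_basis hN
  have hn' : Module.finrank F (ι → F) = n := by simpa using hn
  subst hn'
  refine ⟨b.equivFun, fun u v => ?_⟩
  rw [← gform_basis G b]
  congr 1
  ext i j
  rw [of_apply, one_apply]
  exact (if_congr eq_comm rfl rfl).trans (hb j i).symm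

end CfsgLib.ElusF
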