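import Mathlib
import Cfsg.Agent.Lib.ElusF.Form
import Cfsg.Agent.Lib.Unitary.Order

/-!
Primes dividing the index of a classical subgroup in the special linear group.
-/

set_option autoImplicit false
set_option linter.unusedSectionVars false

namespace CfsgLib.ElusF

open Matrix Polynomial CfsgLib.MatConj CfsgLib.Elusive CfsgLib.ElusH Cfsg.Geo CfsgLib.Asch

variable {F : Type*} [Field F] [Fintype F] {ι : Type} [Fintype ι] [DecidableEq ι]

theorem relIndex_mul_dvd_pow {K : Type*} [Group K] (H : Subgroup (GL ι F)) (φ : K →* GL ι F)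
    (hφ : Function.Injective φ) (hH : ∀ k, φ k ∈ H) {m : ℕ}
    (hd : ∀ k, (φ k : Matrix ι ι F).det ^ m = 1) :
    H.relIndex (specialLinear ι F) * Nat.card K ∣ m * Nat.card (specialLinear ι F) := by
  let δ : K →* Fˣ := GeneralLinearGroup.det.comp φ
  have h1 := relIndex_mul_dvd H (specialLinear ι F) (φ.comp δ.ker.subtype)
    (hφ.comp δ.ker.subtype_injective) (fun k => hH k) (fun k => k.2)
  have h2 : Nat.card δ.range ∣ m := by
    rw [← IsCyclic.exponent_eq_card, Monoid.exponent_dvd_iff_forall_pow_eq_one]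
    rintro ⟨_, k, rfl⟩
    exact Subtype.ext (Units.ext (by simpa [δ] using hd k))
  rw [← δ.ker.card_mul_index, Subgroup.index_ker, ← mul_assoc, mul_comm m]
  exact Nat.mul_dvd_mul h1 h2

theorem card_SL_mul [Nonempty ι] : (Fintype.card F - 1) * Nat.card (specialLinear ι F) =
    Fintype.card F ^ (Fintype.card ι * (Fintype.card ι - 1) / 2) *
      glo (Fintype.card F) (Fintype.card ι) := by
  rw [card_specialLinear, Classical.sl_card_mul, Classical.gl_card_eq_prod, Classical.sl_prod_sub_eq]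
  rfl

theorem glo_two_mul (q m : ℕ) : glo q (2 * m) = (∏ i ∈ Finset.range m, (q ^ (2 * (i + 1)) - 1)) *
    ∏ i ∈ Finset.range m, (q ^ (2 * i + 1) - 1) := by
  induction m with
  | zero => simp [glo]
  | succ m ih =>
    rw [show 2 * (m + 1) = 2 * m + 1 + 1 by ring, glo, Finset.prod_range_succ,
      Finset.prod_range_succ, ← glo, ih, Finset.prod_range_succ, Finset.prod_range_succ,
      show 2 * (m + 1) = 2 * m + 1 + 1 by ring]
    ring

theorem glo_two_mul_add_one (q m : ℕ) : glo q (2 * m + 1) =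
    (∏ i ∈ Finset.range m, (q ^ (2 * (i + 1)) - 1)) *
      ∏ i ∈ Finset.range (m + 1), (q ^ (2 * i + 1) - 1) := by
  rw [glo, Finset.prod_range_succ, ← glo, glo_two_mul, Finset.prod_range_succ, mul_assoc]

theorem prod_even_ne_zero {q : ℕ} (hq : 1 < q) (m : ℕ) :
    ∏ i ∈ Finset.range m, (q ^ (2 * (i + 1)) - 1) ≠ 0 := fun h =>
  glo_ne_zero hq (2 * m) (by rw [glo_two_mul, h, zero_mul])

variable {p r : ℕ} [hp : Fact p.Prime] [CharP F p] [hr : Fact r.Prime]

theorem odd_ord_of_dvd {m : ℕ} (h : r ∣ ∏ i ∈ Finset.range m, (Fintype.card F ^ (2 * i + 1) - 1)) :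
    Odd (orderOf (Fintype.card F : ZMod r)) ∧ orderOf (Fintype.card F : ZMod r) < 2 * m := by
  obtain ⟨i, hi, h⟩ := (hr.out.prime.dvd_finsetProd_iff _).1 h
  rw [dvd_pow_sub_one_iff Fintype.card_pos] at h
  have := Nat.le_of_dvd (by omega) h
  have := Finset.mem_range.1 hi
  exact ⟨Odd.of_dvd_nat ⟨i, rfl⟩ h, by omega⟩

include hp in
theorem ord_le_of_dvd_card (hrp : r ≠ p) [Nonempty ι] (h : r ∣ Nat.card (specialLinear ι F)) :
    orderOf (Fintype.card F : ZMod r) ≤ Fintype.card ι := by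
  have h1 := h.trans (Dvd.intro_left _ (card_SL_mul (F := F) (ι := ι)))
  have h2 : r ∣ glo (Fintype.card F) (Fintype.card ι) :=
    ((Nat.Prime.dvd_mul hr.out).1 h1).resolve_left fun h3 =>
      not_dvd_card hrp (hr.out.dvd_of_dvd_pow h3)
  obtain ⟨i, hi, h⟩ := (hr.out.prime.dvd_finsetProd_iff _).1 h2
  rw [dvd_pow_sub_one_iff Fintype.card_pos] at h
  have := Nat.le_of_dvd (by omega) h
  have := Finset.mem_range.1 hi
  omega

include hp in
theorem index_symp (hrp : r ≠ p) [Nonempty ι] {f : (ι → F) → (ι → F) → F}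
    (hf : IsSymplecticForm f) (h : r ∣ (similarityGroup f).relIndex (specialLinear ι F)) :
    Odd (orderOf (Fintype.card F : ZMod r)) ∧
      orderOf (Fintype.card F : ZMod r) < Fintype.card ι := by
  obtain ⟨h0, h1, h2⟩ := gram_symp hf
  obtain ⟨m, hm⟩ := even_card_of_symplectic hf
  rw [← two_mul] at hm
  obtain ⟨e, he⟩ := eqv_J h0 h1 h2 hm
  let φ : symplecticGroup (Fin m) F →* GL ι F :=
    ((tr e).comp (symplecticGroup (Fin m) F).subtype).toHomUnits
  have key := relIndex_mul_dvd_pow (similarityGroup f) φ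
    (fun a b h => Subtype.ext (tr_injective e (congrArg Units.val h)))
    (fun k => (mem_sim_iff (isSesq0_of_bilin hf.bilinear)).2
      ⟨1, one_ne_zero, (mem_sp_iff_sm.1 k.2).tr one_ne_zero he⟩) (m := 1)
    (fun k => by
      rw [pow_one]
      exact (det_tr e _).trans (SymplecticGroup.det_eq_one k.2))
  rw [one_mul] at key
  replace key := key.trans (Dvd.intro_left _ card_SL_mul)
  rw [Symp.card_sp, hm, glo_two_mul] at key
  rw [hm]
  exact odd_ord_of_dvd (prime_dvd_of_mul_dvd hr.out (not_dvd_card hrp)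
    (prod_even_ne_zero Fintype.one_lt_card m) key h)

/-- The quadratic form of a Gram matrix. -/
def qG (G : Matrix ι ι F) : QuadraticForm F (ι → F) := (toBilin' G).toQuadraticMap

omit [Fintype F] in
theorem qG_nondeg (h2 : (2 : F) ≠ 0) {G : Matrix ι ι F} (hG : G.det ≠ 0) (h1 : Gᵀ = G) :
    (QuadraticMap.polarBilin (qG G)).Nondegenerate := by
  rw [qG, polarBilin_toBilin', h1, ← two_smul F G]
  exact nondeg_toBilin' (by simp [h2, hG])

omit [Fintype F] in
theorem sm_iff_qG (h2 : (2 : F) ≠ 0) {G A : Matrix ι ι F} (h1 : Gᵀ = G) :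
    Sm (RingHom.id F) G A 1 ↔ ∀ v, qG G (A *ᵥ v) = qG G v := by
  constructor
  · intro h v
    have := sm_iff.1 h v v
    rwa [one_mul, gform_id, gform_id] at this
  · intro h
    refine sm_iff.2 fun u v => mul_left_cancel₀ h2 ?_
    have := polar_of_isometry h u v
    rw [qG, polarBilin_toBilin', h1, ← two_smul F G] at this
    simpa [gform_id] using this

omit [Fintype F] in
theorem Sm.det_sq {G A : Matrix ι ι F} (hG : G.det ≠ 0) (h : Sm (RingHom.id F) G A 1) :
    A.det ^ 2 = 1 := by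
  have := congrArg det (sm_id.1 h)
  rw [det_mul, det_mul, det_transpose, one_smul] at this
  refine mul_right_cancel₀ hG ?_
  linear_combination this

theorem index_mul_O (h2 : (2 : F) ≠ 0) [Nonempty ι] {f : (ι → F) → (ι → F) → F}
    (hf : IsSymmetricForm f) : (similarityGroup f).relIndex (specialLinear ι F) *
      Nat.card (OrthE.O (qG (gramMatrix f))) ∣ 2 * (Fintype.card F ^
        (Fintype.card ι * (Fintype.card ι - 1) / 2) * glo (Fintype.card F) (Fintype.card ι)) := by
  have hs := isSesq0_of_bilin hf.bilinear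
  have h1 : (gramMatrix f)ᵀ = gramMatrix f := by ext i j; exact hf.symm _ _
  let φ : OrthE.O (qG (gramMatrix f)) →* GL ι F :=
    (Forms.glEquiv (F := F) (ι := ι)).symm.toMonoidHom.comp (Subgroup.subtype _)
  have hφ : ∀ k, Sm (RingHom.id F) (gramMatrix f) (φ k) 1 := fun k =>
    (sm_iff_qG h2 h1).2 fun v => by
      rw [← Forms.glEquiv_apply]
      simpa [φ] using k.2 v
  have key := relIndex_mul_dvd_pow (similarityGroup f) φ
    (Forms.glEquiv.symm.injective.comp Subtype.val_injective)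
    (fun k => (mem_sim_iff hs).2 ⟨1, one_ne_zero, hφ k⟩) (m := 2)
    (fun k => (hφ k).det_sq (hs.isUnit_det hf.nondegenerate).ne_zero)
  rw [← card_SL_mul]
  exact key.trans (Nat.mul_dvd_mul_left _ (Dvd.intro_left _ rfl))

theorem two_mul_dvd_iff {a b c : ℕ} (h : a * (2 * b) ∣ 2 * c) : a * b ∣ c :=
  Nat.dvd_of_mul_dvd_mul_left two_pos (by rwa [mul_left_comm] at h)

include hp in
theorem index_symm_odd (hrp : r ≠ p) (h2 : (2 : F) ≠ 0) {f : (ι → F) → (ι → F) → F}
    (hf : IsSymmetricForm f) (ho : Odd (Fintype.card ι))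
    (h : r ∣ (similarityGroup f).relIndex (specialLinear ι F)) :
    Odd (orderOf (Fintype.card F : ZMod r)) ∧
      orderOf (Fintype.card F : ZMod r) ≤ Fintype.card ι := by
  haveI : Nonempty ι := Fintype.card_pos_iff.1 ho.pos
  have hs := isSesq0_of_bilin hf.bilinear
  have h1 : (gramMatrix f)ᵀ = gramMatrix f := by ext i j; exact hf.symm _ _
  obtain ⟨k, hk⟩ := ho
  have key := index_mul_O h2 hf
  have hc := OrthE.card_O_odd k (qG (gramMatrix f)) ((OrthE.nondeg_iff _).2
    (qG_nondeg h2 (hs.isUnit_det hf.nondegenerate).ne_zero h1)) (by simpa using hk)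
  rw [← OrthE.cast_prod_sub_one _ Nat.card_pos, Nat.card_eq_fintype_card (α := F)] at hc
  norm_cast at hc
  rw [hc, hk, glo_two_mul_add_one, mul_assoc 2] at key
  have := odd_ord_of_dvd (prime_dvd_of_mul_dvd hr.out (not_dvd_card hrp)
    (prod_even_ne_zero Fintype.one_lt_card k) (two_mul_dvd_iff key) h)
  obtain ⟨⟨j, hj⟩, h3⟩ := this
  exact ⟨⟨j, hj⟩, by omega⟩

include hp in
theorem index_symm_even (hrp : r ≠ p) (h2 : (2 : F) ≠ 0) {f : (ι → F) → (ι → F) → F}
    (hf : IsSymmetricForm f) {k : ℕ} (hk : Fintype.card ι = 2 * k + 2)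
    (h : r ∣ (similarityGroup f).relIndex (specialLinear ι F)) :
    (Odd (orderOf (Fintype.card F : ZMod r)) ∧
      orderOf (Fintype.card F : ZMod r) ≤ Fintype.card ι) ∨
      (IsPlus (qG (gramMatrix f)) ∧ (Fintype.card F : ZMod r) ^ (k + 1) = -1) ∨
      (¬ IsPlus (qG (gramMatrix f)) ∧ (Fintype.card F : ZMod r) ^ (k + 1) = 1) := by
  haveI : Nonempty ι := Fintype.card_pos_iff.1 (by omega)
  have hs := isSesq0_of_bilin hf.bilinear
  have h1 : (gramMatrix f)ᵀ = gramMatrix f := by ext i j; exact hf.symm _ _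
  have key := index_mul_O h2 hf
  have hn := qG_nondeg h2 (hs.isUnit_det hf.nondegenerate).ne_zero h1
  have hz := card_zeros_eq hn (m := k) (by simpa using hk)
  have hq : 1 < Fintype.card F := Fintype.one_lt_card
  have hq1 : 1 ≤ Fintype.card F ^ (k + 1) := Nat.one_le_pow _ _ (by omega)
  have hq2 : Fintype.card F ^ (k + 1) - 1 ≠ 0 := by
    have := Nat.one_lt_pow (n := k + 1) (by omega) hq; omega
  have hg : glo (Fintype.card F) (Fintype.card ι) =
      (∏ i ∈ Finset.range k, (Fintype.card F ^ (2 * (i + 1)) - 1)) *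
        ((Fintype.card F ^ (k + 1) + 1) * (Fintype.card F ^ (k + 1) - 1)) *
        ∏ i ∈ Finset.range (k + 1), (Fintype.card F ^ (2 * i + 1) - 1) := by
    rw [hk, show 2 * k + 2 = 2 * (k + 1) by ring, glo_two_mul, Finset.prod_range_succ,
      ← Nat.sq_sub_sq, one_pow, ← pow_mul, mul_comm (k + 1) 2]
  have fin : r ∣ ∏ i ∈ Finset.range (k + 1), (Fintype.card F ^ (2 * i + 1) - 1) →
      Odd (orderOf (Fintype.card F : ZMod r)) ∧
        orderOf (Fintype.card F : ZMod r) ≤ Fintype.card ι := fun h =>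
    ⟨(odd_ord_of_dvd h).1, by have := (odd_ord_of_dvd h).2; omega⟩
  by_cases hP : IsPlus (qG (gramMatrix f))
  · rw [if_pos hP] at hz
    have hc := OrthE.card_O_even 1 (Or.inl rfl) k _ ((OrthE.nondeg_iff _).2 hn)
      (by simp [hk]; ring) hz
    rw [← OrthE.cast_prod_sub_one _ Nat.card_pos, Nat.card_eq_fintype_card (α := F)] at hc
    have hc' : Nat.card (OrthE.O (qG (gramMatrix f))) = 2 * (Fintype.card F ^ ((k + 1) * k) *
        ((∏ i ∈ Finset.range k, (Fintype.card F ^ (2 * (i + 1)) - 1)) *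
          (Fintype.card F ^ (k + 1) - 1))) := by
      zify [hq1]
      rw [hc]; push_cast; ring
    rw [hc', hg] at key
    have := prime_dvd_of_mul_dvd (B := (Fintype.card F ^ (k + 1) + 1) *
      ∏ i ∈ Finset.range (k + 1), (Fintype.card F ^ (2 * i + 1) - 1)) hr.out (not_dvd_card hrp)
      (mul_ne_zero (prod_even_ne_zero hq k) hq2)
      (by convert two_mul_dvd_iff key using 2; ring) h
    rcases (Nat.Prime.dvd_mul hr.out).1 this with h3 | h3
    · exact Or.inr (Or.inl ⟨hP, (dvd_pow_add_one_iff _).1 h3⟩)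
    · exact Or.inl (fin h3)
  · rw [if_neg hP] at hz
    have hc := OrthE.card_O_even (-1) (Or.inr rfl) k _ ((OrthE.nondeg_iff _).2 hn)
      (by simp [hk]; ring) hz
    rw [← OrthE.cast_prod_sub_one _ Nat.card_pos, Nat.card_eq_fintype_card (α := F)] at hc
    have hc' : Nat.card (OrthE.O (qG (gramMatrix f))) = 2 * (Fintype.card F ^ ((k + 1) * k) *
        ((∏ i ∈ Finset.range k, (Fintype.card F ^ (2 * (i + 1)) - 1)) *
          (Fintype.card F ^ (k + 1) + 1))) := by
      zify
      rw [hc]; push_cast; ring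
    rw [hc', hg] at key
    have := prime_dvd_of_mul_dvd (B := (Fintype.card F ^ (k + 1) - 1) *
      ∏ i ∈ Finset.range (k + 1), (Fintype.card F ^ (2 * i + 1) - 1)) hr.out (not_dvd_card hrp)
      (mul_ne_zero (prod_even_ne_zero hq k) (show Fintype.card F ^ (k + 1) + 1 ≠ 0 by omega))
      (by convert two_mul_dvd_iff key using 2; ring) h
    rcases (Nat.Prime.dvd_mul hr.out).1 this with h3 | h3
    · exact Or.inr (Or.inr ⟨hP, orderOf_dvd_iff_pow_eq_one.1
        ((dvd_pow_sub_one_iff Fintype.card_pos _).1 h3)⟩)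
    · exact Or.inl (fin h3)

theorem gram_herm {q : ℕ} (hF : Fintype.card F = q ^ 2) {f : (ι → F) → (ι → F) → F}
    (hf : IsUnitaryFormPow q f) : IsSesq0 (Unitary.conj hF) f ∧ (gramMatrix f).det ≠ 0 ∧
      ((gramMatrix f).map (Unitary.conj hF))ᵀ = gramMatrix f := by
  have hs : IsSesq0 (Unitary.conj hF) f := ⟨hf.add_left, hf.smul_left, fun v x y => by
    rw [hf.herm, hf.add_left, Unitary.add_pow_q hF, ← hf.herm, ← hf.herm], fun c v x => by
    rw [hf.herm, hf.smul_left, mul_pow, ← hf.herm, Unitary.conj_apply]⟩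
  exact ⟨hs, (hs.isUnit_det hf.nondegenerate).ne_zero, by ext i j; exact (hf.herm _ _).symm⟩

include hp in
theorem index_herm (hrp : r ≠ p) [Nonempty ι] {q : ℕ} (hF : Fintype.card F = q ^ 2)
    {f : (ι → F) → (ι → F) → F} (hf : IsUnitaryFormPow q f)
    (h : r ∣ (similarityGroup f).relIndex (specialLinear ι F)) :
    ∃ j, 1 ≤ j ∧ j ≤ Fintype.card ι ∧ (-(q : ZMod r)) ^ j = -1 := by
  obtain ⟨hs, h0, h1⟩ := gram_herm hF hf
  obtain ⟨n, hn⟩ : ∃ n, Fintype.card ι = n := ⟨_, rfl⟩
  obtain ⟨e, he⟩ := eqv_herm (Unitary.conj_ne_id hF) (Unitary.conj_conj hF) h0 h1 hn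
  let φ : Cfsg.GU n F q →* GL ι F := (Units.map (tr e)).comp (Subgroup.subtype _)
  have hφ : ∀ k : Cfsg.GU n F q,
      Sm (Unitary.conj hF) 1 ((k : GL (Fin n) F) : Matrix (Fin n) (Fin n) F) 1 := fun k => by
    rw [Sm, mul_one, one_smul]
    exact (Unitary.mem_GU_iff hF _).1 k.2
  have key := relIndex_mul_dvd_pow (similarityGroup f) φ
    (fun a b h => Subtype.ext (Units.ext (tr_injective e (congrArg Units.val h))))
    (fun k => (mem_sim_iff hs).2 ⟨1, one_ne_zero, (hφ k).tr one_ne_zero he⟩) (m := q + 1)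
    (fun k => by
      have := Unitary.det_norm_of_pres hF ((Unitary.mem_GU_iff' _).1 k.2)
      rwa [← det_tr e] at this)
  have hq := Unitary.two_le_q hF
  have hSL := card_SL_mul (F := F) (ι := ι)
  rw [hF, Unitary.sq_sub_one_eq q (by omega), mul_comm (q + 1), mul_assoc, hn] at hSL
  replace key := key.trans (Dvd.intro_left (q - 1) hSL)
  have hg : glo (q ^ 2) n = (∏ i ∈ Finset.range n,
      if Even i then q ^ (i + 1) + 1 else q ^ (i + 1) - 1) * ∏ i ∈ Finset.range n,
      if Even i then q ^ (i + 1) - 1 else q ^ (i + 1) + 1 := by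
    rw [glo, ← Finset.prod_mul_distrib]
    refine Finset.prod_congr rfl fun i _ => ?_
    rw [← pow_mul, mul_comm 2, pow_mul, ← one_pow 2, Nat.sq_sub_sq]
    split_ifs
    · rw [one_pow]
    · rw [one_pow, mul_comm]
  rw [Unitary.card_GU hF, hg, ← pow_mul] at key
  have hrq : ¬ r ∣ q := fun h => not_dvd_card (F := F) hrp (hF ▸ h.trans (dvd_pow_self q (by norm_num)))
  have := prime_dvd_of_mul_dvd hr.out hrq (fun h => glo_ne_zero (q := q ^ 2)
    (Nat.one_lt_pow (by norm_num) hq) n (by rw [hg, h, zero_mul])) key h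
  obtain ⟨i, hi, h⟩ := (hr.out.prime.dvd_finsetProd_iff _).1 this
  refine ⟨i + 1, by omega, hn ▸ Finset.mem_range.1 hi, ?_⟩
  split_ifs at h with hi
  · rw [dvd_pow_sub_one_iff (by omega), orderOf_dvd_iff_pow_eq_one] at h
    rw [hi.add_one.neg_pow, h]
  · rw [dvd_pow_add_one_iff] at h
    rw [(Nat.not_even_iff_odd.1 hi).add_one.neg_pow, h]

end CfsgLib.ElusF
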