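import Mathlib
import Cfsg.Agent.Lib.ElusF.Index

/-!
Test elements for similarity groups of forms; the shape of projective involutions.
-/

set_option autoImplicit false
set_option linter.unusedSectionVars false

namespace CfsgLib.ElusF

open Matrix Polynomial CfsgLib.MatConj CfsgLib.Elusive CfsgLib.ElusH Cfsg.Geo CfsgLib.Asch

variable {F : Type*} [Field F] {ι : Type} [Fintype ι] [DecidableEq ι] {σ : F →+* F}

theorem ssEd_eq_edOf (e : ℕ) (t : Multiset F[X]) : ssEd e t = edOf e t := by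
  rw [ssEd, edOf, Multiset.map_replicate, add_comm]

theorem mem_cyc_iff_cycFac {r : ℕ} {f : F[X]} : f ∈ cyc F r ↔ f ∈ cycFac F r := by
  rw [mem_cycFac, mem_cyc]

theorem Bad.norm_eq_one {r : ℕ} (hr : r ≠ 0) {A : Matrix ι ι F} {b ω : F} (h : Bad r A b ω)
    {f : (ι → F) → (ι → F) → F} (hf : IsSesq0 σ f) (hn : IsNondegenerateForm f)
    (hc : CI (similarityGroup f) A) : ω * σ ω = 1 := by
  obtain ⟨B, μ, h0, e, hB⟩ := (ci_sim_iff hf hn).1 hc
  obtain ⟨h1, h2⟩ := h.fix hr (fun a => μ * (σ a)⁻¹) fun a ha => by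
    rw [rk_of_isConj e, rk_of_isConj e, hB.rk (hf.isUnit_det hn).ne_zero h0 ha]
  have hb : σ b ≠ 0 := (_root_.map_ne_zero σ).2 h.b_ne
  have hω : σ ω ≠ 0 := by
    rw [_root_.map_ne_zero]
    rintro rfl
    have := h.ω_pow
    rw [zero_pow hr] at this
    exact zero_ne_one this
  simp only [map_mul] at h1 h2
  field_simp at h1 h2
  refine mul_left_cancel₀ (mul_ne_zero h.b_ne hb) ?_
  linear_combination h1 - h2

theorem eq_one_of_sq_of_odd {r : ℕ} (hr : Odd r) {ω : F} (h : ω * ω = 1) (h' : ω ^ r = 1) :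
    ω = 1 := by
  obtain ⟨k, rfl⟩ := hr
  rwa [pow_succ, pow_mul, sq, h, one_pow, one_mul] at h'

/-- The companion matrix of `X ^ 2 - z`, repeated. -/
def nsM (κ : Type) [DecidableEq κ] (z : F) : Matrix (Fin 2 × κ) (Fin 2 × κ) F :=
  blockDiagonal fun _ => !![0, z; 1, 0]

theorem nsM_sq (κ : Type) [Fintype κ] [DecidableEq κ] (z : F) : nsM κ z ^ 2 = z • 1 := by
  rw [nsM, ← blockDiagonal_pow, ← blockDiagonal_one, ← blockDiagonal_smul]
  congr 1
  funext i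
  simp only [Pi.pow_apply, Pi.smul_apply, Pi.one_apply, sq]
  ext a b; fin_cases a <;> fin_cases b <;> simp

theorem sm_nsM {κ : Type} [Fintype κ] [DecidableEq κ] (z μ : F) (G : κ → Matrix (Fin 2) (Fin 2) F)
    (h : ∀ i, !![0, z; 1, 0]ᵀ * G i * !![0, z; 1, 0] = μ • G i) :
    Sm (RingHom.id F) (blockDiagonal G) (nsM κ z) μ := by
  rw [sm_id, nsM, blockDiagonal_transpose, ← blockDiagonal_mul, ← blockDiagonal_mul,
    ← blockDiagonal_smul]
  congr 1
  funext i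
  exact h i

section finite
variable [Fintype F] {p r : ℕ} [hp : Fact p.Prime] [CharP F p] [hr : Fact r.Prime]

theorem edM_eq_nsM {A : Matrix ι ι F} {z : F} (hA : A ^ 2 = z • 1) (hz : ∀ b : F, b ^ 2 ≠ z) :
    ∃ m, Fintype.card ι = 2 * m ∧ edM A = edM (nsM (Fin m) z) := by
  haveI : Fact (Nat.Prime 2) := ⟨Nat.prime_two⟩
  obtain ⟨m, hm⟩ := dvd_finrank_of_nonsplit (T := toLin' A) ((toLin'_pow_eq_smul_iff A 2 z).2 hA)
    hz (inv_top _)
  rw [finrank_top, Module.finrank_fintype_fun_eq_card] at hm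
  exact ⟨m, hm, edM_eq_of_irreducible (irreducible_nonsplit hz) (monic_X_pow_sub_C z two_ne_zero)
    (aeval_X_pow_sub_C.2 hA) (aeval_X_pow_sub_C.2 (nsM_sq _ z)) (by simp [hm])⟩

theorem exists_sm_one (h : ¬ r ∣ Fintype.card F - 1) {A : Matrix ι ι F} [Nonempty ι]
    (hA : A ^ r = 1) {f : (ι → F) → (ι → F) → F} (hf : IsSesq0 σ f) (hn : IsNondegenerateForm f)
    (hc : CI (similarityGroup f) A) : ∃ B, IsConj A B ∧ Sm σ (gramMatrix f) B 1 := by
  obtain ⟨B, μ, -, e, hB⟩ := (ci_sim_iff hf hn).1 hc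
  have := hB.pow_eq (hf.isUnit_det hn).ne_zero (k := r) (z := 1)
    (by rw [one_smul, pow_eq_one_of_isConj e hA])
  rw [map_one, mul_one] at this
  exact ⟨B, e, eq_one_of_pow_eq_one h this ▸ hB⟩

theorem tilde_eq_of_ci (h : ¬ r ∣ Fintype.card F - 1) (hσ : ∀ x, σ (σ x) = x)
    {A : Matrix ι ι F} [Nonempty ι] (hA : A ^ r = 1) {e : ℕ} {π : F[X]}
    (hE : edM A = ssEd e {π}) {f : (ι → F) → (ι → F) → F} (hf : IsSesq0 σ f)
    (hn : IsNondegenerateForm f) (hc : CI (similarityGroup f) A) : tilde σ π = π := by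
  obtain ⟨B, e, hB⟩ := exists_sm_one h hA hf hn hc
  have := hB.edM_tilde hσ (hf.isUnit_det hn).ne_zero
  rw [← isConj_iff_edM.1 e, hE, ssEd_eq_edOf] at this
  simpa using map_tilde_of_edOf this

include hp in
theorem not_ci_of_odd_ord (hrp : r ≠ p) (hr2 : r ≠ 2) (h : ¬ r ∣ Fintype.card F - 1) [Nonempty ι]
    (ho : Odd (orderOf (Fintype.card F : ZMod r)))
    (hle : orderOf (Fintype.card F : ZMod r) ≤ Fintype.card ι) {f : (ι → F) → (ι → F) → F}
    (hf : IsBilinearForm f) (hn : IsNondegenerateForm f) :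
    ∃ A : Matrix ι ι F, A.det = 1 ∧ PE r A ∧ ¬ CI (similarityGroup f) A := by
  obtain ⟨A, π, h1, h2, h3, h4, h5, -⟩ := exists_one_block (ι := ι) hrp h hle
  refine ⟨A, h4, h5, fun hc => ?_⟩
  have := tilde_eq_of_ci h (σ := RingHom.id F) (fun _ => rfl) h3 h2 (isSesq0_of_bilin hf)
    hn hc
  rw [tilde_id_eq_self_iff hr.out hrp hr2 (mem_cyc_iff_cycFac.1 h1)] at this
  exact (Nat.not_even_iff_odd.2 ho) this

theorem not_ci_of_bad (hr2 : r ≠ 2) (hq : r ∣ Fintype.card F - 1) (hn : 3 ≤ Fintype.card ι)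
    (h6 : ¬ (Fintype.card ι = 6 ∧ r = 3))
    (hex : ¬ ((r = 3 ∨ r = 5) ∧ Fintype.card ι = r ∧ padicValNat r (Fintype.card F - 1) = 1))
    {f : (ι → F) → (ι → F) → F} (hf : IsSesq0 σ f) (hnd : IsNondegenerateForm f)
    (hσ : ∀ ω : F, ω ^ r = 1 → σ ω = ω) :
    ∃ A : Matrix ι ι F, A.det = 1 ∧ PE r A ∧ ¬ CI (similarityGroup f) A := by
  obtain ⟨A, b, ω, h⟩ := exists_bad (F := F) (ι := ι) hr2 hq hn h6 hex
  refine ⟨A, h.det, h.pe, fun hc => h.ω_ne ?_⟩
  have := Bad.norm_eq_one hr.out.ne_zero h hf hnd hc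
  rw [hσ ω h.ω_pow] at this
  exact eq_one_of_sq_of_odd (hr.out.odd_of_ne_two hr2) this h.ω_pow

include hp in
theorem two_ne_zero_iff : (2 : F) ≠ 0 ↔ 2 ≠ p := by
  rw [← Nat.cast_ofNat, Ne, CharP.cast_eq_zero_iff F p, Nat.prime_dvd_prime_iff_eq hp.out
    Nat.prime_two, ne_comm]

include hp in
theorem odd_card_iff' : Odd (Fintype.card F) ↔ 2 ≠ p := by
  rw [odd_card_iff, two_ne_zero_iff (p := p)]

theorem two_dvd_of_odd (h : Odd (Fintype.card F)) : 2 ∣ Fintype.card F - 1 := by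
  obtain ⟨m, hm⟩ := h; omega

theorem pow_ne_neg_one (h2 : (2 : F) ≠ 0) {n : ℕ} (hn : n ≠ 0)
    (hv : padicValNat 2 (Fintype.card F - 1) ≤ padicValNat 2 n) (b : F) : b ^ n ≠ -1 := by
  haveI : Fact (Nat.Prime 2) := ⟨Nat.prime_two⟩
  intro hb
  have hb0 : b ≠ 0 := by
    rintro rfl
    rw [zero_pow hn] at hb
    exact one_ne_zero (neg_eq_zero.1 hb.symm)
  have h0 : Fintype.card F - 1 ≠ 0 := by have := Fintype.one_lt_card (α := F); omega
  obtain ⟨a, m, hm, h⟩ := Nat.exists_eq_two_pow_mul_odd h0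
  have ha : 2 ^ a ∣ n := (padicValNat_dvd_iff_le hn).2
    (((padicValNat_dvd_iff_le h0).1 ⟨m, h⟩).trans hv)
  obtain ⟨k, rfl⟩ := ha
  have h1 : (b ^ (2 ^ a * k)) ^ m = 1 := by
    rw [← pow_mul, mul_right_comm, ← h, pow_mul, FiniteField.pow_card_sub_one_eq_one b hb0, one_pow]
  rw [hb, hm.neg_one_pow] at h1
  exact h2 (by linear_combination -h1)

theorem eq_X_add_one_of_mem_cyc {f : F[X]} (hf : f ∈ cyc F 2) : f = X + 1 := by
  haveI : Fact (Nat.Prime 2) := ⟨Nat.prime_two⟩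
  obtain ⟨h1, h2, h3⟩ := mem_cyc.1 hf
  rw [cyclotomic_two] at h3
  exact eq_of_monic_of_associated h2 monic_X_add_one
    (h1.associated_of_dvd irreducible_X_add_one h3)

include hp in
theorem edM_of_sq (h2 : 2 ≠ p) {A : Matrix ι ι F} (hA : A ^ 2 = 1) : ∃ e s,
    edM A = Multiset.replicate e (X - 1, 1) + Multiset.replicate s (X + 1, 1) ∧
      e + s = Fintype.card ι ∧ A.det = (-1) ^ s := by
  haveI : Fact (Nat.Prime 2) := ⟨Nat.prime_two⟩
  obtain ⟨e, t, ht, h⟩ := edM_ssEd h2 hA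
  have h1 : t = Multiset.replicate (Multiset.card t) (X + 1) :=
    Multiset.eq_replicate.2 ⟨rfl, fun f hf => eq_X_add_one_of_mem_cyc (ht f hf)⟩
  have h3 := (rank_of_ssEd h2 ht h).2
  rw [ord_eq_one_iff.2 (two_dvd_of_odd ((odd_card_iff' (p := p)).2 h2)), one_mul] at h3
  rw [h1, ssEd, Multiset.map_replicate] at h
  refine ⟨e, _, h, h3, ?_⟩
  have := det_eq_prod_ed (toLin' A)
  rw [LinearMap.det_toLin'] at this
  rw [this, ← edM, h]
  have e1 : (X + 1 : F[X]).natDegree = 1 := by simpa using natDegree_X_add_C (1 : F)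
  simp [natDegree_X_sub_one, e1]

include hp in
/-- Projective involutions when `(q - 1)_2 ≤ (n)_2`. -/
theorem invol_cases (h2 : 2 ≠ p)
    (hv : padicValNat 2 (Fintype.card F - 1) ≤ padicValNat 2 (Fintype.card ι))
    {A : Matrix ι ι F} (hd : A.det = 1) (hA : PE 2 A) :
    (∃ (b : F) (e s : ℕ), b ≠ 0 ∧ 2 * (e + s) = Fintype.card ι ∧ edM (b • A) =
      Multiset.replicate (2 * e) (X - 1, 1) + Multiset.replicate (2 * s) (X + 1, 1)) ∨
      ∃ z : F, A ^ 2 = z • 1 ∧ ∀ b : F, b ^ 2 ≠ z := by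
  haveI : Fact (Nat.Prime 2) := ⟨Nat.prime_two⟩
  haveI := hA.nonempty
  refine (hA.split_or (by rw [hd]; exact one_ne_zero)).imp_left ?_
  rintro ⟨b, hb, h⟩
  obtain ⟨e, s, h1, h3, h4⟩ := edM_of_sq h2 h
  rw [det_smul, hd, mul_one] at h4
  have hs : Even s := by
    by_contra hs
    rw [(Nat.not_even_iff_odd.1 hs).neg_one_pow] at h4
    exact pow_ne_neg_one ((two_ne_zero_iff (p := p)).2 h2) Fintype.card_ne_zero hv b h4
  have h0 : Fintype.card F - 1 ≠ 0 := by have := Fintype.one_lt_card (α := F); omega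
  have hn : 2 ∣ Fintype.card ι := dvd_of_one_le_padicValNat
    ((one_le_padicValNat_of_dvd h0 (two_dvd_of_odd ((odd_card_iff' (p := p)).2 h2))).trans hv)
  obtain ⟨s, rfl⟩ := hs
  obtain ⟨e, rfl⟩ : 2 ∣ e := by omega
  exact ⟨b, e, s, hb, by omega, by rw [h1, two_mul s]⟩

theorem padicValNat_two_of_char_two [CharP F 2] : padicValNat 2 (Fintype.card F - 1) = 0 :=
  haveI : Fact (Nat.Prime 2) := ⟨Nat.prime_two⟩
  padicValNat.eq_zero_of_not_dvd char_not_dvd_sub_one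

end finite

end CfsgLib.ElusF
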