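import Mathlib
import Cfsg.Agent.Lib.ElusF.Tests
import Cfsg.Agent.Lib.Asch.Tensor

/-!
Eigenspace codimensions of Kronecker products.
-/

set_option autoImplicit false
set_option linter.unusedSectionVars false

namespace CfsgLib.ElusF

open Matrix Polynomial CfsgLib.MatConj CfsgLib.Elusive CfsgLib.ElusH Cfsg.Geo CfsgLib.Asch
open scoped Kronecker

variable {F : Type*} [Field F] {ι α β : Type} [Fintype ι] [DecidableEq ι] [Fintype α]
  [DecidableEq α] [Fintype β] [DecidableEq β]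

theorem gcdDeg_add_rk (A : Matrix ι ι F) (c : F) :
    gcdDeg (edM A) (X - C c) + rk A c = Fintype.card ι := by
  have := gcdDeg_edM_add_rank A (X - C c)
  rwa [map_sub, aeval_X, aeval_C, Algebra.algebraMap_eq_smul_one] at this

theorem card_eq_of_edM {A : Matrix ι ι F} {B : Matrix α α F} (h : edM A = edM B) :
    Fintype.card ι = Fintype.card α := by rw [card_eq_mdeg A, card_eq_mdeg B, h]

theorem rk_of_edM {A : Matrix ι ι F} {B : Matrix α α F} (h : edM A = edM B) (c : F) :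
    rk A c = rk B c := by
  have h1 := gcdDeg_add_rk A c
  have h2 := gcdDeg_add_rk B c
  have := card_eq_of_edM h
  rw [h] at h1
  omega

theorem pow_eq_of_edM {A : Matrix ι ι F} {B : Matrix α α F} (h : edM A = edM B) {k : ℕ} {z : F}
    (hA : A ^ k = z • 1) : B ^ k = z • 1 := by
  rw [← aeval_X_pow_sub_C, aeval_eq_zero_iff_edM] at hA ⊢
  rwa [← h]

theorem rk_eq_zero_iff {A : Matrix ι ι F} {c : F} : rk A c = 0 ↔ A = c • 1 := by
  rw [rk, ← sub_eq_zero (a := A)]
  refine ⟨fun h => ?_, fun h => by rw [h, rank_zero]⟩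
  rw [Matrix.rank, Submodule.finrank_eq_zero, LinearMap.range_eq_bot] at h
  exact toLin'.injective (by rw [map_zero]; exact h)

theorem edM_blockDiagonal (B : Matrix α α F) :
    edM (blockDiagonal fun _ : β => B) = Fintype.card β • edM B := by
  have : (blockDiagonal fun _ : β => B) = reindex ((Equiv.sigmaEquivProd β α).trans
      (Equiv.prodComm _ _)) ((Equiv.sigmaEquivProd β α).trans (Equiv.prodComm _ _))
      (blockDiagonal' fun _ : β => B) := by
    ext ⟨i, k⟩ ⟨j, l⟩; rfl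
  rw [this, edM_reindex, edM_blockDiagonal']
  simp

theorem edM_kronecker_comm (A : Matrix α α F) (B : Matrix β β F) :
    edM (A ⊗ₖ B) = edM (B ⊗ₖ A) := by
  rw [← edM_reindex (Equiv.prodComm _ _)]
  congr 1
  ext ⟨i, k⟩ ⟨j, l⟩
  simp [mul_comm]

theorem edM_kronecker_one (B : Matrix α α F) :
    edM (B ⊗ₖ (1 : Matrix β β F)) = Fintype.card β • edM B := by
  rw [kronecker_one, edM_blockDiagonal]

theorem edM_one_kronecker (B : Matrix β β F) :
    edM ((1 : Matrix α α F) ⊗ₖ B) = Fintype.card α • edM B := by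
  rw [edM_kronecker_comm, edM_kronecker_one]

theorem gcdDeg_nsmul (k : ℕ) (s : Multiset (F[X] × ℕ)) (a : F[X]) :
    gcdDeg (k • s) a = k * gcdDeg s a := by
  induction k with
  | zero => simp [gcdDeg_zero]
  | succ k ih => rw [succ_nsmul, gcdDeg_add, ih, add_mul, one_mul]

theorem rk_one_kronecker (B : Matrix β β F) (c : F) :
    rk ((1 : Matrix α α F) ⊗ₖ B) c = Fintype.card α * rk B c := by
  have h1 := gcdDeg_add_rk ((1 : Matrix α α F) ⊗ₖ B) c
  rw [edM_one_kronecker, gcdDeg_nsmul, Fintype.card_prod, ← gcdDeg_add_rk B c, mul_add] at h1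
  omega

theorem exists_dot_of_not_scalar {g : Matrix α α F} (h : ∀ c : F, g ≠ c • 1) :
    ∃ φ v : α → F, φ ⬝ᵥ v = 0 ∧ φ ⬝ᵥ g *ᵥ v ≠ 0 := by
  by_contra hc
  push Not at hc
  have h1 : ∀ i j, i ≠ j → g i j = 0 := fun i j hij => by
    simpa using hc (Pi.single i 1) (Pi.single j 1) (by simp [hij])
  rcases isEmpty_or_nonempty α with h0 | ⟨⟨i⟩⟩
  · exact h 0 (Subsingleton.elim _ _)
  refine h (g i i) ?_
  ext j k
  by_cases hjk : j = k
  · subst hjk
    by_cases hij : i = j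
    · simp [hij]
    · have := hc (Pi.single i 1 - Pi.single j 1) (Pi.single i 1 + Pi.single j 1)
        (by simp [hij, Ne.symm hij])
      simp [mulVec_add, h1 i j hij, h1 j i (Ne.symm hij)] at this
      simp only [Matrix.smul_apply, one_apply_eq, smul_eq_mul, mul_one]
      linear_combination -this
  · simp [h1 j k hjk, hjk]

theorem card_le_rk_kronecker {g : Matrix α α F} (h : ∀ c : F, g ≠ c • 1) {B : Matrix β β F}
    (hB : B.det ≠ 0) (c : F) : Fintype.card β ≤ rk (g ⊗ₖ B) c := by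
  obtain ⟨φ, v, h1, h2⟩ := exists_dot_of_not_scalar h
  have key : (replicateRow Unit φ ⊗ₖ (1 : Matrix β β F)) * (g ⊗ₖ B - c • 1) *
      (replicateCol Unit v ⊗ₖ (1 : Matrix β β F)) =
      (Matrix.of fun _ _ : Unit => φ ⬝ᵥ g *ᵥ v) ⊗ₖ B := by
    rw [← one_kronecker_one, Matrix.mul_sub, Matrix.sub_mul, Matrix.mul_smul, Matrix.smul_mul,
      ← mul_kronecker_mul, ← mul_kronecker_mul, ← mul_kronecker_mul, ← mul_kronecker_mul,
      Matrix.mul_one, Matrix.mul_one, Matrix.one_mul, Matrix.mul_one, Matrix.mul_assoc,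
      ← replicateCol_mulVec, replicateRow_mul_replicateCol, replicateRow_mul_replicateCol, h1]
    ext ⟨i, k⟩ ⟨j, l⟩
    simp
  have h3 := congrArg Matrix.rank key
  rw [rank_of_isUnit ((Matrix.of fun _ _ : Unit => φ ⬝ᵥ g *ᵥ v) ⊗ₖ B) (by
    rw [isUnit_iff_isUnit_det, det_kronecker]
    simp [h2, hB])] at h3
  have := h3.ge.trans ((rank_mul_le_left _ _).trans (rank_mul_le_right _ _))
  simpa [rk] using this

theorem card_le_rk_kronecker' {g : Matrix β β F} (h : ∀ c : F, g ≠ c • 1) {B : Matrix α α F}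
    (hB : B.det ≠ 0) (c : F) : Fintype.card α ≤ rk (B ⊗ₖ g) c := by
  rw [rk_of_edM (edM_kronecker_comm B g)]
  exact card_le_rk_kronecker h hB c

theorem kronecker_pow' (A : Matrix α α F) (B : Matrix β β F) (k : ℕ) :
    (A ⊗ₖ B) ^ k = (A ^ k) ⊗ₖ (B ^ k) := by
  induction k with
  | zero => simp
  | succ k ih => rw [pow_succ, ih, pow_succ, pow_succ, mul_kronecker_mul]

variable {a b : ℕ} {e : ι ≃ Fin a × Fin b} {P : GL ι F}

theorem edM_coord (M : Matrix (Fin a × Fin b) (Fin a × Fin b) F) : edM (coord e P M) = edM M := by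
  rw [← edM_reindex e.symm M, eq_comm, ← isConj_iff_edM]
  exact ⟨P, by simp [SemiconjBy, coord_apply, cj]⟩

theorem ci_tensor_iff {A : Matrix ι ι F} : CI (tensorProductSubgroup a b e P) A ↔
    ∃ (g : Matrix (Fin a) (Fin a) F) (h : Matrix (Fin b) (Fin b) F), g.det ≠ 0 ∧ h.det ≠ 0 ∧
      edM A = edM (g ⊗ₖ h) := by
  constructor
  · rintro ⟨x, hx, h⟩
    obtain ⟨g, h, hx⟩ := mem_tensorProductSubgroup'.1 hx
    exact ⟨g, h, g.det_ne_zero, h.det_ne_zero, by rw [isConj_iff_edM.1 ‹_›, hx, edM_coord]⟩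
  · rintro ⟨g, h, h1, h2, h3⟩
    obtain ⟨g, rfl⟩ := exists_GL h1
    obtain ⟨h, rfl⟩ := exists_GL h2
    refine ⟨coordGL e P (g.kronecker h), mem_tensorProductSubgroup'.2 ⟨g, h, rfl⟩, ?_⟩
    rw [isConj_iff_edM, h3, ← edM_coord (e := e) (P := P)]
    rfl

theorem scalars_le_tensor : scalars ι F ≤ tensorProductSubgroup a b e P := fun g hg => by
  obtain ⟨c, hc⟩ := (mem_scalars_iff g).1 hg
  refine mem_tensorProductSubgroup'.2 ⟨Units.map (Matrix.scalar _ : F →+* _).toMonoidHom c, 1, ?_⟩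
  have : ((Units.map (Matrix.scalar _ : F →+* _).toMonoidHom c : GL (Fin a) F) :
      Matrix (Fin a) (Fin a) F) = (c : F) • 1 := by simp [smul_one_eq_diagonal]
  rw [hc, this, Units.val_one, smul_kronecker, one_kronecker_one, map_smul, map_one]

/-- A non-scalar element of the tensor product group has large eigenspace codimensions. -/
theorem le_rk_of_ci_tensor (hab : a ≤ b) {A : Matrix ι ι F}
    (h : CI (tensorProductSubgroup a b e P) A) (hA : ∀ c : F, A ≠ c • 1) (c : F) : a ≤ rk A c := by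
  obtain ⟨g, h, h1, h2, h3⟩ := ci_tensor_iff.1 h
  rw [rk_of_edM h3]
  by_cases hg : ∀ c : F, g ≠ c • 1
  · exact hab.trans (by simpa using card_le_rk_kronecker hg h2 c)
  · by_cases hh : ∀ c : F, h ≠ c • 1
    · simpa using card_le_rk_kronecker' hh h1 c
    · push Not at hg hh
      obtain ⟨s, rfl⟩ := hg
      obtain ⟨t, rfl⟩ := hh
      refine absurd (rk_eq_zero_iff.1 ?_) (hA (s * t))
      rw [rk_of_edM h3, rk_eq_zero_iff, smul_kronecker, kronecker_smul, one_kronecker_one, smul_smul]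

theorem ci_tensor_cases {A : Matrix ι ι F} (h : CI (tensorProductSubgroup a b e P) A) :
    (∃ h : Matrix (Fin b) (Fin b) F, edM A = edM ((1 : Matrix (Fin a) (Fin a) F) ⊗ₖ h)) ∨
      ((∀ c, b ≤ rk A c) ∧ ∃ (g : Matrix (Fin a) (Fin a) F) (h : Matrix (Fin b) (Fin b) F),
        g.det ≠ 0 ∧ h.det ≠ 0 ∧ (∀ c : F, g ≠ c • 1) ∧ edM A = edM (g ⊗ₖ h)) := by
  obtain ⟨g, h, h1, h2, h3⟩ := ci_tensor_iff.1 h
  by_cases hg : ∀ c : F, g ≠ c • 1
  · exact Or.inr ⟨fun c => by simpa [rk_of_edM h3] using card_le_rk_kronecker hg h2 c,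
      g, h, h1, h2, hg, h3⟩
  · push Not at hg
    obtain ⟨s, rfl⟩ := hg
    exact Or.inl ⟨s • h, by rw [h3, smul_kronecker, kronecker_smul]⟩

/-- The test element `diag (ω, ω⁻¹, 1, …, 1)`. -/
theorem exists_pair_diag {r : ℕ} (hr : r ≠ 0) {ω : F} (hω : ω ≠ 1) (hωr : ω ^ r = 1)
    (hn : 3 ≤ Fintype.card ι) : ∃ A : Matrix ι ι F, A.det = 1 ∧ PE r A ∧ A ^ r = 1 ∧
      rk A 1 = 2 ∧ (ω * ω ≠ 1 → rk A ω + 1 = Fintype.card ι) := by
  classical
  have h0 : ω ≠ 0 := by
    rintro rfl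
    rw [zero_pow hr] at hωr
    exact zero_ne_one hωr
  obtain ⟨k, hk⟩ : ∃ k, Fintype.card ι = k + 2 := ⟨_, (Nat.sub_add_cancel (by omega)).symm⟩
  obtain ⟨A, h1, h2, h3⟩ := exists_diag (ι := ι) (ω ::ₘ ω⁻¹ ::ₘ Multiset.replicate k 1)
    (by simp [hk]) (r := r) (z := 1) (by
      intro a ha
      rcases Multiset.mem_cons.1 ha with rfl | ha
      · exact hωr
      rcases Multiset.mem_cons.1 ha with rfl | ha
      · rw [inv_pow, hωr, inv_one]
      · rw [Multiset.eq_of_mem_replicate ha, one_pow])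
  have c1 := h2 1
  have c2 := h2 ω
  have e1 : (1 : F) ≠ ω⁻¹ := fun h => hω (inv_eq_one.1 h.symm)
  simp [hω.symm, e1] at c1
  refine ⟨A, by rw [h1]; simp [h0], ⟨⟨_, h3⟩, not_scalar_of_rk hω.symm (by omega) ?_⟩,
    by simpa using h3, by omega, fun h => ?_⟩
  · simp only [Multiset.count_cons_self] at c2
    omega
  · have e2 : ω ≠ ω⁻¹ := fun h' => h (by nth_rw 2 [h']; exact mul_inv_cancel₀ h0)
    simpa [e2, Multiset.count_replicate, hω.symm] using c2

end CfsgLib.ElusF
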