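import Mathlib
import Cfsg.Agent.Lib.ElusF.Tensor
import Cfsg.Agent.Lib.Asch.Idem

/-!
Matrices conjugate into the normaliser of an extension field.
-/

set_option autoImplicit false
set_option linter.unusedSectionVars false

namespace CfsgLib.ElusF

open Matrix Polynomial CfsgLib.MatConj CfsgLib.Elusive CfsgLib.ElusH Cfsg.Geo CfsgLib.Asch Module

variable {F : Type*} [Field F] {ι κ : Type} [Fintype ι] [DecidableEq ι] [Fintype κ] [DecidableEq κ]
  {k : ℕ} {K : Subalgebra F (Matrix ι ι F)}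

theorem mem_normalizer_of_le {g : GL ι F} (h : ∀ x ∈ K, cj g x ∈ K) :
    g ∈ subalgebraNormalizer K := by
  intro x
  refine ⟨h x, fun hx => ?_⟩
  let φ : K →ₗ[F] K := (cj g).toLinearMap.restrict (p := K.toSubmodule) (q := K.toSubmodule) h
  have hφ : Function.Injective φ := fun a b e =>
    Subtype.ext ((cj g).injective (congrArg Subtype.val e))
  obtain ⟨y, hy⟩ := LinearMap.injective_iff_surjective.1 hφ ⟨_, hx⟩
  have : (y : Matrix ι ι F) = x := (cj g).injective (congrArg Subtype.val hy)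
  exact this ▸ y.2

theorem scalars_le_normalizer : scalars ι F ≤ subalgebraNormalizer K := fun g hg => by
  obtain ⟨c, hc⟩ := (mem_scalars_iff g).1 hg
  refine mem_normalizer_of_le fun x hx => ?_
  have : cj g x = x := by
    change (g : Matrix ι ι F) * x * _ = x
    rw [show (g : Matrix ι ι F) * x = x * g by rw [hc]; simp, mul_assoc, Units.mul_inv, mul_one]
  rwa [this]

theorem mem_normalizer_of_gen {J : Matrix ι ι F} (hJ : K = Algebra.adjoin F {J}) {g : GL ι F}
    {u : F[X]} (h : (g : Matrix ι ι F) * J = aeval J u * g) : g ∈ subalgebraNormalizer K := by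
  refine mem_normalizer_of_le fun x hx => ?_
  rw [hJ, Algebra.adjoin_singleton_eq_range_aeval] at hx ⊢
  obtain ⟨w, rfl⟩ := hx
  have : cj g J = aeval J u := by
    change (g : Matrix ι ι F) * J * _ = _
    rw [h, mul_assoc, Units.mul_inv, mul_one]
  refine ⟨w.comp u, ?_⟩
  change aeval J (w.comp u) = cj g (aeval J w)
  rw [← aeval_algHom_apply, this, aeval_comp]

theorem dvd_finrank_of_irred {J : Matrix ι ι F} {f : F[X]} (hf : Irreducible f) (hm : f.Monic)
    (hJ : aeval J f = 0) {U : Submodule F (ι → F)} (hU : Inv (toLin' J) U) :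
    f.natDegree ∣ finrank F U := by
  have h := eq_replicate_of_irreducible (edOn_valid (toLin' J) U) hf hm fun x hx =>
    dvd_of_mem_edOn (by rw [aeval_toLin', hJ, map_zero]) hx
  rw [hU.finrank_eq, h, mdeg_replicate, mul_one]
  exact dvd_mul_left _ _

theorem dvd_rank_of_commute {J M : Matrix ι ι F} {f : F[X]} (hf : Irreducible f) (hm : f.Monic)
    (hJ : aeval J f = 0) (h : Commute J M) : f.natDegree ∣ M.rank := by
  refine dvd_finrank_of_irred hf hm hJ (U := LinearMap.range M.mulVecLin) ?_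
  rintro _ ⟨v, rfl⟩
  exact ⟨J *ᵥ v, by simp [h.eq]⟩

theorem rank_add_le' (A B : Matrix ι ι F) : (A + B).rank ≤ A.rank + B.rank := by
  refine le_trans (Submodule.finrank_mono (t := LinearMap.range A.mulVecLin ⊔
    LinearMap.range B.mulVecLin) ?_) (Submodule.finrank_add_le_finrank_add_finrank _ _)
  rintro _ ⟨v, rfl⟩
  rw [mulVecLin_add]
  exact Submodule.add_mem_sup ⟨v, rfl⟩ ⟨v, rfl⟩

variable [Fintype F]

theorem exists_gen_of_irred [Nonempty ι] (hK : IsFieldSubalgebra k K) {f : F[X]}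
    (hf : Irreducible f) (hd : f.natDegree = k) :
    ∃ J, aeval J f = 0 ∧ K = Algebra.adjoin F {J} := by
  let _ : Field K := (isField_of_isFieldSubalgebra hK).toField
  haveI : Finite K := Module.finite_of_finite F
  haveI : Fact (Irreducible f) := ⟨hf⟩
  have h1 : finrank F (AdjoinRoot f) = finrank F K := by
    rw [(AdjoinRoot.powerBasis hf.ne_zero).finrank, AdjoinRoot.powerBasis_dim, hd, hK.finrank_eq]
  obtain ⟨φ⟩ := FiniteField.nonempty_algHom_of_finrank_dvd h1.dvd
  haveI := (AdjoinRoot.powerBasis hf.ne_zero).finite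
  have hφ : Function.Surjective φ :=
    (LinearMap.injective_iff_surjective_of_finrank_eq_finrank (f := φ.toLinearMap) h1).1
      φ.toRingHom.injective
  refine ⟨(K.val.comp φ) (AdjoinRoot.root f), by
    rw [aeval_algHom_apply, AdjoinRoot.aeval_eq, AdjoinRoot.mk_self, map_zero], ?_⟩
  rw [← Set.image_singleton, ← AlgHom.map_adjoin, AdjoinRoot.adjoinRoot_eq_top, Algebra.map_top]
  ext x
  exact ⟨fun hx => by obtain ⟨y, hy⟩ := hφ ⟨x, hx⟩; exact ⟨y, congrArg Subtype.val hy⟩,
    by rintro ⟨y, rfl⟩; exact (φ y).2⟩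

theorem exists_irred_of_field [Nonempty ι] (hK : IsFieldSubalgebra k K) :
    ∃ f : F[X], Irreducible f ∧ f.Monic ∧ f.natDegree = k := by
  let _ : Field K := (isField_of_isFieldSubalgebra hK).toField
  let b := Field.powerBasisOfFiniteOfSeparable F K
  exact ⟨minpoly F b.gen, minpoly.irreducible b.isIntegral_gen, minpoly.monic b.isIntegral_gen,
    by rw [b.natDegree_minpoly, ← b.finrank, hK.finrank_eq]⟩

theorem rk_of_mem_normalizer [Nonempty ι] (hK : IsFieldSubalgebra k K) {g : GL ι F}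
    (hg : g ∈ subalgebraNormalizer K) : ((∀ x ∈ K, Commute x g) ∧ ∀ c, k ∣ rk (g : Matrix ι ι F) c) ∨
      ∀ c, Fintype.card ι ≤ 2 * rk (g : Matrix ι ι F) c := by
  by_cases h : ∀ x ∈ K, Commute x g
  · obtain ⟨f, h1, h2, rfl⟩ := exists_irred_of_field hK
    obtain ⟨J, h3, h4⟩ := exists_gen_of_irred hK h1 rfl
    exact Or.inl ⟨h, fun c => dvd_rank_of_commute h1 h2 h3
      ((h J (h4 ▸ Algebra.self_mem_adjoin_singleton F J)).sub_right
        ((Commute.one_right J).smul_right c))⟩
  · push Not at h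
    obtain ⟨J, hJ, h⟩ := h
    refine Or.inr fun c => ?_
    by_cases hc : c = 0
    · rw [hc, rk, zero_smul, sub_zero, rank_of_isUnit _ g.isUnit]; omega
    have h1 : (g : Matrix ι ι F) * J = cj g J * g := by
      change _ = (g : Matrix ι ι F) * J * _ * _
      rw [mul_assoc, Units.inv_mul, mul_one]
    obtain ⟨y, -, hy⟩ := hK.inv (cj g J - J) (K.sub_mem ((hg J).1 hJ) hJ) fun h0 => h (by
      rw [sub_eq_zero] at h0
      rw [h0] at h1
      exact h1.symm)
    have h2 : c • (cj g J - J) = ((g : Matrix ι ι F) - c • 1) * J + -cj g J * (g - c • 1) := by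
      rw [sub_mul, mul_sub, h1]; simp [smul_sub]; abel
    have h3 := congrArg Matrix.rank h2
    rw [rank_smul' _ hc, rank_of_isUnit _ (IsUnit.of_mul_eq_one y hy)] at h3
    have := (rank_add_le' _ _).trans (add_le_add (rank_mul_le_left ((g : Matrix ι ι F) - c • 1) J)
      (rank_mul_le_right (-cj g J) ((g : Matrix ι ι F) - c • 1)))
    rw [rk]; omega

theorem rk_of_ci_field [Nonempty ι] (hK : IsFieldSubalgebra k K) {A : Matrix ι ι F}
    (h : CI (subalgebraNormalizer K) A) (c : F) : k ∣ rk A c ∨ Fintype.card ι ≤ 2 * rk A c := by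
  obtain ⟨g, hg, e⟩ := h
  rw [rk_of_isConj e]
  exact (rk_of_mem_normalizer hK hg).imp (fun h => h.2 c) fun h => h c

theorem ci_field_of [Nonempty ι] (hK : IsFieldSubalgebra k K) {f : F[X]} (hf : Irreducible f)
    (hm : f.Monic) (hd : f.natDegree = k) {J A' : Matrix κ κ F} (hJ : aeval J f = 0) {u : F[X]}
    (h : A' * J = aeval J u * A') {A : Matrix ι ι F} (hA : A.det ≠ 0) (e : edM A = edM A') :
    CI (subalgebraNormalizer K) A := by
  obtain ⟨J₀, h3, h4⟩ := exists_gen_of_irred hK hf hd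
  let ε : κ ≃ ι := Fintype.equivOfCardEq (card_eq_of_edM e).symm
  let φ := reindexAlgEquiv F F ε
  obtain ⟨P, hP, h5⟩ := isConj_iff_exists_unit.1 (isConj_iff_edM.2
    (edM_eq_of_irreducible hf hm (A := φ J) (by rw [aeval_algHom_apply, hJ, map_zero]) h3 rfl))
  obtain ⟨P, rfl⟩ := exists_GL hP.ne_zero
  have e1 : IsConj A (cj P (φ A')) :=
    (isConj_iff_edM.2 (e.trans (edM_reindex ε A').symm)).trans ⟨P, by simp [SemiconjBy, cj, φ]⟩
  obtain ⟨g, hg⟩ := exists_GL (A := cj P (φ A')) (det_eq_of_isConj e1 ▸ hA)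
  refine ⟨g, mem_normalizer_of_gen h4 (u := u) ?_, hg ▸ e1⟩
  have : cj P (φ J) = J₀ := by
    change (P : Matrix ι ι F) * φ J * _ = _
    rw [h5, mul_assoc, Units.mul_inv, mul_one]
  rw [hg, ← this, aeval_algHom_apply, aeval_algHom_apply, ← map_mul, ← map_mul, ← map_mul,
    ← map_mul, h]

/-- The Frobenius map as a matrix normalising the field. -/
theorem exists_frob [Nonempty ι] (hK : IsFieldSubalgebra k K) :
    ∃ Φ : Matrix (Fin k) (Fin k) F, minpoly F Φ = X ^ k - 1 ∧ Φ.charpoly = X ^ k - 1 ∧ Φ ^ k = 1 ∧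
      ∀ A : Matrix ι ι F, A.det ≠ 0 → edM A = edM Φ → CI (subalgebraNormalizer K) A := by
  let _ : Field K := (isField_of_isFieldSubalgebra hK).toField
  haveI : Finite K := Module.finite_of_finite F
  let pb := Field.powerBasisOfFiniteOfSeparable F K
  have hk := hK.finrank_eq
  let b : Basis (Fin k) F K := Module.finBasisOfFinrankEq F K hk
  let Φ := LinearMap.toMatrix b b (FiniteField.frobeniusAlgHom F K).toLinearMap
  have h1 : minpoly F Φ = X ^ k - 1 := by
    rw [LinearMap.minpoly_toMatrix, FiniteField.minpoly_frobeniusAlgHom, hk]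
  have hk0 : k ≠ 0 := by rw [← hk]; exact Module.finrank_pos.ne'
  refine ⟨Φ, h1, ?_, ?_, fun A hA e => ci_field_of hK (minpoly.irreducible pb.isIntegral_gen)
    (minpoly.monic pb.isIntegral_gen) (by rw [pb.natDegree_minpoly, ← pb.finrank, hk])
    (J := Algebra.leftMulMatrix b pb.gen) (by rw [aeval_algHom_apply, minpoly.aeval, map_zero])
    (u := X ^ Fintype.card F) ?_ hA e⟩
  · refine (eq_of_monic_of_dvd_of_natDegree_le (h1 ▸ minpoly.monic (Matrix.isIntegral Φ))
      Φ.charpoly_monic (h1 ▸ minpoly_dvd_charpoly Φ) ?_)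
    rw [charpoly_natDegree_eq_dim, Fintype.card_fin, ← C_1, natDegree_X_pow_sub_C]
  · have := minpoly.aeval F Φ
    rw [h1] at this
    simpa [sub_eq_zero] using this
  · rw [aeval_algHom_apply, Algebra.leftMulMatrix_apply, Algebra.leftMulMatrix_apply,
      ← LinearMap.toMatrix_mul, ← LinearMap.toMatrix_mul]
    congr 1
    ext x
    simp [mul_pow]

omit [Fintype F] in
theorem not_scalar_of_minpoly {A : Matrix ι ι F} (h : 2 ≤ (minpoly F A).natDegree) (c : F) :
    A ≠ c • 1 := by
  intro hc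
  have := natDegree_le_of_dvd (minpoly.dvd F A (p := X - C c) (by
    simp [hc, Algebra.algebraMap_eq_smul_one])) (X_sub_C_ne_zero c)
  rw [natDegree_X_sub_C] at this
  omega

variable {p r : ℕ} [hp : Fact p.Prime] [CharP F p] [hr : Fact r.Prime]

include hp in
theorem edM_of_ord_eq (hrp : r ≠ p) (hr3 : 3 ≤ r) (hn : Fintype.card ι = r)
    (ho : orderOf (Fintype.card F : ZMod r) = r - 1) {A : Matrix ι ι F} (hA : A ^ r = 1)
    (h1 : A ≠ 1) : edM A = ssEd 1 {cyclotomic r F} := by
  obtain ⟨e, t, ht, h⟩ := edM_ssEd hrp hA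
  obtain ⟨h2, h3⟩ := rank_of_ssEd hrp ht h
  rw [ho] at h2 h3
  have h4 : Multiset.card t = 1 := by
    rcases Nat.lt_trichotomy (Multiset.card t) 1 with h | h | h
    · rw [Nat.lt_one_iff.1 h, mul_zero, ← rk_one, rk_eq_zero_iff, one_smul] at h2
      exact absurd h2 h1
    · exact h
    · have := Nat.mul_le_mul_left (r - 1) h
      omega
  obtain ⟨f, rfl⟩ := Multiset.card_eq_one.1 h4
  obtain ⟨i1, i2, i3⟩ := mem_cyc.1 (ht f (by simp))
  have : cyclotomic r F = f := eq_of_monic_of_dvd_of_natDegree_le i2 (cyclotomic.monic r F) i3 (by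
    rw [natDegree_cyclotomic, Nat.totient_prime hr.out, natDegree_of_mem_cyc hrp (ht f (by simp)),
      ho])
  rw [h, this, show e = 1 by simp at h3; omega]

include hp in
theorem ci_field_of_ord (hrp : r ≠ p) (hr3 : 3 ≤ r) (hn : Fintype.card ι = r)
    (ho : orderOf (Fintype.card F : ZMod r) = r - 1) (hK : IsFieldSubalgebra r K)
    {A : Matrix ι ι F} (hd : A.det ≠ 0) (hA : PE r A) : CI (subalgebraNormalizer K) A := by
  haveI := hA.nonempty
  obtain ⟨b, hb, h⟩ := hA.split hd fun h => by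
    rw [ord_eq_one_iff.2 h] at ho; omega
  obtain ⟨Φ, h1, -, h2, h3⟩ := exists_frob hK
  refine (h3 (b • A) (by simp [hb, hd]) ?_).of_smul scalars_le_normalizer hb
  rw [edM_of_ord_eq hrp hr3 hn ho h (by simpa using (hA.smul hb).2 1),
    edM_of_ord_eq hrp hr3 (Fintype.card_fin r) ho h2 (by
      simpa using not_scalar_of_minpoly (A := Φ)
        (by rw [h1, ← C_1, natDegree_X_pow_sub_C]; omega) 1)]

include hp in
theorem edM_eq_of_invol_two {A : Matrix ι ι F} {B : Matrix κ κ F} (h1 : Fintype.card ι = 2)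
    (h2 : Fintype.card κ = 2) (hA : A ^ 2 = 1) (hB : B ^ 2 = 1) (hA' : ∀ c : F, A ≠ c • 1)
    (hB' : ∀ c : F, B ≠ c • 1) : edM A = edM B := by
  by_cases hp2 : 2 = p
  · subst hp2
    have key : ∀ {ι : Type} [Fintype ι] [DecidableEq ι] {A : Matrix ι ι F}, Fintype.card ι = 2 →
        A ^ 2 = 1 → (∀ c : F, A ≠ c • 1) → edM A = {(X - 1, 2)} := by
      intro ι _ _ A h1 hA hA'
      have h3 := isNilpotent_of_pow_char hA
      have h4 := card_jt_add_rank h3
      have h5 : (A - 1).rank ≠ 0 := fun h => hA' 1 (rk_eq_zero_iff.1 (by rwa [rk_one]))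
      have h6 : Multiset.card (jt A) ≠ 0 := fun h => by
        have := jt_sum h3
        rw [Multiset.card_eq_zero.1 h] at this
        simp [h1] at this
      rw [edM_eq_map_jt h3, jt_eq_singleton_of_rank h3 (by omega), h1]
      simp
    rw [key h1 hA hA', key h2 hB hB']
  · have key : ∀ {ι : Type} [Fintype ι] [DecidableEq ι] {A : Matrix ι ι F}, Fintype.card ι = 2 →
        A ^ 2 = 1 → (∀ c : F, A ≠ c • 1) →
        edM A = Multiset.replicate 1 (X - 1, 1) + Multiset.replicate 1 (X + 1, 1) := by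
      intro ι _ _ A h1 hA hA'
      obtain ⟨e, s, h3, h4, -⟩ := edM_of_sq hp2 hA
      have he : e ≠ 0 := by
        rintro rfl
        refine hA' (-1) ?_
        have := (aeval_eq_zero_iff_edM A (X + 1)).2 fun x hx => by
          rw [h3] at hx
          simp only [Multiset.replicate_zero, zero_add] at hx
          rw [Multiset.eq_of_mem_replicate hx, pow_one]
        simpa [add_eq_zero_iff_eq_neg] using this
      have hs : s ≠ 0 := by
        rintro rfl
        refine hA' 1 ?_
        have := (aeval_eq_zero_iff_edM A (X - 1)).2 fun x hx => by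
          rw [h3] at hx
          simp only [Multiset.replicate_zero, add_zero] at hx
          rw [Multiset.eq_of_mem_replicate hx, pow_one]
        simpa [sub_eq_zero] using this
      rw [h3, show e = 1 by omega, show s = 1 by omega]
    rw [key h1 hA hA', key h2 hB hB']

end CfsgLib.ElusF
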