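import Mathlib
import Cfsg.Agent.Lib.ElusF.Field
import Cfsg.Agent.Lib.Elusive.IsoSS

/-! Normalisers of groups of symplectic type: fixed points, trace formula, reflections. -/

set_option autoImplicit false

namespace CfsgLib.ElusF

open Matrix Polynomial CfsgLib.MatConj CfsgLib.Elusive CfsgLib.ElusH Cfsg.Geo CfsgLib.Asch Module

section group
variable {G : Type*} [Group G]

theorem card_modEq_cent {R : Subgroup G} [Finite R] {x : G}
    (hx : x ∈ Subgroup.normalizer (R : Set G)) {r : ℕ} [hr : Fact r.Prime]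
    (h : ∀ a ∈ R, Commute (x ^ r) a) :
    Nat.card R ≡ Nat.card (R ⊓ Subgroup.centralizer {x} : Subgroup G) [MOD r] := by
  classical
  haveI := Fintype.ofFinite R
  let f : Function.End R := fun a => ⟨x * a * x⁻¹, (Subgroup.mem_normalizer_iff.1 hx a).1 a.2⟩
  have hf : ∀ (k : ℕ) (a : R), ((f ^ k) a : G) = x ^ k * a * (x ^ k)⁻¹ := by
    intro k
    induction k with
    | zero => intro a; simp [Function.End.one_def]
    | succ k ih =>
      intro a
      rw [pow_succ']
      change x * ((f ^ k) a : G) * x⁻¹ = _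
      rw [ih, pow_succ']; group
  have h1 : f ^ r ^ 1 = 1 := by
    funext a
    apply Subtype.ext
    rw [pow_one, hf, (h a a.2).eq]; simp [Function.End.one_def]
  have := Equiv.Perm.card_fixedPoints_modEq h1
  rw [← Nat.card_eq_fintype_card, ← Nat.card_eq_fintype_card] at this
  convert this using 1
  refine Nat.card_congr ⟨fun a => ⟨⟨a, a.2.1⟩, Subtype.ext ?_⟩, fun a => ⟨a.1, a.1.2, ?_⟩,
    fun a => rfl, fun a => rfl⟩
  · have := Subgroup.mem_centralizer_singleton_iff.1 a.2.2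
    change x * a * x⁻¹ = a
    rw [← this]; group
  · have : x * a.1 * x⁻¹ = a.1 := congrArg Subtype.val a.2
    refine Subgroup.mem_centralizer_singleton_iff.2 ?_
    conv_lhs => rw [← this]
    group

theorem exists_orderOf_of_dvd_index {H S : Subgroup G} [Finite S] {r : ℕ} [Fact r.Prime]
    (h : r ∣ H.relIndex S) : ∃ x ∈ S, x ^ r = 1 ∧ x ≠ 1 := by
  obtain ⟨x, hx⟩ := exists_prime_orderOf_dvd_card' r (h.trans (relIndex_dvd_card' H S))
  refine ⟨x, x.2, ?_, fun h1 => ?_⟩
  · rw [← Subgroup.coe_pow, ← hx, pow_orderOf_eq_one, Subgroup.coe_one]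
  · rw [show x = 1 from Subtype.ext h1, orderOf_one] at hx
    exact (Fact.out : r.Prime).one_lt.ne hx

/-- A subgroup of index two cut out by an element commuting up to an involution. -/
theorem card_inf_cent {H : Subgroup G} {a b m : G} (hb : b ∈ H) (hm : m ≠ 1)
    (hmm : m * m = 1) (hab : a * b = m * (b * a)) (hc : ∀ g, m * g = g * m)
    (h : ∀ g ∈ H, a * g = g * a ∨ a * g = m * (g * a)) :
    Nat.card (H ⊓ Subgroup.centralizer {a} : Subgroup G) * 2 = Nat.card H := by
  have h2 : (Subgroup.centralizer {a} : Subgroup G).relIndex H = 2 := by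
    rw [Subgroup.relIndex, Subgroup.index_eq_two_iff]
    refine ⟨⟨b, hb⟩, fun g => ?_⟩
    simp only [Subgroup.mem_subgroupOf, Subgroup.mem_centralizer_singleton_iff, Subgroup.coe_mul]
    rcases h g g.2 with h1 | h1
    · refine Or.inr ⟨h1.symm, fun h2 => hm ?_⟩
      rw [← mul_assoc, h1, mul_assoc, mul_assoc, mul_right_inj, hab] at h2
      simpa using h2.symm
    · refine Or.inl ⟨?_, fun h2 => hm ?_⟩
      · rw [← mul_assoc, h1, mul_assoc, mul_assoc, mul_assoc, hab, ← mul_assoc (g : G) m, ← hc,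
          mul_assoc, ← mul_assoc m m, hmm, one_mul]
      · rw [← h2] at h1
        simpa using h1.symm
  have := Subgroup.card_mul_index ((Subgroup.centralizer {a} : Subgroup G).subgroupOf H)
  rw [← Subgroup.relIndex, h2] at this
  rw [← this, inf_comm, ← Subgroup.subgroupOf_map_subtype, Subgroup.card_subtype]

end group

variable {F : Type*} [Field F] {ι κ : Type} [Fintype ι] [DecidableEq ι] [Fintype κ] [DecidableEq κ]
  {σ : F →+* F} {R : Subgroup (GL ι F)}

theorem pe_of_orderOf {x : GL ι F} {r m : ℕ} (hrm : r.Coprime m) (h : x ^ r = 1) (h1 : x ≠ 1)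
    (hm : ∀ c : F, (x : Matrix ι ι F) = c • 1 → c ^ m = 1) : PE r (x : Matrix ι ι F) := by
  have h' : (x : Matrix ι ι F) ^ r = 1 := by rw [← Units.val_pow_eq_pow_val, h, Units.val_one]
  refine ⟨⟨1, by rw [h', one_smul]⟩, fun c hc => h1 ?_⟩
  have h2 : x ^ m = 1 := Units.ext (by
    rw [Units.val_pow_eq_pow_val, hc, _root_.smul_pow, hm c hc, one_pow, one_smul, Units.val_one])
  rw [← pow_one x, ← hrm, pow_gcd_eq_one.2 ⟨h, h2⟩]

theorem scalars_le_subgroupNormalizer : scalars ι F ≤ subgroupNormalizer R := fun g hg =>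
  Subgroup.mem_set_normalizer_iff.2 fun h => by
    rw [mul_comm_of_mem_scalars hg, mul_inv_cancel_right]

theorem conj_mem {x a : GL ι F} (hx : x ∈ subgroupNormalizer R) (ha : a ∈ R) : x * a * x⁻¹ ∈ R :=
  (Subgroup.mem_set_normalizer_iff.1 hx a).1 ha

theorem commute_of_pow_eq {x : GL ι F} {r : ℕ} {z : F} (h : (x : Matrix ι ι F) ^ r = z • 1)
    (a : GL ι F) : Commute (x ^ r) a :=
  mul_comm_of_mem_scalars (mem_scalars_of_eq_smul (by rw [Units.val_pow_eq_pow_val, h])) a

/-- An element of order prime to `|R|` which fixes an element of `R` modulo scalars fixes it. -/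
theorem eq_one_of_comm_smul [Nonempty ι] [Finite R] {x a : GL ι F} (hx : x ∈ subgroupNormalizer R)
    (ha : a ∈ R) {r : ℕ} (hr : r.Coprime (Nat.card R)) {z : F}
    (h : (x : Matrix ι ι F) ^ r = z • 1) {c : F}
    (hc : (x : Matrix ι ι F) * a = c • ((a : Matrix ι ι F) * x)) : c = 1 := by
  have h1 : ((x * a * x⁻¹ * a⁻¹ : GL ι F) : Matrix ι ι F) = c • 1 := by
    simp only [Units.val_mul, hc, smul_mul_assoc, Units.mul_inv_cancel_right, Units.mul_inv]
  have h2 := congrArg (fun g : R => ((g : GL ι F) : Matrix ι ι F))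
    (pow_card_eq_one' (x := (⟨_, R.mul_mem (conj_mem hx ha) (R.inv_mem ha)⟩ : R)))
  simp only [Subgroup.coe_pow, Units.val_pow_eq_pow_val, h1, _root_.smul_pow, one_pow, Subgroup.coe_one,
    Units.val_one] at h2
  have h3 : ∀ k : ℕ, (x : Matrix ι ι F) ^ k * a = c ^ k • ((a : Matrix ι ι F) * x ^ k) := by
    intro k
    induction k with
    | zero => simp
    | succ k ih =>
      rw [pow_succ', mul_assoc, ih, mul_smul_comm, ← mul_assoc, hc, smul_mul_assoc, smul_smul,
        mul_assoc, ← pow_succ]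
  have h4 := h3 r
  rw [h, smul_mul_assoc, mul_smul_comm, one_mul, mul_one, smul_smul] at h4
  have hz : z ≠ 0 := ne_zero_of_pow (Units.isUnit x |>.map detMonoidHom).ne_zero h
  have h5 : c ^ r = 1 := by
    have := smul_left_injective F a.ne_zero h4
    field_simp at this
    exact this.symm
  have h6 : c ^ Nat.card R = 1 :=
    smul_left_injective F (one_ne_zero (α := Matrix ι ι F)) (by simpa using h2)
  rw [← pow_one c, ← hr, pow_gcd_eq_one.2 ⟨h5, h6⟩]

/-- The trace formula for an element normalising a group of symplectic type. -/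
theorem trace_formula [Finite R]
    (hc : ∀ M : Matrix ι ι F, (∀ a ∈ R, M * a = a * M) → ∃ c : F, M = c • 1)
    (ht : ∀ a ∈ R, (∀ c : F, (a : Matrix ι ι F) ≠ c • 1) → (a : Matrix ι ι F).trace = 0)
    {x : GL ι F} (hx : x ∈ subgroupNormalizer R)
    (hl : ∀ a ∈ R, ∀ c : F, (x : Matrix ι ι F) * a = c • ((a : Matrix ι ι F) * x) → c = 1) :
    (Nat.card R : F) * ((x : Matrix ι ι F).trace * ((x⁻¹ : GL ι F) : Matrix ι ι F).trace) =
      (Fintype.card ι : F) ^ 2 * Nat.card (R ⊓ Subgroup.centralizer {x} : Subgroup (GL ι F)) := by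
  classical
  haveI := Fintype.ofFinite R
  obtain ⟨c, hS⟩ := hc (∑ a : R, (((a : GL ι F)⁻¹ * x * a : GL ι F) : Matrix ι ι F)) fun b hb => by
    rw [Finset.sum_mul, Finset.mul_sum]
    refine Fintype.sum_equiv (Equiv.mulRight ⟨b, hb⟩) _ _ fun a => ?_
    rw [← Units.val_mul, ← Units.val_mul]
    congr 1
    simp only [Equiv.coe_mulRight, Subgroup.coe_mul]
    group
  have h1 := congrArg trace hS
  have h2 := congrArg (fun M => trace (M * ((x⁻¹ : GL ι F) : Matrix ι ι F))) hS
  simp only [trace_sum, trace_smul, trace_one, smul_eq_mul, Finset.sum_mul, smul_mul_assoc,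
    one_mul] at h1 h2
  rw [Finset.sum_congr rfl (g := fun _ => (x : Matrix ι ι F).trace) fun a _ => by
    rw [← trace_cj (a : GL ι F), cj_coe]; congr 2; group, Finset.sum_const, Finset.card_univ,
    nsmul_eq_mul] at h1
  rw [Finset.sum_congr rfl (g := fun a : R => if (a : GL ι F) * x = x * a then
    (Fintype.card ι : F) else 0) fun a _ => by
      split_ifs with h
      · rw [mul_assoc, ← h, inv_mul_cancel_left, Units.mul_inv, trace_one]
      · rw [← Units.val_mul]
        refine ht _ (by simpa only [mul_assoc] using R.mul_mem (R.inv_mem a.2) (conj_mem hx a.2))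
          fun d hd => h (Units.ext ?_)
        have h3 : (x : Matrix ι ι F) * (a : GL ι F) = d • (((a : GL ι F) : Matrix ι ι F) * x) := by
          rw [← mul_one ((a : GL ι F) : Matrix ι ι F), ← smul_mul_assoc, ← mul_smul_comm, ← hd,
            mul_one, ← Units.val_mul, ← Units.val_mul, ← Units.val_mul]
          congr 1; group
        rw [Units.val_mul, Units.val_mul, h3, hl _ a.2 d h3, one_smul],
    ← Finset.sum_filter, Finset.sum_const, nsmul_eq_mul] at h2
  have h3 : Nat.card (R ⊓ Subgroup.centralizer {x} : Subgroup (GL ι F)) =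
      (Finset.univ.filter fun a : R => (a : GL ι F) * x = x * a).card := by
    rw [← Fintype.card_subtype, ← Nat.card_eq_fintype_card]
    exact Nat.card_congr ⟨fun a => ⟨⟨a, a.2.1⟩, Subgroup.mem_centralizer_singleton_iff.1 a.2.2⟩,
      fun a => ⟨a.1, a.1.2, Subgroup.mem_centralizer_singleton_iff.2 a.2⟩, fun a => rfl, fun a => rfl⟩
  rw [h3, Nat.card_eq_fintype_card, ← mul_assoc, h1]
  linear_combination -(Fintype.card ι : F) * h2

/-- An absolutely irreducible group whose elements commute up to sign. -/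
structure P2 (R : Subgroup (GL ι F)) : Prop where
  two : (2 : F) ≠ 0
  cent : ∀ M : Matrix ι ι F, (∀ a ∈ R, M * a = a * M) → ∃ c : F, M = c • 1
  comm : ∀ a ∈ R, ∀ b ∈ R, (a : Matrix ι ι F) * b = b * a ∨ (a : Matrix ι ι F) * b = -(b * a)
  neg : -1 ∈ R
  sq : ∀ a ∈ R, (a : Matrix ι ι F) * a = 1 ∨ (a : Matrix ι ι F) * a = -1

theorem P2.exists_anti (h : P2 R) {a : GL ι F} (ha : a ∈ R)
    (hs : ∀ c : F, (a : Matrix ι ι F) ≠ c • 1) : ∃ b ∈ R, (a : Matrix ι ι F) * b = -(b * a) := by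
  by_contra hn
  push Not at hn
  obtain ⟨c, hc⟩ := h.cent a fun b hb => (h.comm a ha b hb).resolve_right (hn b hb)
  exact hs c hc

theorem isConj_neg_of_anti {A : Matrix ι ι F} {b : GL ι F} (h : A * b = -(b * A)) :
    IsConj A (-A) := ⟨b, by rw [SemiconjBy, neg_mul, h, neg_neg]⟩

theorem trace_eq_of_isConj {A B : Matrix ι ι F} (h : IsConj A B) : A.trace = B.trace := by
  obtain ⟨b, hb⟩ := h
  rw [← trace_cj b A, cj_eq_iff.2 hb.eq]

theorem trace_eq_zero_of_anti (h2 : (2 : F) ≠ 0) {A : Matrix ι ι F} {b : GL ι F}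
    (h : A * b = -(b * A)) : A.trace = 0 := by
  have := trace_eq_of_isConj (isConj_neg_of_anti h)
  rw [trace_neg] at this
  exact (mul_eq_zero.1 (by linear_combination this)).resolve_left h2

theorem P2.trace (h : P2 R) (a : GL ι F) (ha : a ∈ R)
    (hs : ∀ c : F, (a : Matrix ι ι F) ≠ c • 1) : (a : Matrix ι ι F).trace = 0 :=
  let ⟨_, _, hb⟩ := h.exists_anti ha hs
  trace_eq_zero_of_anti h.two hb

theorem rank_smul_one {c : F} (hc : c ≠ 0) : (c • (1 : Matrix ι ι F)).rank = Fintype.card ι := by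
  rw [rank_smul' _ hc, rank_one]

theorem card_le_two_mul_rank (h2 : (2 : F) ≠ 0) {A : Matrix ι ι F} (h : IsConj A (-A)) :
    Fintype.card ι ≤ 2 * (A - 1).rank := by
  have h1 := rank_add_le' (A - 1) (-A - 1)
  rw [← rk_one (-A), ← rk_of_isConj h, rk_one, show A - 1 + (-A - 1) = (-2 : F) • 1 by
    rw [neg_smul, two_smul]; abel, rank_smul_one (neg_ne_zero.2 h2)] at h1
  omega

theorem P2.comm_mulVec (h : P2 R) (h4 : 4 ≤ Fintype.card ι) {y a : GL ι F}
    (hy : y ∈ subgroupNormalizer R) (ha : a ∈ R) {u : ι → F}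
    (hu : ∀ v, ∃ c : F, ((y : Matrix ι ι F) - 1) *ᵥ v = c • u) (hn : ¬ Commute y a) :
    ((y * a * y⁻¹ * a⁻¹ : GL ι F) : Matrix ι ι F) *ᵥ u = -u := by
  set b := y * a * y⁻¹ * a⁻¹ with hb
  have hbR : b ∈ R := R.mul_mem (conj_mem hy ha) (R.inv_mem ha)
  have h1 : LinearMap.range ((b : Matrix ι ι F) - 1).mulVecLin ≤
      Submodule.span F {u, (a : Matrix ι ι F) *ᵥ u} := by
    rintro _ ⟨v, rfl⟩
    obtain ⟨c, hc⟩ := hu (((a * y⁻¹ * a⁻¹ : GL ι F) : Matrix ι ι F) *ᵥ v)
    obtain ⟨d, hd⟩ := hu (((y⁻¹ * a⁻¹ : GL ι F) : Matrix ι ι F) *ᵥ v)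
    refine Submodule.mem_span_pair.2 ⟨c, -d, ?_⟩
    rw [neg_smul, ← mulVec_smul, ← hc, ← hd, mulVecLin_apply, mulVec_mulVec, mulVec_mulVec,
      mulVec_mulVec, ← sub_eq_add_neg, ← sub_mulVec, hb]
    simp only [Units.val_mul, mul_assoc, sub_mul, mul_sub, one_mul, mul_one,
      Units.mul_inv_cancel_left, Units.mul_inv]
    congr 1; abel
  have h2 : finrank F (Submodule.span F {u, (a : Matrix ι ι F) *ᵥ u}) ≤ 2 := by
    classical
    exact (finrank_span_le_card _).trans (by rw [Set.toFinset_insert, Set.toFinset_singleton]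
                                             exact Finset.card_le_two)
  have h3 : ((b : Matrix ι ι F) - 1).rank ≤ 2 := (Submodule.finrank_mono h1).trans h2
  have h5 : ∀ c : F, (b : Matrix ι ι F) ≠ c • 1 := fun c hc => by
    by_cases h1 : c = 1
    · rw [h1, one_smul, ← Units.val_one, Units.val_inj, hb, mul_inv_eq_one,
        mul_inv_eq_iff_eq_mul] at hc
      exact hn hc
    · rw [← rk_one, hc, rk_smul_one c 1 (Ne.symm h1)] at h3
      omega
  obtain ⟨d, -, hd⟩ := h.exists_anti hbR h5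
  have h6 := card_le_two_mul_rank h.two (isConj_neg_of_anti hd)
  have h7 := Submodule.eq_of_le_of_finrank_le h1 (h2.trans (by
    change _ ≤ ((b : Matrix ι ι F) - 1).rank; omega))
  obtain ⟨w, hw⟩ : u ∈ LinearMap.range ((b : Matrix ι ι F) - 1).mulVecLin :=
    h7 ▸ Submodule.subset_span (by simp)
  rcases h.sq b hbR with h8 | h8
  · rw [← hw, mulVecLin_apply, mulVec_mulVec, mul_sub, h8, mul_one, ← neg_mulVec, neg_sub]
  · have := rank_mul_le_right ((b : Matrix ι ι F) + 1) ((b : Matrix ι ι F) - 1)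
    rw [show ((b : Matrix ι ι F) + 1) * ((b : Matrix ι ι F) - 1) = (-2 : F) • 1 by
      rw [add_mul, mul_sub, h8, neg_smul, two_smul]; simp only [mul_one, one_mul]; abel,
      rank_smul_one (neg_ne_zero.2 h.two)] at this
    omega

/-- Reflections and transvections of odd order do not normalise `R`. -/
theorem P2.not_ci_of_rk (h : P2 R) (h4 : 4 ≤ Fintype.card ι) {r : ℕ} (hr : Odd r)
    {A : Matrix ι ι F} (hA : PE r A) {c : F} (hc : c ≠ 0) (hrk : rk A c ≤ 1) :
    ¬ CI (subgroupNormalizer R) A := fun hci => by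
  obtain ⟨y, hy, e⟩ := hci.smul scalars_le_subgroupNormalizer (inv_ne_zero hc)
  obtain ⟨⟨z, hz⟩, hs⟩ := (hA.smul (inv_ne_zero hc)).of_isConj e
  rw [← rk_smul A (inv_ne_zero hc), inv_mul_cancel₀ hc, rk_of_isConj e, rk_one] at hrk
  obtain ⟨⟨u, hu0⟩, hu⟩ := finrank_le_one_iff.1 hrk
  replace hu : ∀ v, ∃ c : F, ((y : Matrix ι ι F) - 1) *ᵥ v = c • u := fun v =>
    let ⟨c, hc⟩ := hu ⟨_, v, rfl⟩
    ⟨c, (congrArg Subtype.val hc).symm⟩
  obtain ⟨a, ha, hn⟩ : ∃ a ∈ R, ¬ Commute y a := by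
    by_contra hn
    push Not at hn
    obtain ⟨c, hc⟩ := h.cent y fun a ha => by rw [← Units.val_mul, (hn a ha).eq, Units.val_mul]
    exact hs c hc
  have h1 := h.comm_mulVec h4 hy ha hu hn
  have h2 := h.comm_mulVec h4 hy (conj_mem hy ha) hu fun e => hn (by
    have := e.eq
    rw [inv_mul_cancel_right, mul_assoc, mul_right_inj, ← mul_assoc, mul_inv_eq_iff_eq_mul] at this
    exact this)
  have h3 := h.comm_mulVec h4 (mul_mem hy hy) ha (u := u) (fun v => by
    obtain ⟨c, hc⟩ := hu (((y : Matrix ι ι F) + 1) *ᵥ v)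
    refine ⟨c, ?_⟩
    rw [← hc, mulVec_mulVec, Units.val_mul]
    congr 1; noncomm_ring) fun e => hn (by
      obtain ⟨k, rfl⟩ := hr
      have h5 := (e.pow_left k).inv_left.mul_left (commute_of_pow_eq hz a)
      rwa [← pow_two, ← pow_mul, pow_succ, inv_mul_cancel_left] at h5)
  rw [show y * y * a * (y * y)⁻¹ * a⁻¹ = y * (y * a * y⁻¹) * y⁻¹ * (y * a * y⁻¹)⁻¹ *
    (y * a * y⁻¹ * a⁻¹) by group, Units.val_mul, ← mulVec_mulVec, h1, mulVec_neg, h2,
    neg_neg] at h3
  have h5 : u = 0 := (smul_eq_zero.1 (show (2 : F) • u = 0 by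
    rw [two_smul]; nth_rewrite 1 [h3]; simp)).resolve_left h.two
  refine hs 1 ?_
  rw [one_smul, ← sub_eq_zero]
  refine Matrix.toLin'.injective (LinearMap.ext fun v => ?_)
  obtain ⟨c, hc⟩ := hu v
  rw [toLin'_apply, hc, h5, smul_zero, map_zero, LinearMap.zero_apply]

theorem P2.exists_T [Finite R] (h : P2 R) {a : GL ι F} (ha : a ∈ R)
    (haa : (a : Matrix ι ι F) * a = -1) :
    ∃ T ∈ subgroupNormalizer R, (T : Matrix ι ι F) = 1 + a := by
  have h1 : (1 + (a : Matrix ι ι F)) * ((2 : F)⁻¹ • (1 - (a : Matrix ι ι F))) = 1 := by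
    rw [mul_smul_comm, show (1 + (a : Matrix ι ι F)) * (1 - a) = (2 : F) • 1 by
      rw [add_mul, mul_sub, mul_sub, haa, two_smul]; simp only [mul_one, one_mul]; abel, smul_smul, inv_mul_cancel₀ h.two,
      one_smul]
  obtain ⟨T, hT⟩ := exists_GL (A := 1 + (a : Matrix ι ι F)) (right_ne_zero_of_mul_eq_one
    (a := ((2 : F)⁻¹ • (1 - (a : Matrix ι ι F))).det) (by rw [mul_comm, ← det_mul, h1, det_one]))
  refine ⟨T, Subgroup.mem_normalizer_fintype (S := (R : Set (GL ι F))) fun b hb => ?_, hT⟩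
  rcases h.comm a ha b hb with e | e
  · rwa [show T * b = b * T from Units.ext (by
      simp only [Units.val_mul, hT, add_mul, mul_add, e, one_mul, mul_one]), mul_inv_cancel_right]
  · rw [show T * b = a * b * T from Units.ext (by
      rw [Units.val_mul, Units.val_mul, Units.val_mul, hT, add_mul, e, mul_add, neg_mul, neg_mul,
        mul_one, mul_assoc, haa, mul_neg, neg_neg, one_mul, mul_one, add_comm]),
      mul_inv_cancel_right]
    exact R.mul_mem ha hb

theorem Sm.one_add {G A : Matrix ι ι F} (h : Sm σ G A 1) (hA : A * A = -1) : Sm σ G (1 + A) 2 := by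
  have h1 : A.map σ * A.map σ = -1 := by
    rw [← Matrix.map_mul, hA, Matrix.map_neg _ (map_neg σ), Matrix.map_one _ σ.map_zero σ.map_one]
  unfold Sm at h ⊢
  have h2 : G * A.map σ = -(Aᵀ * G) := by
    conv_lhs => rw [← one_smul F G, ← h, mul_assoc, h1, mul_neg, mul_one]
  rw [Matrix.map_add _ (map_add σ), Matrix.map_one _ σ.map_zero σ.map_one, transpose_add,
    transpose_one]
  simp only [add_mul, mul_add, one_mul, mul_one, h, h2, one_smul, two_smul]
  abel

/-- The invertible matrices commuting with a given matrix. -/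
def cm (M : Matrix ι ι F) : Subgroup (GL ι F) where
  carrier := {g | M * g = g * M}
  mul_mem' {a b} ha hb := by
    change M * (a * b) = a * b * M
    rw [← mul_assoc, ha, mul_assoc, hb, mul_assoc]
  one_mem' := by simp
  inv_mem' {a} ha := (Commute.units_inv_right ha).eq

theorem P2.peel (h : P2 R) {H : Subgroup (GL ι F)} (hle : H ≤ R) [Nonempty ι]
    (hH : ∀ g ∈ H, (∀ k ∈ H, g * k = k * g) → g ∈ scalars ι F) (hs : ¬ H ≤ scalars ι F) :
    ∃ a ∈ H, ∃ b ∈ H, ∃ H' ≤ H, (b : Matrix ι ι F) * a = -(a * b) ∧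
      (∀ g ∈ H', (g : Matrix ι ι F) * a = a * g ∧ (g : Matrix ι ι F) * b = b * g) ∧
      H ⊓ scalars ι F ≤ H' ∧ Nat.card H' * 4 = Nat.card H ∧
      (∀ g ∈ H', (∀ k ∈ H', g * k = k * g) → g ∈ scalars ι F) ∧
      ∀ K : Subgroup (GL ι F), a ∈ K → b ∈ K → H' ≤ K → H ≤ K := by
  have hc : ∀ a ∈ H, ∀ g ∈ H, a * g = g * a ∨ a * g = -1 * (g * a) := fun a ha g hg =>
    (h.comm a (hle ha) g (hle hg)).imp (fun e => Units.ext e) fun e => Units.ext (by simpa using e)
  have hm : (-1 : GL ι F) ≠ 1 := fun e => by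
    have := congrArg (fun g : GL ι F => (g : Matrix ι ι F) (Classical.arbitrary ι)
      (Classical.arbitrary ι)) e
    exact h.two (by simp at this; linear_combination -this)
  obtain ⟨a, ha, has⟩ := SetLike.not_le_iff_exists.1 hs
  obtain ⟨b, hb, hab⟩ : ∃ b ∈ H, a * b = -1 * (b * a) := by
    by_contra hn
    push Not at hn
    exact has (hH a ha fun k hk => (hc a ha k hk).resolve_right (hn k hk))
  have hba : b * a = -1 * (a * b) := by rw [hab]; simp
  have h1 := card_inf_cent hb hm (by simp) hab (by simp) (hc a ha)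
  have h2 := card_inf_cent (H := H ⊓ Subgroup.centralizer {a})
    ⟨ha, Subgroup.mem_centralizer_singleton_iff.2 rfl⟩ hm (by simp) hba (by simp)
    fun g hg => hc b hb g hg.1
  have h3 : ∀ K : Subgroup (GL ι F), a ∈ K → b ∈ K →
      H ⊓ Subgroup.centralizer {a} ⊓ Subgroup.centralizer {b} ≤ K → H ≤ K := by
    intro K haK hbK hK g hg
    have e : ∀ w ∈ K, w ∈ H → g * w * a = a * (g * w) → g * w * b = b * (g * w) → g ∈ K :=
      fun w hw hw' e1 e2 => by
        simpa using K.mul_mem (hK ⟨⟨H.mul_mem hg hw', Subgroup.mem_centralizer_singleton_iff.2 e1⟩,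
          Subgroup.mem_centralizer_singleton_iff.2 e2⟩) (K.inv_mem hw)
    have hab' : ∀ x, a * (b * x) = -(b * (a * x)) := fun x => by
      rw [← mul_assoc, hab]; simp [mul_assoc]
    rcases hc a ha g hg with e1 | e1 <;> rcases hc b hb g hg with e2 | e2
    · exact e 1 K.one_mem H.one_mem (by simp [e1]) (by simp [e2])
    · exact e a haK ha (by rw [← mul_assoc, e1]) (by
        rw [← mul_assoc, e2]; simp [mul_assoc, hab])
    · exact e b hbK hb (by rw [← mul_assoc, e1]; simp [mul_assoc, hab]) (by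
        rw [← mul_assoc, e2])
    · exact e (a * b) (K.mul_mem haK hbK) (H.mul_mem ha hb)
        (by rw [← mul_assoc a, e1]; simp [mul_assoc, hba])
        (by rw [← mul_assoc b, e2]; simp [mul_assoc, hab'])
  refine ⟨a, ha, b, hb, _, inf_le_left.trans inf_le_left, by
    simpa using congrArg Units.val hba, fun g hg => ⟨?_, ?_⟩, fun g hg => ⟨⟨hg.1, ?_⟩, ?_⟩,
    by omega, fun g hg e => hH g hg.1.1 fun k hk => Units.ext ?_, h3⟩
  · exact congrArg Units.val (Subgroup.mem_centralizer_singleton_iff.1 hg.1.2)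
  · exact congrArg Units.val (Subgroup.mem_centralizer_singleton_iff.1 hg.2)
  · exact Subgroup.mem_centralizer_singleton_iff.2 (mul_comm_of_mem_scalars hg.2 _)
  · exact Subgroup.mem_centralizer_singleton_iff.2 (mul_comm_of_mem_scalars hg.2 _)
  · exact h3 (cm g) (congrArg Units.val (Subgroup.mem_centralizer_singleton_iff.1 hg.1.2))
      (congrArg Units.val (Subgroup.mem_centralizer_singleton_iff.1 hg.2))
      (fun k hk => congrArg Units.val (e k hk)) hk

/-- Two commuting anticommuting pairs. -/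
structure Pairs (R : Subgroup (GL ι F)) (a b c d : GL ι F) : Prop where
  ha : a ∈ R
  hb : b ∈ R
  hc : c ∈ R
  hd : d ∈ R
  ba : (b : Matrix ι ι F) * a = -(a * b)
  dc : (d : Matrix ι ι F) * c = -(c * d)
  ca : (c : Matrix ι ι F) * a = a * c
  cb : (c : Matrix ι ι F) * b = b * c
  da : (d : Matrix ι ι F) * a = a * d
  db : (d : Matrix ι ι F) * b = b * d
  gen : ∀ K : Subgroup (GL ι F), a ∈ K → b ∈ K → c ∈ K → d ∈ K → R ⊓ scalars ι F ≤ K → R ≤ K

theorem P2.exists_pairs [Nonempty ι] [Finite R] (h : P2 R)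
    (hc : Nat.card R = 16 * Nat.card (R ⊓ scalars ι F : Subgroup (GL ι F))) :
    ∃ a b c d, Pairs R a b c d := by
  haveI : ∀ H : Subgroup (GL ι F), Finite (R ⊓ H : Subgroup (GL ι F)) := fun H =>
    (Set.toFinite (R : Set (GL ι F))).subset inf_le_left
  have hp : 0 < Nat.card (R ⊓ scalars ι F : Subgroup (GL ι F)) := Nat.card_pos
  obtain ⟨a, ha, b, hb, H, hH, h1, h2, h3, h4, h5, h6⟩ := h.peel le_rfl (fun g _ e =>
    let ⟨_, hc⟩ := h.cent g fun k hk => congrArg Units.val (e k hk)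
    mem_scalars_of_eq_smul hc) fun e => by rw [inf_eq_left.2 e] at hc hp; omega
  obtain ⟨c, hc', d, hd, H', hH', h1', h2', h3', h4', -, h6'⟩ := h.peel hH h5 fun e => by
    have := Subgroup.card_le_of_le (le_inf hH e)
    omega
  haveI : Finite H' := (Set.toFinite (R : Set (GL ι F))).subset (hH'.trans hH)
  have h7 : R ⊓ scalars ι F = H' :=
    Subgroup.eq_of_le_of_card_ge ((le_inf h3 inf_le_right).trans h3') (by omega)
  exact ⟨a, b, c, d, ha, hb, hH hc', hH hd, h1, h1', (h2 c hc').1, (h2 c hc').2, (h2 d hd).1,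
    (h2 d hd).2, fun K k1 k2 k3 k4 k5 => h6 K k1 k2 (h6' K k3 k4 (h7 ▸ k5))⟩

end CfsgLib.ElusF
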