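import Mathlib
import Cfsg.Agent.Lib.ElusF.Extra
import Cfsg.Agent.Lib.CasesSp.Basic
import Cfsg.Agent.Lib.SLCases.Proper
import Cfsg.Agent.Lib.MatConj.FormStar

/-! Two-groups of symplectic type in dimension four and elements of their normalisers. -/

set_option autoImplicit false
set_option linter.unusedSimpArgs false

namespace CfsgLib.ElusF

open Matrix Polynomial CfsgLib.MatConj CfsgLib.Elusive CfsgLib.ElusH Cfsg.Geo CfsgLib.Asch Module

variable {F : Type*} [Field F] {ι κ : Type} [Fintype ι] [DecidableEq ι] [Fintype κ] [DecidableEq κ]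
  {σ : F →+* F} {R : Subgroup (GL ι F)}

theorem smul_one_inj [Nonempty ι] {c d : F} (h : c • (1 : Matrix ι ι F) = d • 1) : c = d :=
  smul_left_injective F (one_ne_zero (α := Matrix ι ι F)) h

theorem cent_of_abs (h : ActsAbsolutelyIrreducibly (matrixSet R)) (M : Matrix ι ι F)
    (hM : ∀ a ∈ R, M * a = a * M) : ∃ c : F, M = c • 1 :=
  h.2 M (by rintro _ ⟨a, ha, rfl⟩; exact hM a ha)

theorem P2.of_class_two [Nonempty ι] (h2 : (2 : F) ≠ 0)
    (hc : ∀ M : Matrix ι ι F, (∀ a ∈ R, M * a = a * M) → ∃ c : F, M = c • 1)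
    (h4 : ∀ x ∈ R, x ^ 4 = 1) (hcomm : ∀ x ∈ R, ∀ y ∈ R, x * y * x⁻¹ * y⁻¹ ∈ scalars ι F)
    (hneg : -1 ∈ R) : P2 R := by
  have h4' : ∀ x ∈ R, (x : Matrix ι ι F) * (x * (x * x)) = 1 := fun x hx => by
    simpa [pow_succ, mul_assoc] using congrArg Units.val (h4 x hx)
  have h1 : ∀ a ∈ R, ∀ b ∈ R,
      (a : Matrix ι ι F) * b = b * a ∨ (a : Matrix ι ι F) * b = -(b * a) := by
    intro a ha b hb
    obtain ⟨c, hc⟩ := mem_scalars_iff_sc.1 (hcomm a ha b hb)
    have e : (a : Matrix ι ι F) * b = (c : F) • ((b : Matrix ι ι F) * a) := by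
      rw [← one_mul ((b : Matrix ι ι F) * a), ← smul_mul_assoc, ← coe_sc, hc, ← Units.val_mul,
        ← Units.val_mul, ← Units.val_mul]
      congr 1; group
    have e' : ∀ X, (a : Matrix ι ι F) * (b * X) = (c : F) • ((b : Matrix ι ι F) * (a * X)) :=
      fun X => by rw [← mul_assoc, e, smul_mul_assoc, mul_assoc]
    have e1 := h4' _ (R.mul_mem hb ha)
    have e2 := h4' _ (hc ▸ R.mul_mem (R.mul_mem (R.mul_mem ha hb) (R.inv_mem ha)) (R.inv_mem hb))
    simp only [Units.val_mul, mul_assoc, e', mul_smul_comm, smul_smul, h4' a ha, mul_one,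
      h4' b hb] at e1
    simp only [coe_sc, smul_mul_smul_comm, mul_one] at e2
    have e3 := smul_one_inj (e1.trans (one_smul F _).symm)
    have e4 := smul_one_inj (e2.trans (one_smul F _).symm)
    rcases mul_self_eq_one_iff.1 (show (c : F) * c = 1 by
      linear_combination e3 - (c : F) ^ 2 * e4) with h | h
    · left; rw [e, h, one_smul]
    · right; rw [e, h, neg_one_smul]
  refine ⟨h2, hc, h1, hneg, fun a ha => ?_⟩
  obtain ⟨s, hs⟩ := hc ((a : Matrix ι ι F) * a) fun b hb => by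
    rcases h1 a ha b hb with e | e
    · rw [mul_assoc, e, ← mul_assoc, e, mul_assoc]
    · rw [mul_assoc, e, mul_neg, ← mul_assoc, e, neg_mul, neg_neg, mul_assoc]
  have e := h4' a ha
  rw [← mul_assoc, hs, smul_mul_smul_comm, mul_one] at e
  rcases mul_self_eq_one_iff.1 (smul_one_inj (e.trans (one_smul F _).symm)) with h | h
  · left; rw [hs, h, one_smul]
  · right; rw [hs, h, neg_one_smul]

theorem card_inf_scalars [Nonempty ι] (h : ActsAbsolutelyIrreducibly (matrixSet R)) :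
    Nat.card (R ⊓ scalars ι F : Subgroup (GL ι F)) = Nat.card (Subgroup.center R) := by
  rw [← Subgroup.card_subtype]
  congr 2
  ext x
  exact ⟨fun hx => ⟨⟨x, hx.1⟩, (CasesSp.mem_center_iff_scalar h _).2 hx.2, rfl⟩,
    by rintro ⟨x, hx, rfl⟩; exact ⟨x.2, (CasesSp.mem_center_iff_scalar h _).1 hx⟩⟩

theorem pow_four_of_type (hR : IsSymplecticTypeGroup 2 R) (x : GL ι F) (hx : x ∈ R) : x ^ 4 = 1 := by
  have := Monoid.pow_exponent_eq_one (⟨x, hx⟩ : R)
  rw [hR.exponent_eq] at this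
  exact congrArg Subtype.val this

theorem exists_scalar_ne {S : Subgroup (GL ι F)} (hS : S ≤ scalars ι F) (a b : F)
    (h : 2 < Nat.card S) : ∃ c : Fˣ, sc ι c ∈ S ∧ (c : F) ≠ a ∧ (c : F) ≠ b := by
  classical
  by_contra hn
  push Not at hn
  have := Set.ncard_le_ncard_of_injOn (s := (S : Set (GL ι F))) (t := {a • 1, b • 1}) Units.val
    (fun x hx => by
      obtain ⟨c, rfl⟩ := mem_scalars_iff_sc.1 (hS hx)
      by_cases h : (c : F) = a
      · simp [coe_sc, h]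
      · simp [coe_sc, hn c hx h]) (Units.val_injective.injOn)
  have h2 := Set.ncard_insert_le (a • (1 : Matrix ι ι F)) {b • 1}
  rw [Set.ncard_singleton] at h2
  rw [← SetLike.coe_sort_coe, Nat.card_coe_set_eq] at h
  omega

theorem p2_of_center_four [Nonempty ι] [Finite R] (h2 : (2 : F) ≠ 0)
    (hR : IsSymplecticTypeGroup 2 R) (h : ActsAbsolutelyIrreducibly (matrixSet R))
    (hZ : Nat.card (Subgroup.center R) = 4) :
    P2 R ∧ ∃ c : Fˣ, sc ι c ∈ R ∧ (c : F) * c = -1 := by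
  obtain ⟨c, hc, h3, h4⟩ := exists_scalar_ne (S := R ⊓ scalars ι F) inf_le_right 1 (-1)
    (by rw [card_inf_scalars h, hZ]; norm_num)
  have h5 := pow_four_of_type hR _ hc.1
  rw [← map_pow, ← map_one (sc ι), sc_injective.eq_iff, Units.ext_iff] at h5
  have h6 : (c : F) * c = -1 := (mul_self_eq_one_iff.1 (by
    simpa [pow_succ, mul_assoc] using h5)).resolve_left fun e =>
      (mul_self_eq_one_iff.1 e).elim h3 h4
  refine ⟨.of_class_two h2 (cent_of_abs h) (pow_four_of_type hR) (fun x hx y hy =>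
    (CasesSp.mem_center_iff_scalar h _).1 (SLCases.comm_mem_center hR.prime hR.pGroup
      hR.cyclic_of_characteristic (by rw [hR.exponent_eq, hZ]; norm_num) ⟨x, hx⟩ ⟨y, hy⟩)) ?_,
    c, hc.1, h6⟩
  convert R.mul_mem hc.1 hc.1
  exact Units.ext (by simp [coe_sc, smul_smul, h6])

theorem p2_of_center_two [Nonempty ι] [Finite R] (h2 : (2 : F) ≠ 0)
    (hR : IsSymplecticTypeGroup 2 R) (h : ActsAbsolutelyIrreducibly (matrixSet R))
    (hZ : Nat.card (Subgroup.center R) = 2) : P2 R := by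
  have hE := CasesSp.extraspecial_of_type hR hZ
  refine .of_class_two h2 (cent_of_abs h) (pow_four_of_type hR) (fun x hx y hy => ?_) ?_
  · have : (⟨x, hx⟩ * ⟨y, hy⟩ * ⟨x, hx⟩⁻¹ * ⟨y, hy⟩⁻¹ : R) ∈ commutator R :=
      Subgroup.commutator_mem_commutator (Subgroup.mem_top _) (Subgroup.mem_top _)
    rw [hE.1.2.2] at this
    exact (CasesSp.mem_center_iff_scalar h _).1 this
  obtain ⟨z, hz⟩ := exists_prime_orderOf_dvd_card' (G := Subgroup.center R) 2 (by rw [hZ])
  obtain ⟨c, hc⟩ := mem_scalars_iff_sc.1 ((CasesSp.mem_center_iff_scalar h _).1 z.2)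
  have h3 : sc ι (c * c) = sc ι 1 := by
    rw [map_mul, hc, map_one, ← Subgroup.coe_mul, ← Subgroup.coe_mul, ← pow_two, ← hz,
      pow_orderOf_eq_one]; rfl
  obtain rfl | rfl : c = 1 ∨ c = -1 := (mul_self_eq_one_iff.1 (show (c : F) * c = 1 from
    congrArg Units.val (sc_injective h3))).imp (fun e => Units.ext e) fun e => Units.ext e
  · rw [show z = 1 from Subtype.ext (Subtype.ext (by rw [← hc, map_one]; rfl)), orderOf_one] at hz
    omega
  · rw [← sc_neg_one, hc]; exact z.1.2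

theorem false_of_minus [Nonempty ι] [Finite R] (h : P2 R) (hm : IsOfMinusType 2 R)
    (hc : Nat.card R = 2 ^ 5) {u v : GL ι F} (hu : u ∈ R) (hv : v ∈ R)
    (h1 : (u : Matrix ι ι F) * u = 1) (h2 : (v : Matrix ι ι F) * v = 1)
    (h3 : (v : Matrix ι ι F) * u = u * v) (hv' : ∀ c : F, (v : Matrix ι ι F) ≠ c • 1)
    (hu' : ∀ c : F, (u : Matrix ι ι F) ≠ c • 1) (huv : u ≠ v) (huv' : u ≠ -v) : False := by
  classical
  set m : R := ⟨-1, h.neg⟩
  set a : R := ⟨u, hu⟩
  set b : R := ⟨v, hv⟩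
  have hcomm : ∀ x ∈ ({m, a, b} : Set R), ∀ y ∈ ({m, a, b} : Set R), x * y = y * x := by
    rintro x (rfl | rfl | rfl) y (rfl | rfl | rfl) <;>
      first | rfl | exact Subtype.ext (Units.ext (by simp [m, a, b, h3]))
  haveI := Subgroup.isMulCommutative_closure hcomm
  have h4 := hm (Subgroup.closure {m, a, b}) this fun x hx => by
    induction hx using Subgroup.closure_induction with
    | mem x hx =>
      rcases hx with rfl | rfl | rfl <;> exact Subtype.ext (Units.ext (by simp [m, a, b, h1, h2]))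
    | one => simp
    | mul x y hx hy ex ey =>
      rw [mul_assoc, ← mul_assoc y, setLike_mul_comm hy hx,
        mul_assoc, ey, mul_one, ex]
    | inv x _ ex => rw [← _root_.mul_inv_rev, ex, inv_one]
  obtain ⟨k, -, h5⟩ := (Nat.dvd_prime_pow Nat.prime_two).1
    (hc ▸ Subgroup.card_subgroup_dvd_card (Subgroup.closure {m, a, b}))
  have h6 : k < 3 := by rwa [h5, Nat.pow_lt_pow_iff_right one_lt_two] at h4
  have h7 : 5 ≤ Nat.card (Subgroup.closure ({m, a, b} : Set R)) := by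
    have hm' : m ∈ Subgroup.closure ({m, a, b} : Set R) := Subgroup.subset_closure (by simp)
    have hb' : b ∈ Subgroup.closure ({m, a, b} : Set R) := Subgroup.subset_closure (by simp)
    have := Nat.card_le_card_of_injective (fun i : Fin 5 =>
      (![⟨1, one_mem _⟩, ⟨m, hm'⟩, ⟨b, hb'⟩, ⟨m * b, mul_mem hm' hb'⟩,
        ⟨a, Subgroup.subset_closure (by simp)⟩] i : Subgroup.closure ({m, a, b} : Set R))) ?_
    · simpa using this
    have n1 : (-1 : Matrix ι ι F) ≠ 1 := fun e => h.two (by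
      linear_combination -smul_one_inj (ι := ι) (c := (-1 : F)) (d := 1) (by simpa using e))
    have n2 : (v : Matrix ι ι F) ≠ 1 := by simpa using hv' 1
    have n3 : (v : Matrix ι ι F) ≠ -1 := by simpa using hv' (-1)
    have n4 : (u : Matrix ι ι F) ≠ 1 := by simpa using hu' 1
    have n5 : (u : Matrix ι ι F) ≠ -1 := by simpa using hu' (-1)
    have n6 : (u : Matrix ι ι F) ≠ v := fun e => huv (Units.ext e)
    have n7 : (u : Matrix ι ι F) ≠ -v := fun e => huv' (Units.ext e)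
    have n8 : -(v : Matrix ι ι F) ≠ v := fun e => n1 (by rw [← h2, ← neg_mul, e])
    have n9 : -(v : Matrix ι ι F) ≠ 1 := fun e => n3 (by rw [← e, neg_neg])
    intro i j e
    have e' := congrArg (fun x : Subgroup.closure ({m, a, b} : Set R) =>
      (((x : R) : GL ι F) : Matrix ι ι F)) e
    fin_cases i <;> fin_cases j <;> first | rfl | (exfalso; simp [m, a, b, n1, n1.symm, n2, n2.symm,
      n3, n3.symm, n4, n4.symm, n5, n5.symm, n6, n6.symm, n7, n7.symm, n8, n8.symm, n9,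
      n9.symm] at e')
  rw [h5] at h7
  interval_cases k <;> omega

section pairs
variable {a b c d : GL ι F}

theorem Pairs.swap (h : Pairs R a b c d) : Pairs R c d a b :=
  ⟨h.hc, h.hd, h.ha, h.hb, h.dc, h.ba, h.ca.symm, h.da.symm, h.cb.symm, h.db.symm,
    fun K k1 k2 k3 k4 => h.gen K k3 k4 k1 k2⟩

theorem Pairs.flip (h : Pairs R a b c d) : Pairs R b a c d :=
  ⟨h.hb, h.ha, h.hc, h.hd, by rw [h.ba, neg_neg], h.dc, h.cb, h.ca, h.db, h.da,
    fun K k1 k2 => h.gen K k2 k1⟩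

theorem Pairs.mul (h : Pairs R a b c d) : Pairs R a (a * b) c d :=
  ⟨h.ha, R.mul_mem h.ha h.hb, h.hc, h.hd, by rw [Units.val_mul, mul_assoc, h.ba, mul_neg], h.dc,
    h.ca, by rw [Units.val_mul, ← mul_assoc, h.ca, mul_assoc, h.cb, mul_assoc], h.da,
    by rw [Units.val_mul, ← mul_assoc, h.da, mul_assoc, h.db, mul_assoc],
    fun K k1 k2 => h.gen K k1 (by simpa using K.mul_mem (K.inv_mem k1) k2)⟩

theorem Pairs.scale (h : Pairs R a b c d) {z : Fˣ} (hz : sc ι z ∈ R) :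
    Pairs R (sc ι z * a) b c d :=
  ⟨R.mul_mem hz h.ha, h.hb, h.hc, h.hd, by simp [coe_sc, h.ba], h.dc, by simp [coe_sc, h.ca],
    h.cb, by simp [coe_sc, h.da], h.db, fun K k1 k2 k3 k4 k5 => h.gen K
      (by simpa using K.mul_mem (K.inv_mem (k5 ⟨hz, sc_mem z⟩)) k1) k2 k3 k4 k5⟩

theorem Pairs.fix (h : Pairs R a b c d) (hP : P2 R) {z : Fˣ} (hz : sc ι z ∈ R)
    (hzz : (z : F) * z = -1) {ε : Matrix ι ι F} (hε : ε = 1 ∨ ε = -1) :
    ∃ a' : GL ι F, Pairs R a' b c d ∧ (a' : Matrix ι ι F) * a' = ε := by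
  rcases hP.sq a h.ha with e | e <;> rcases hε with rfl | rfl
  · exact ⟨a, h, e⟩
  · exact ⟨_, h.scale hz, by simp [coe_sc, smul_smul, e, hzz]⟩
  · exact ⟨_, h.scale hz, by simp [coe_sc, smul_smul, e, hzz]⟩
  · exact ⟨a, h, e⟩

theorem Pairs.sq_mul (h : Pairs R a b c d) :
    ((a * b : GL ι F) : Matrix ι ι F) * (a * b : GL ι F) = -(a * a * (b * b)) := by
  rw [Units.val_mul, mul_assoc, ← mul_assoc (b : Matrix ι ι F), h.ba]; simp [mul_assoc]

theorem Pairs.norm (h : Pairs R a b c d) (hP : P2 R) : ∃ a' b' : GL ι F, Pairs R a' b' c d ∧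
    (((a' : Matrix ι ι F) * a' = -1 ∧ (b' : Matrix ι ι F) * b' = -1) ∨
      ((a' : Matrix ι ι F) * a' = 1 ∧ (b' : Matrix ι ι F) * b' = 1)) := by
  rcases hP.sq a h.ha with e | e <;> rcases hP.sq b h.hb with e' | e'
  · exact ⟨a, b, h, Or.inr ⟨e, e'⟩⟩
  · exact ⟨a, _, h.mul, Or.inr ⟨e, by simp only [h.sq_mul, e, e']; simp⟩⟩
  · exact ⟨b, _, h.flip.mul, Or.inr ⟨e', by simp only [h.flip.sq_mul, e, e']; simp⟩⟩
  · exact ⟨a, b, h, Or.inl ⟨e, e'⟩⟩

theorem not_scalar_of_anti [Nonempty ι] (h2 : (2 : F) ≠ 0) {A : Matrix ι ι F} (hA : A ≠ 0)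
    {b : GL ι F} (h : A * b = -(b * A)) (c : F) : A ≠ c • 1 := by
  rintro rfl
  rw [smul_mul_assoc, mul_smul_comm, one_mul, mul_one, eq_neg_iff_add_eq_zero, ← two_smul F,
    smul_eq_zero, smul_eq_zero] at h
  rcases h with h | h | h
  exacts [h2 h, hA (by rw [h, zero_smul]), b.ne_zero h]

theorem ne_of_anti [Nonempty ι] (h2 : (2 : F) ≠ 0) {x : GL ι F}
    (h : (b : Matrix ι ι F) * a = -(a * b)) (hx : (x : Matrix ι ι F) * b = b * x) :
    a ≠ x ∧ a ≠ -x := by
  have : (a : Matrix ι ι F) * b ≠ b * a := fun e => smul_ne_zero h2 (a * b).ne_zero (by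
    rw [two_smul, Units.val_mul]; nth_rewrite 1 [e, h]; simp)
  constructor <;> rintro rfl
  · exact this hx
  · exact this (by simp [hx])

end pairs

/-- Five mutually anticommuting involutions. -/
structure Gam (R : Subgroup (GL ι F)) (g : Fin 5 → GL ι F) : Prop where
  p2 : P2 R
  mem : ∀ i, g i ∈ R
  sq : ∀ i, (g i : Matrix ι ι F) * g i = 1
  anti : ∀ i j, i ≠ j → (g i : Matrix ι ι F) * g j = -(g j * g i)
  cent : ∀ M : Matrix ι ι F, (∀ i, M * g i = g i * M) → ∃ c : F, M = c • 1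

theorem Pairs.gam {a b c d : GL ι F} (h : Pairs R a b c d) (hP : P2 R)
    (ha : (a : Matrix ι ι F) * a = -1) (hb : (b : Matrix ι ι F) * b = -1)
    (hc : (c : Matrix ι ι F) * c = 1) (hd : (d : Matrix ι ι F) * d = 1) : ∃ g, Gam R g := by
  have as : ∀ {x y z : Matrix ι ι F}, x * y = z → ∀ X, x * (y * X) = z * X := fun e X => by
    rw [← mul_assoc, e]
  have hcd := R.mul_mem h.hc h.hd
  refine ⟨![c, d, c * d * a, c * d * b, c * d * (a * b)], hP, fun i => ?_, fun i => ?_,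
    fun i j hij => ?_, fun M hM => hP.cent M fun x hx => h.gen (cm M) ?_ ?_ (hM 0) (hM 1)
      (fun y hy => ?_) hx⟩
  · fin_cases i
    exacts [h.hc, h.hd, R.mul_mem hcd h.ha, R.mul_mem hcd h.hb, R.mul_mem hcd (R.mul_mem h.ha h.hb)]
  · fin_cases i <;> simp [mul_assoc, ha, hb, hc, hd, as ha, as hb, as hc, as hd, h.ba, h.dc, h.ca,
      h.cb, h.da, h.db, as h.ba, as h.dc, as h.ca, as h.cb, as h.da, as h.db]
  · fin_cases i <;> fin_cases j <;> first | exact absurd rfl hij | simp [mul_assoc, ha, hb, hc, hd,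
      as ha, as hb, as hc, as hd, h.ba, h.dc, h.ca, h.cb, h.da, h.db, as h.ba, as h.dc, as h.ca,
      as h.cb, as h.da, as h.db]
  · simpa [mul_assoc] using (cm M).mul_mem ((cm M).inv_mem ((cm M).mul_mem (hM 0) (hM 1))) (hM 2)
  · simpa [mul_assoc] using (cm M).mul_mem ((cm M).inv_mem ((cm M).mul_mem (hM 0) (hM 1))) (hM 3)
  · obtain ⟨z, rfl⟩ := mem_scalars_iff_sc.1 hy.2
    change M * _ = _ * M
    simp [coe_sc]

theorem P2.exists_gam_of_four [Nonempty ι] [Finite R] (hP : P2 R)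
    (hc : Nat.card R = 16 * Nat.card (R ⊓ scalars ι F : Subgroup (GL ι F))) {z : Fˣ}
    (hz : sc ι z ∈ R) (hzz : (z : F) * z = -1) : ∃ g, Gam R g := by
  obtain ⟨a, b, c, d, h⟩ := hP.exists_pairs hc
  obtain ⟨a, h, ha⟩ := h.fix hP hz hzz (Or.inr rfl)
  obtain ⟨b, h, hb⟩ := h.flip.fix hP hz hzz (Or.inr rfl)
  obtain ⟨c, h, hc⟩ := h.swap.fix hP hz hzz (Or.inl rfl)
  obtain ⟨d, h, hd⟩ := h.flip.fix hP hz hzz (Or.inl rfl)
  exact h.swap.gam hP hb ha hd hc

theorem P2.exists_gam_of_minus [Nonempty ι] [Finite R] (hP : P2 R)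
    (hc : Nat.card R = 16 * Nat.card (R ⊓ scalars ι F : Subgroup (GL ι F)))
    (hm : IsOfMinusType 2 R) (h5 : Nat.card R = 2 ^ 5) : ∃ g, Gam R g := by
  obtain ⟨a, b, c, d, h⟩ := hP.exists_pairs hc
  obtain ⟨a, b, h, h1⟩ := h.norm hP
  obtain ⟨c, d, h, h2⟩ := h.swap.norm hP
  have as : ∀ {x y z : Matrix ι ι F}, x * y = z → ∀ X, x * (y * X) = z * X := fun e X => by
    rw [← mul_assoc, e]
  rcases h1 with ⟨ha, hb⟩ | ⟨ha, hb⟩ <;> rcases h2 with ⟨hc, hd⟩ | ⟨hc, hd⟩
  · have h3 : ((c * a : GL ι F) : Matrix ι ι F) * b = -(b * (c * a : GL ι F)) := by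
      simp [mul_assoc, h.dc, as h.da]
    have h4 := ne_of_anti (a := c * a) (b := b) (x := d * b) hP.two (by rw [h3, neg_neg])
      (by simp [mul_assoc, as h.db])
    refine (false_of_minus hP hm h5 (R.mul_mem h.ha h.hc) (R.mul_mem h.hb h.hd) ?_ ?_ ?_
      (not_scalar_of_anti hP.two (Units.ne_zero _) (b := a) ?_)
      (not_scalar_of_anti hP.two (Units.ne_zero _) h3) h4.1 h4.2).elim <;>
    simp [mul_assoc, ha, hb, hc, hd, as ha, as hb, as hc, as hd, h.ba, h.dc, h.ca,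
      h.cb, h.da, h.db, as h.ba, as h.dc, as h.ca, as h.cb, as h.da, as h.db]
  · exact h.swap.gam hP ha hb hc hd
  · exact h.gam hP hc hd ha hb
  · exact (false_of_minus hP hm h5 h.ha h.hc hc ha h.ca
      (not_scalar_of_anti hP.two a.ne_zero (b := b) (by rw [h.dc, neg_neg]))
      (not_scalar_of_anti hP.two c.ne_zero (b := d) (by rw [h.ba, neg_neg]))
      (ne_of_anti hP.two h.ba h.cb).1 (ne_of_anti hP.two h.ba h.cb).2).elim

end CfsgLib.ElusF
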