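import Mathlib
import Cfsg.Agent.Lib.ElusF.Gam

/-! Elements of order two, three and five in the normaliser of a group of symplectic type. -/

set_option autoImplicit false
set_option linter.unusedSimpArgs false

namespace CfsgLib.ElusF

open Matrix Polynomial CfsgLib.MatConj CfsgLib.Elusive CfsgLib.ElusH Cfsg.Geo CfsgLib.Asch Module

variable {F : Type*} [Field F] {ι κ : Type} [Fintype ι] [DecidableEq ι] [Fintype κ] [DecidableEq κ]
  {σ : F →+* F} {R : Subgroup (GL ι F)} {G : Matrix ι ι F}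

/-- A matrix normalising `R` and multiplying a form by `μ`. -/
def NS (R : Subgroup (GL ι F)) (σ : F →+* F) (G : Matrix ι ι F) (μ : F) (M : Matrix ι ι F) : Prop :=
  (∃ y ∈ subgroupNormalizer R, (y : Matrix ι ι F) = M) ∧ Sm σ G M μ

theorem NS.mul {μ ν : F} {M N : Matrix ι ι F} (h : NS R σ G μ M) (h' : NS R σ G ν N) :
    NS R σ G (μ * ν) (M * N) := by
  obtain ⟨⟨y, hy, rfl⟩, h⟩ := h
  obtain ⟨⟨z, hz, rfl⟩, h'⟩ := h'
  exact ⟨⟨y * z, mul_mem hy hz, rfl⟩, h.mul h'⟩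

theorem NS.smul {μ : F} {M : Matrix ι ι F} (h : NS R σ G μ M) {c : F} (hc : c ≠ 0) :
    NS R σ G (c * σ c * μ) (c • M) := by
  obtain ⟨⟨y, hy, rfl⟩, h⟩ := h
  exact ⟨⟨sc ι (Units.mk0 c hc) * y, mul_mem (scalars_le_subgroupNormalizer (sc_mem _)) hy,
    by simp [coe_sc]⟩, h.smul c⟩

theorem NS.neg {μ : F} {M : Matrix ι ι F} (h : NS R σ G μ M) : NS R σ G μ (-M) := by
  simpa using h.smul (neg_ne_zero.2 one_ne_zero)

theorem NS.congr {μ ν : F} {M : Matrix ι ι F} (h : NS R σ G μ M) (e : μ = ν) : NS R σ G ν M :=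
  e ▸ h

theorem NS.ci {μ : F} {M A : Matrix ι ι F} (h : NS R σ G μ M) (e : IsConj A M) :
    CI (subgroupNormalizer R) A :=
  let ⟨⟨y, hy, h⟩, _⟩ := h
  ⟨y, hy, h ▸ e⟩

theorem NS.det_ne_zero {μ : F} {M : Matrix ι ι F} (h : NS R σ G μ M) : M.det ≠ 0 := by
  obtain ⟨⟨y, -, rfl⟩, -⟩ := h
  exact (y.isUnit.map detMonoidHom).ne_zero

theorem ns_of_mem (hR : ∀ a ∈ R, Sm σ G a 1) {a : GL ι F} (ha : a ∈ R) : NS R σ G 1 a :=
  ⟨⟨a, Subgroup.le_normalizer ha, rfl⟩, hR a ha⟩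

theorem P2.ns_T [Finite R] (h : P2 R) (hR : ∀ a ∈ R, Sm σ G a 1) {a : GL ι F} (ha : a ∈ R)
    (haa : (a : Matrix ι ι F) * a = -1) : NS R σ G 2 (1 + a) :=
  ⟨h.exists_T ha haa, (hR a ha).one_add haa⟩

theorem eq_zero_of_rank {A : Matrix ι ι F} (h : A.rank = 0) : A = 0 := by
  simpa using (rk_eq_zero_iff (A := A) (c := 0)).1 (by rwa [rk, zero_smul, sub_zero])

theorem rank_add_of_sq (h2 : (2 : F) ≠ 0) {A : Matrix ι ι F} (h : A * A = 1) :
    (A - 1).rank + (-A - 1).rank = Fintype.card ι := by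
  have h1 := rank_add_le' (A - 1) (-A - 1)
  rw [show A - 1 + (-A - 1) = (-2 : F) • 1 by rw [neg_smul, two_smul]; abel,
    rank_smul_one (neg_ne_zero.2 h2)] at h1
  have := rank_add_rank_le_card_of_mul_eq_zero (A := A - 1) (B := -A - 1) (by
    rw [sub_mul, mul_sub, mul_neg, h, mul_one, one_mul]; abel)
  omega

theorem rank_of_anti (h2 : (2 : F) ≠ 0) {A : Matrix ι ι F} (h : A * A = 1) (e : IsConj A (-A)) :
    2 * (A - 1).rank = Fintype.card ι := by
  have := rank_add_of_sq h2 h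
  rw [← rk_one (-A), ← rk_of_isConj e, rk_one] at this
  omega

theorem P2.exists_w [Nonempty ι] [Finite R] (h : P2 R) (hR : ∀ a ∈ R, Sm σ G a 1) {a b : GL ι F}
    (ha : a ∈ R) (hb : b ∈ R) (haa : (a : Matrix ι ι F) * a = -1)
    (hbb : (b : Matrix ι ι F) * b = -1) (hab : (b : Matrix ι ι F) * a = -(a * b)) :
    ∃ u, NS R σ G 1 u ∧ u * u = -u - 1 ∧ u * a ≠ a * u ∧
      ∀ X : Matrix ι ι F, X * a = a * X → X * b = b * X → X * u = u * X := by
  have as : ∀ {x y z : Matrix ι ι F}, x * y = z → ∀ X, x * (y * X) = z * X := fun e X => by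
    rw [← mul_assoc, e]
  have h2 := h.two
  obtain ⟨T, -, hT⟩ := h.exists_T ha haa
  refine ⟨(-2⁻¹ : F) • ((1 + a) * (1 + b)), (((h.ns_T hR ha haa).mul (h.ns_T hR hb hbb)).smul
    (neg_ne_zero.2 (inv_ne_zero h2))).congr ?_, ?_, fun e => ?_, fun X h1 h3 => ?_⟩
  · rw [map_neg, map_inv₀, map_ofNat]; field_simp
  · have h1 : (1 + (a : Matrix ι ι F)) * (1 + b) * ((1 + a) * (1 + b)) =
        (2 : F) • ((1 + (a : Matrix ι ι F)) * (1 + b)) - (4 : F) • 1 := by
      simp only [mul_add, add_mul, one_mul, mul_one, mul_assoc, haa, hbb, hab, as haa, as hab,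
        mul_neg, neg_mul, neg_neg, show (4 : F) = 2 + 2 by norm_num, add_smul, two_smul]
      abel
    rw [smul_mul_smul_comm, h1, smul_sub, smul_smul, smul_smul, ← neg_smul, neg_neg,
      show (-2⁻¹ * -2⁻¹ * 4 : F) = 1 by field_simp; norm_num, one_smul]
    congr 2; field_simp
  · rw [smul_mul_assoc, mul_smul_comm, (smul_right_injective _
      (neg_ne_zero.2 (inv_ne_zero h2))).eq_iff] at e
    refine smul_ne_zero h2 (T * a * b).ne_zero ?_
    rw [Units.val_mul, Units.val_mul, hT, two_smul, ← sub_eq_zero.2 e.symm]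
    simp only [mul_add, add_mul, one_mul, mul_one, mul_assoc, haa, hab, as haa, mul_neg, neg_mul]
    abel
  · simp only [mul_smul_comm, smul_mul_assoc, mul_add, add_mul, one_mul, mul_one, mul_assoc, h1, h3,
      as h1]

theorem cube_of_sq {u : Matrix ι ι F} (h : u * u = -u - 1) : u ^ 3 = 1 := by
  rw [pow_succ, pow_two, h, sub_mul, neg_mul, h]; simp

theorem rank_of_quad (h3 : (3 : F) ≠ 0) {u : Matrix ι ι F} (h : u * u = -u - 1) :
    (u - 1).rank = Fintype.card ι := by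
  have := rank_mul_le_left (u - 1) (u + 1 + 1)
  rw [show (u - 1) * (u + 1 + 1) = (-3 : F) • 1 by
    rw [show (-3 : F) = -(1 + 1 + 1) by norm_num]
    simp only [sub_mul, mul_add, h, neg_smul, add_smul, one_smul, one_mul, mul_one]; abel,
    rank_smul_one (neg_ne_zero.2 h3)] at this
  exact le_antisymm (rank_le_card_width _) this

theorem rank_mul_quad {u v : Matrix ι ι F} (hu : u * u = -u - 1) (hv : v * v = -v - 1)
    (h : v * u = u * v) {a : Matrix ι ι F} (h1 : u * a ≠ a * u) (h2 : v * a = a * v) :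
    (u * v) ^ 3 = 1 ∧ (u * v - 1).rank ≠ 0 ∧ (u * v - 1).rank ≠ Fintype.card ι := by
  have h3 : (u * v - 1) * (v - u) = 0 := by
    rw [sub_mul, mul_sub, mul_assoc, hv, mul_assoc, h, ← mul_assoc, hu]
    simp only [mul_sub, sub_mul, mul_neg, neg_mul, mul_one, one_mul]; abel
  refine ⟨by rw [(show Commute u v from h.symm).mul_pow, cube_of_sq hu, cube_of_sq hv, one_mul],
    fun e => h1 ?_, fun e => h1 ?_⟩
  · rw [← rk_one, rk_eq_zero_iff, one_smul] at e
    have h4 : u = -v - 1 := by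
      rw [← hv, ← one_mul (v * v), ← e, mul_assoc, ← pow_two, ← pow_succ', cube_of_sq hv, mul_one]
    rw [h4, sub_mul, mul_sub, neg_mul, mul_neg, h2, one_mul, mul_one]
  · have := rank_add_rank_le_card_of_mul_eq_zero h3
    rw [← sub_eq_zero.1 (eq_zero_of_rank (A := v - u) (by omega)), h2]

theorem mul_eq_zero_of_rank_eq {P Q X : Matrix ι ι F} (h : (P * Q).rank = P.rank)
    (hX : X * (P * Q) = 0) : X * P = 0 := by
  have h1 : LinearMap.range (P * Q).mulVecLin = LinearMap.range P.mulVecLin :=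
    Submodule.eq_of_le_of_finrank_eq (by rw [mulVecLin_mul]; exact LinearMap.range_comp_le_range _ _) h
  refine Matrix.toLin'.injective (LinearMap.ext fun v => ?_)
  obtain ⟨w, hw⟩ : P *ᵥ v ∈ LinearMap.range (P * Q).mulVecLin := h1 ▸ ⟨v, rfl⟩
  rw [toLin'_apply, ← mulVec_mulVec, ← hw, mulVecLin_apply, mulVec_mulVec, hX, map_zero,
    zero_mulVec, LinearMap.zero_apply]

namespace Gam
variable {g : Fin 5 → GL ι F} (h : Gam R g)
include h

theorem sq' (i : Fin 5) (X : Matrix ι ι F) : (g i : Matrix ι ι F) * (g i * X) = X := by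
  rw [← mul_assoc, h.sq, one_mul]

theorem sw {i j : Fin 5} (hij : j < i) : (g i : Matrix ι ι F) * g j = -(g j * g i) :=
  h.anti i j hij.ne'

theorem sw' {i j : Fin 5} (hij : j < i) (X : Matrix ι ι F) :
    (g i : Matrix ι ι F) * (g j * X) = -(g j * (g i * X)) := by
  rw [← mul_assoc, h.sw hij, neg_mul, mul_assoc]

theorem mul_sq {i j : Fin 5} (hij : i ≠ j) :
    ((g i * g j : GL ι F) : Matrix ι ι F) * (g i * g j : GL ι F) = -1 := by
  rw [Units.val_mul, mul_assoc, ← mul_assoc (g j : Matrix ι ι F), h.anti j i hij.symm, neg_mul,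
    mul_assoc, h.sq, mul_one, mul_neg, h.sq]

theorem rank_g0 : 2 * ((g 0 : Matrix ι ι F) - 1).rank = Fintype.card ι :=
  rank_of_anti h.p2.two (h.sq 0) (isConj_neg_of_anti (h.anti 0 1 (by decide)))

theorem conj_neg : IsConj ((g 0 * g 1 : GL ι F) : Matrix ι ι F) (-(g 0 * g 1 : GL ι F)) :=
  isConj_neg_of_anti (b := g 0) (by
    rw [Units.val_mul, h.sq', mul_assoc, h.sw (by decide), mul_neg, h.sq'])

theorem ns_sub [Finite R] (hR : ∀ a ∈ R, Sm σ G a 1) {i j : Fin 5} (hij : i ≠ j) :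
    NS R σ G 2 ((g i : Matrix ι ι F) - g j) := by
  have := (ns_of_mem hR (h.mem i)).mul (h.p2.ns_T hR (R.mul_mem (h.mem j) (h.mem i))
    (h.mul_sq hij.symm))
  rwa [one_mul, Units.val_mul, h.anti j i hij.symm, mul_add, mul_neg, h.sq', mul_one,
    ← sub_eq_add_neg] at this

theorem exists_five [Nonempty ι] [Finite R] (hR : ∀ a ∈ R, Sm σ G a 1) :
    ∃ M, NS R σ G 1 M ∧ PE 5 M := by
  have h2 := h.p2.two
  have h4 : (4 : F) ≠ 0 := by rw [show (4 : F) = 2 * 2 by norm_num]; exact mul_ne_zero h2 h2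
  have h1 := ((h.ns_sub hR (i := 0) (j := 1) (by decide)).mul (h.ns_sub hR (i := 1) (j := 2)
    (by decide))).mul ((h.ns_sub hR (i := 2) (j := 3) (by decide)).mul
      (h.ns_sub hR (i := 3) (j := 4) (by decide)))
  set y := ((g 0 : Matrix ι ι F) - g 1) * (g 1 - g 2) * ((g 2 - g 3) * (g 3 - g 4)) with hy
  have h3 : ∀ i, y * g i = g (i + 1) * y := by
    intro i
    rw [hy]
    fin_cases i <;> simp only [Fin.zero_eta, Fin.mk_one, Fin.reduceFinMk, Fin.isValue,
      Fin.reduceAdd] <;> simp (disch := decide) only [mul_sub, sub_mul, mul_assoc,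
      h.sq, h.sq', h.sw, h.sw', mul_neg, neg_mul, neg_neg, mul_one, one_mul] <;> abel
  have h5 : ∀ (k : ℕ) i, y ^ k * g i = g (i + k • 1) * y ^ k := by
    intro k
    induction k with
    | zero => simp
    | succ k ih =>
      intro i
      rw [pow_succ', mul_assoc, ih, ← mul_assoc, h3, mul_assoc, succ_nsmul, add_assoc]
  refine ⟨_, (h1.smul (inv_ne_zero h4)).congr ?_, PE.smul ⟨h.cent _ fun i => ?_, fun c hc => ?_⟩
    (inv_ne_zero h4)⟩
  · rw [map_inv₀, map_ofNat]; field_simp; norm_num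
  · rw [h5, show 5 • (1 : Fin 5) = 0 from rfl, add_zero]
  · have h6 := h3 0
    have h7 : c ≠ 0 := by
      rintro rfl
      exact h1.det_ne_zero (by rw [hc]; simp)
    rw [hc, smul_mul_assoc, mul_smul_comm, one_mul, mul_one, (smul_right_injective _ h7).eq_iff,
      zero_add] at h6
    exact (ne_of_anti h2 (h.anti 1 0 (by decide)) rfl).1 (Units.ext h6)

theorem exists_three [Nonempty ι] [Finite R] (hR : ∀ a ∈ R, Sm σ G a 1) (h3 : (3 : F) ≠ 0) {z : Fˣ}
    (hz : sc ι z ∈ R) (hzz : (z : F) * z = -1) : ∃ M M', NS R σ G 1 M ∧ NS R σ G 1 M' ∧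
      M ^ 3 = 1 ∧ M' ^ 3 = 1 ∧ (M - 1).rank = Fintype.card ι ∧ (M' - 1).rank ≠ 0 ∧
      (M' - 1).rank ≠ Fintype.card ι := by
  obtain ⟨u, u1, u2, u3, u4⟩ := h.p2.exists_w hR (R.mul_mem (h.mem 0) (h.mem 1))
    (R.mul_mem (h.mem 0) (h.mem 2)) (h.mul_sq (by decide)) (h.mul_sq (by decide)) (by
      simp (disch := decide) only [Units.val_mul, mul_assoc, h.sq, h.sq', h.sw, h.sw', mul_neg,
        neg_mul, neg_neg])
  obtain ⟨v, v1, v2, -, v4⟩ := h.p2.exists_w hR (R.mul_mem hz (h.mem 3))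
    (R.mul_mem hz (h.mem 4)) (by simp [coe_sc, smul_smul, h.sq, hzz])
    (by simp [coe_sc, smul_smul, h.sq, hzz]) (by simp [coe_sc, h.sw (show (3 : Fin 5) < 4 by decide)])
  have e : ∀ i : Fin 5, i = 1 ∨ i = 2 → v * (g 0 * g i : GL ι F) = (g 0 * g i : GL ι F) * v := by
    rintro i (rfl | rfl) <;> refine (v4 _ ?_ ?_).symm <;>
    simp (disch := decide) only [Units.val_mul, coe_sc, smul_mul_assoc, mul_smul_comm, one_mul,
      mul_assoc, h.sq, h.sq', h.sw, h.sw', mul_neg, neg_mul, neg_neg]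
  obtain ⟨w1, w2, w3⟩ := rank_mul_quad u2 v2 (u4 v (e 1 (.inl rfl)) (e 2 (.inr rfl))) u3
    (e 1 (.inl rfl))
  exact ⟨u, u * v, u1, (u1.mul v1).congr (one_mul 1), cube_of_sq u2, w1, rank_of_quad h3 u2, w2, w3⟩

theorem exists_refl [Nonempty ι] [Finite R] (hR : ∀ a ∈ R, Sm σ G a 1) (h4 : Fintype.card ι = 4)
    {z : Fˣ} (hz : sc ι z ∈ R) (hzz : (z : F) * z = -1) :
    ∃ s, NS R σ G 1 s ∧ s * s = 1 ∧ (s - 1).rank = 1 := by
  have h2 := h.p2.two
  obtain ⟨c, hc⟩ : ∃ c : GL ι F, c = sc ι z * (g 1 * g 2) := ⟨_, rfl⟩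
  have hcR : c ∈ R := hc ▸ R.mul_mem hz (R.mul_mem (h.mem 1) (h.mem 2))
  have e : (c : Matrix ι ι F) = (z : F) • ((g 1 : Matrix ι ι F) * g 2) := by simp [hc, coe_sc]
  have hcc : (c : Matrix ι ι F) * c = 1 := by
    rw [e, smul_mul_smul_comm, ← Units.val_mul (g 1), h.mul_sq (by decide), hzz]; simp
  have hc0 : (c : Matrix ι ι F) * g 0 = g 0 * c := by
    simp (disch := decide) only [e, smul_mul_assoc, mul_smul_comm, mul_assoc, h.sw, h.sw', mul_neg,
      neg_neg]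
  have hc0' : ∀ X, (c : Matrix ι ι F) * (g 0 * X) = g 0 * (c * X) := fun X => by
    rw [← mul_assoc, hc0, mul_assoc]
  have hcc' : ∀ X, (c : Matrix ι ι F) * (c * X) = X := fun X => by rw [← mul_assoc, hcc, one_mul]
  set s := (2 : F)⁻¹ • (1 + (g 0 : Matrix ι ι F) + c - g 0 * c) with hs
  have hss : s * s = 1 := by
    rw [hs, smul_mul_smul_comm, show (1 + (g 0 : Matrix ι ι F) + c - g 0 * c) *
      (1 + g 0 + c - g 0 * c) = (2 * 2 : F) • 1 by
        simp only [mul_add, add_mul, mul_sub, sub_mul, one_mul, mul_one, mul_assoc, h.sq, h.sq',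
          hcc, hcc', hc0, hc0', mul_smul, two_smul]
        abel, smul_smul, show (2⁻¹ * 2⁻¹ * (2 * 2) : F) = 1 by field_simp, one_smul]
  have hN : NS R σ G 1 s := by
    constructor
    · have t : ∀ x ∈ R, (x : Matrix ι ι F) * x = 1 → NS R σ 0 0 (1 + (z : F) • (x : Matrix ι ι F)) :=
        fun x hx e => ⟨by simpa [coe_sc] using (h.p2.exists_T (R.mul_mem hz hx) (by
          simp [coe_sc, smul_smul, e, hzz])), by simp [Sm]⟩
      have hz1 : 1 + (z : F) ≠ 0 := fun e => h2 (by linear_combination hzz + (1 - (z : F)) * e)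
      have := (((t _ (h.mem 0) (h.sq 0)).mul (t _ hcR hcc)).mul (t _ (R.mul_mem h.p2.neg
        (R.mul_mem (h.mem 0) hcR)) (by simp [mul_assoc, hc0', h.sq', h.sq, hcc]))).smul
          (inv_ne_zero (mul_ne_zero h2 hz1))
      obtain ⟨y, hy, ey⟩ := this.1
      refine ⟨y, hy, ey.trans (Eq.symm ?_)⟩
      rw [eq_inv_smul_iff₀ (mul_ne_zero h2 hz1), hs, smul_smul,
        show 2 * (1 + (z : F)) * 2⁻¹ = 1 + z by field_simp]
      simp only [Units.val_mul, Units.val_neg, Units.val_one, mul_add, add_mul, one_mul, mul_one,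
        neg_mul, mul_neg, smul_neg, mul_smul_comm, smul_mul_assoc, mul_assoc, h.sq, h.sq', hcc,
        hcc', hc0, hc0', smul_smul, hzz, add_smul, smul_add, smul_sub, one_smul, neg_smul, neg_neg]
      abel
    · have t : ∀ x ∈ R, (x : Matrix ι ι F) * x = 1 →
          (x : Matrix ι ι F)ᵀ * G = G * (x : Matrix ι ι F).map σ := fun x hx e => by
        conv_rhs => rw [← one_smul F G, ← hR x hx, mul_assoc, ← Matrix.map_mul, e,
          Matrix.map_one _ σ.map_zero σ.map_one, mul_one]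
      have h3 := t _ (R.mul_mem (h.mem 0) hcR) (by simp [mul_assoc, hc0', h.sq', h.sq, hcc])
      have h5 : sᵀ * G = G * s.map σ := by
        rw [hs, Matrix.map_smul' _ _ _ σ.map_mul, map_inv₀, map_ofNat, transpose_smul,
          smul_mul_assoc, mul_smul_comm, Matrix.map_sub _ σ.map_sub, Matrix.map_add _ σ.map_add,
          Matrix.map_add _ σ.map_add, Matrix.map_one _ σ.map_zero σ.map_one, transpose_sub,
          transpose_add, transpose_add, transpose_one, sub_mul, add_mul, add_mul, t _ hcR hcc,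
          t _ (h.mem 0) (h.sq 0), ← Units.val_mul, h3, mul_sub, mul_add, mul_add, one_mul, mul_one]
      rw [Sm, h5, mul_assoc, ← Matrix.map_mul, hss, Matrix.map_one _ σ.map_zero σ.map_one, mul_one,
        one_smul]
  refine ⟨s, hN, hss, ?_⟩
  have h5 : s - 1 = (-2⁻¹ : F) • ((g 0 - 1) * (c - 1)) := by
    rw [hs, neg_smul, ← smul_neg, eq_comm, inv_smul_eq_iff₀ h2, smul_sub, smul_inv_smul₀ h2]
    simp only [mul_sub, sub_mul, one_mul, mul_one, two_smul]; abel
  rw [h5, rank_smul' _ (neg_ne_zero.2 (inv_ne_zero h2))]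
  have h6 := h.rank_g0
  have key : ∀ ε : F, ε ≠ 0 → ((c : Matrix ι ι F) + ε • 1) * (g 0 - 1) ≠ 0 := fun ε hε e1 => by
    have e2 : (-(c : Matrix ι ι F) + ε • 1) * (g 0 - 1) * (g 1 * g 3 : GL ι F) =
        (g 1 * g 3 : GL ι F) * (((c : Matrix ι ι F) + ε • 1) * (g 0 - 1)) := by
      simp (disch := decide) only [e, Units.val_mul, mul_add, add_mul, mul_sub, sub_mul, one_mul,
        mul_one, smul_mul_assoc, mul_smul_comm, mul_assoc, h.sq, h.sq', h.sw, h.sw', mul_neg,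
        neg_mul, neg_neg, smul_neg]
    rw [e1, mul_zero, Units.mul_left_eq_zero] at e2
    have e3 : (2 * ε) • ((g 0 : Matrix ι ι F) - 1) = 0 := by
      rw [← add_zero (0 : Matrix ι ι F)]
      nth_rewrite 1 [← e1, ← e2]
      simp only [add_mul, neg_mul, smul_mul_assoc, one_mul, mul_smul, two_smul]; abel
    rw [(smul_eq_zero.1 e3).resolve_left (mul_ne_zero h2 hε), Matrix.rank_zero] at h6
    omega
  have h7 : ((g 0 : Matrix ι ι F) - 1) * (c - 1) = (c - 1) * (g 0 - 1) := by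
    simp only [mul_sub, sub_mul, hc0, one_mul, mul_one]; abel
  have h8 := rank_mul_le_left ((g 0 : Matrix ι ι F) - 1) ((c : Matrix ι ι F) - 1)
  have h9 : (((g 0 : Matrix ι ι F) - 1) * (c - 1)).rank ≠ 0 := fun e1 => key (-1) (by simp) (by
    rw [neg_one_smul, ← sub_eq_add_neg, ← h7, eq_zero_of_rank e1])
  by_contra h10
  refine key 1 one_ne_zero (mul_eq_zero_of_rank_eq (Q := (c : Matrix ι ι F) - 1) (by omega) ?_)
  rw [h7, ← mul_assoc, one_smul, add_mul, mul_sub (c : Matrix ι ι F), hcc]; simp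

end Gam

/-- The product of the traces of `x` and its inverse. -/
def tau (x : GL ι F) : F := (x : Matrix ι ι F).trace * ((x⁻¹ : GL ι F) : Matrix ι ι F).trace

theorem tau_of_isConj {x y : GL ι F} (h : IsConj (x : Matrix ι ι F) (y : Matrix ι ι F)) :
    tau x = tau y := by
  obtain ⟨c, rfl⟩ := isConj_iff.1 ((isConj_units_iff x y).2 h)
  rw [tau, tau, ← cj_coe, trace_cj, show (c * x * c⁻¹)⁻¹ = c * x⁻¹ * c⁻¹ by group, ← cj_coe,
    trace_cj]

theorem P2.ci_cases [Finite R] (hP : P2 R) (h4 : Fintype.card ι = 4) {z : ℕ}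
    (hz : Nat.card (R ⊓ scalars ι F : Subgroup (GL ι F)) = z) (hR : Nat.card R = 16 * z)
    (hz2 : z = 2 ∨ z = 4) {r : ℕ} [hr : Fact r.Prime] (hr2 : r ≠ 2) {x : GL ι F}
    (hx : CI (subgroupNormalizer R) (x : Matrix ι ι F)) (hpe : PE r (x : Matrix ι ι F)) :
    (tau x = 1 ∧ (r = 3 ∨ r = 5) ∧ ∃ y ∈ subgroupNormalizer R, PE r (y : Matrix ι ι F) ∧
      ∀ a ∈ R, Commute y a → a ∈ scalars ι F) ∨ (tau x = 4 ∧ r = 3) := by
  haveI := hpe.nonempty
  haveI : ∀ H : Subgroup (GL ι F), Finite (R ⊓ H : Subgroup (GL ι F)) := fun H =>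
    (Set.toFinite (R : Set (GL ι F))).subset inf_le_left
  obtain ⟨y, hy, e⟩ := hx
  obtain ⟨⟨c, hc⟩, hs⟩ := hpe.of_isConj e
  have h2 : ∀ m, r ∣ 2 ^ m → False := fun m h =>
    hr2 ((Nat.prime_dvd_prime_iff_eq hr.out Nat.prime_two).1 (hr.out.dvd_of_dvd_pow h))
  have hco : r.Coprime (Nat.card R) := (Nat.Prime.coprime_iff_not_dvd hr.out).2 fun h => by
    rw [hR] at h
    rcases hz2 with rfl | rfl
    exacts [h2 5 h, h2 6 h]
  have h1 := trace_formula hP.cent hP.trace hy fun a ha d hd => eq_one_of_comm_smul hy ha hco hc hd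
  have h3 := card_modEq_cent hy fun a _ => commute_of_pow_eq hc a
  set C := R ⊓ Subgroup.centralizer {y} with hC
  have hZ : ∀ a, R ⊓ scalars ι F ≤ R ⊓ Subgroup.centralizer {a} := fun a g hg =>
    ⟨hg.1, Subgroup.mem_centralizer_singleton_iff.2 (mul_comm_of_mem_scalars hg.2 _)⟩
  obtain ⟨k, hk⟩ := Subgroup.card_dvd_of_le (hZ y)
  rw [hz, ← hC] at hk
  have hz0 : 0 < z := by omega
  have h5 : k ∣ 2 ^ 4 := Nat.dvd_of_mul_dvd_mul_left hz0 (by
    rw [← hk, mul_comm, show 2 ^ 4 = 16 by rfl, ← hR]; exact Subgroup.card_dvd_of_le inf_le_left)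
  have h6 : tau x = k := by
    have h16 : ((16 * z : ℕ) : F) ≠ 0 := by
      rcases hz2 with rfl | rfl
      · simpa using (by norm_num : (2 : F) ^ 5 = 32) ▸ pow_ne_zero 5 hP.two
      · simpa using (by norm_num : (2 : F) ^ 6 = 64) ▸ pow_ne_zero 6 hP.two
    rw [tau_of_isConj e]
    apply mul_left_cancel₀ h16
    rw [← hR, tau, h1, hR, hk, h4]; push_cast; ring
  have h7 : ∀ a b : ℕ, b ≤ a → a * z ≡ z * b [MOD r] → r ∣ a - b := fun a b hab h => by
    have := (Nat.modEq_iff_dvd' (by nlinarith)).1 h.symm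
    rw [mul_comm z, ← Nat.sub_mul] at this
    refine ((Nat.Prime.dvd_mul hr.out).1 this).resolve_right fun h => ?_
    rcases hz2 with rfl | rfl
    exacts [h2 1 h, h2 2 h]
  have h8 : ∀ {a b : ℕ}, a.Prime → r ∣ 2 ^ b * a → r = a := fun ha h =>
    (Nat.prime_dvd_prime_iff_eq hr.out ha).1 (((Nat.Prime.dvd_mul hr.out).1 h).resolve_left (h2 _))
  rw [hR, hk] at h3
  obtain ⟨j, hj, rfl⟩ := (Nat.dvd_prime_pow Nat.prime_two).1 h5
  replace h3 := h7 _ _ (Nat.le_of_dvd (by norm_num) h5) h3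
  interval_cases j
  · refine Or.inl ⟨by simpa using h6, ((Nat.Prime.dvd_mul hr.out).1 (show r ∣ 3 * 5 from h3)).imp
      (Nat.prime_dvd_prime_iff_eq hr.out Nat.prime_three).1
      (Nat.prime_dvd_prime_iff_eq hr.out Nat.prime_five).1, y, hy, ⟨⟨c, hc⟩, hs⟩, fun a ha e => ?_⟩
    have := Subgroup.eq_of_le_of_card_ge (hZ y) (by rw [← hC]; omega)
    exact (this ▸ ⟨ha, Subgroup.mem_centralizer_singleton_iff.2 e.symm⟩ :
      a ∈ R ⊓ scalars ι F).2
  · exfalso
    obtain rfl : r = 7 := h8 (b := 1) (by norm_num) h3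
    obtain ⟨a, ha, has⟩ : ∃ a ∈ C, a ∉ R ⊓ scalars ι F := by
      refine SetLike.not_le_iff_exists.1 fun h => ?_
      have := Subgroup.card_le_of_le h
      omega
    have hya : a * y = y * a := Subgroup.mem_centralizer_singleton_iff.1 ha.2
    obtain ⟨b, hb, hab⟩ := hP.exists_anti ha.1 fun d hd => has ⟨ha.1, mem_scalars_of_eq_smul hd⟩
    have h9 := card_inf_cent (m := -1) (a := a) hb (fun e => hP.two (by
      linear_combination -smul_one_inj (ι := ι) (c := (-1 : F)) (d := 1) (by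
        simpa using congrArg Units.val e))) (by simp) (Units.ext (by simpa using hab)) (by simp)
      fun g hg => (hP.comm a ha.1 g hg).imp (fun e => Units.ext e)
        fun e => Units.ext (by simpa using e)
    have h10 := card_modEq_cent (R := R ⊓ Subgroup.centralizer {a}) (x := y) (r := 7)
      (Subgroup.mem_normalizer_fintype (S := ((R ⊓ Subgroup.centralizer {a} : Subgroup (GL ι F)) :
        Set (GL ι F))) fun g hg => ⟨conj_mem hy hg.1, Subgroup.mem_centralizer_singleton_iff.2 (by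
          have := Subgroup.mem_centralizer_singleton_iff.1 hg.2
          rw [mul_assoc, show y⁻¹ * a = a * y⁻¹ from (Commute.inv_left hya.symm).eq, ← mul_assoc,
            mul_assoc y, this, ← mul_assoc, ← hya, mul_assoc a y, mul_assoc a])⟩)
      fun a _ => commute_of_pow_eq hc a
    set D := R ⊓ Subgroup.centralizer {a} ⊓ Subgroup.centralizer {y}
    have hDC : D ≤ C := inf_le_inf_right _ inf_le_left
    haveI : Finite D := (Set.toFinite (C : Set (GL ι F))).subset hDC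
    have hZD : R ⊓ scalars ι F ≤ D := le_inf (hZ a) ((hZ y).trans inf_le_right)
    obtain ⟨m, hm⟩ := Subgroup.card_dvd_of_le hZD
    have h11 := Subgroup.card_le_of_le hDC
    have h12 : ¬ Nat.card D ≤ z := fun h => has (Subgroup.eq_of_le_of_card_ge hZD (by omega) ▸
      (⟨⟨ha.1, Subgroup.mem_centralizer_singleton_iff.2 rfl⟩, ha.2⟩ : a ∈ D))
    rw [hz] at hm
    have h13 : m = 2 := by rw [hm] at h11 h12; rw [hk] at h11; rcases hz2 with rfl | rfl <;> omega
    rw [hm, h13, show Nat.card (R ⊓ Subgroup.centralizer {a} : Subgroup (GL ι F)) = 8 * z by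
      omega] at h10
    exact absurd (h7 _ _ (by norm_num) h10) (by norm_num)
  · exact Or.inr ⟨by simpa using h6, h8 (b := 2) Nat.prime_three h3⟩
  · exact (h2 3 h3).elim
  · have : C = R := Subgroup.eq_of_le_of_card_ge inf_le_left (by omega)
    obtain ⟨d, hd⟩ := hP.cent y fun a ha => congrArg Units.val
      (Subgroup.mem_centralizer_singleton_iff.1 (this ▸ ha : a ∈ C).2).symm
    exact (hs d hd).elim

theorem Gam.not_fpf [Nonempty ι] [Finite R] {g : Fin 5 → GL ι F} (h : Gam R g)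
    (hm : IsOfMinusType 2 R) (h5 : Nat.card R = 2 ^ 5) {y : GL ι F}
    (hy : y ∈ subgroupNormalizer R) (hpe : PE 3 (y : Matrix ι ι F))
    (hf : ∀ a ∈ R, Commute y a → a ∈ scalars ι F) : False := by
  obtain ⟨⟨z, hz⟩, -⟩ := hpe
  have h2 := h.p2.two
  let P : GL ι F → Prop := fun u => u ∈ R ∧ (u : Matrix ι ι F) * u = 1 ∧
    ∀ c : F, (u : Matrix ι ι F) ≠ c • 1
  have h1 : ∀ u, P u → P (y * u * y⁻¹) := fun u hu => ⟨conj_mem hy hu.1, by
    rw [← cj_coe, ← map_mul, hu.2.1, map_one], fun c hc => hu.2.2 c (by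
      rw [← cj_coe, ← (cj y).eq_symm_apply, map_smul, map_one] at hc; exact hc)⟩
  have h3 : ∀ u, P u → ((y * u * y⁻¹ : GL ι F) : Matrix ι ι F) * u = -(u * (y * u * y⁻¹ : GL ι F)) :=
    fun u hu => (h.p2.comm _ (h1 u hu).1 _ hu.1).resolve_left fun e => by
      have h4 : ∀ c : F, ((y * u * y⁻¹ : GL ι F) : Matrix ι ι F) ≠ c • (u : Matrix ι ι F) :=
        fun c hc => by
          rw [← cj_coe, cj_eq_iff, smul_mul_assoc] at hc
          rw [eq_one_of_comm_smul hy hu.1 (by rw [h5]; norm_num) hz hc, one_smul] at hc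
          obtain ⟨d, hd⟩ := mem_scalars_iff_sc.1 (hf u hu.1 (Units.ext hc))
          exact hu.2.2 d (by rw [← hd, coe_sc])
      exact false_of_minus h.p2 hm h5 hu.1 (h1 u hu).1 hu.2.1 (h1 u hu).2.1 e (h1 u hu).2.2 hu.2.2
        (fun e => h4 1 (by rw [← e, one_smul])) fun e => h4 (-1) (by
          nth_rewrite 2 [e]; simp)
  have ha : P (g 0) := ⟨h.mem 0, h.sq 0,
    not_scalar_of_anti h2 (Units.ne_zero _) (h.anti 0 1 (by decide))⟩
  obtain ⟨b, hb⟩ : ∃ b, b = y * g 0 * y⁻¹ := ⟨_, rfl⟩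
  obtain ⟨c, hc⟩ : ∃ c, c = y * b * y⁻¹ := ⟨_, rfl⟩
  have hc' : y * c * y⁻¹ = g 0 := by
    rw [hc, hb, show y * (y * (y * g 0 * y⁻¹) * y⁻¹) * y⁻¹ = y ^ 3 * g 0 * (y ^ 3)⁻¹ by
      simp only [pow_succ, pow_zero, one_mul, _root_.mul_inv_rev, mul_assoc],
      (commute_of_pow_eq hz _).eq, mul_inv_cancel_right]
  have e1 := h3 _ ha
  have pb := h1 _ ha
  rw [← hb] at e1 pb
  have e2 := h3 _ pb
  have pc := h1 _ pb
  rw [← hc] at e2 pc
  have e3 := h3 _ pc
  rw [hc', eq_comm, neg_eq_iff_eq_neg] at e3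
  have as : ∀ {x y z : Matrix ι ι F}, x * y = z → ∀ X, x * (y * X) = z * X := fun e X => by
    rw [← mul_assoc, e]
  have hR := R.mul_mem (R.mul_mem ha.1 pb.1) pc.1
  obtain ⟨s, hs⟩ := mem_scalars_iff_sc.1 (hf _ hR (show y * (g 0 * b * c) = g 0 * b * c * y by
    rw [← mul_inv_eq_iff_eq_mul, show y * (g 0 * b * c) * y⁻¹ =
      y * g 0 * y⁻¹ * (y * b * y⁻¹) * (y * c * y⁻¹) by group, hc', ← hc, ← hb]
    exact Units.ext (by simp [mul_assoc, e3, as e1])))
  have hss : (s : F) * s = -1 := smul_one_inj (ι := ι) (by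
    rw [← mul_one (1 : Matrix ι ι F), ← smul_mul_smul_comm, ← coe_sc, hs]
    simp [mul_assoc, as e1, as e2, as e3, ha.2.1, as ha.2.1, pb.2.1, as pb.2.1, pc.2.1, as pc.2.1])
  refine false_of_minus h.p2 hm h5 ha.1 (R.mul_mem (hs ▸ hR) (R.mul_mem (h.mem 1) (h.mem 2)))
    ha.2.1 ?_ ?_ (not_scalar_of_anti h2 (Units.ne_zero _) (b := g 1) ?_) ha.2.2
    (ne_of_anti (b := g 3) h2 (h.sw (by decide)) ?_).1
    (ne_of_anti (b := g 3) h2 (h.sw (by decide)) ?_).2 <;>
  simp (disch := decide) only [Units.val_mul, coe_sc, smul_mul_assoc, mul_smul_comm, one_mul,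
    mul_assoc, h.sq, h.sq', h.sw, h.sw', mul_neg, neg_mul, neg_neg, smul_smul, hss, smul_neg,
    neg_smul, one_smul, mul_one]

end CfsgLib.ElusF
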