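import Mathlib
import Cfsg.Agent.Lib.ElusF.GamEl

/-! Conjugacy in symplectic and special unitary groups, rational elements and test elements. -/

set_option autoImplicit false
set_option linter.unusedSimpArgs false

namespace CfsgLib.ElusF

open Matrix Polynomial CfsgLib.MatConj CfsgLib.Elusive CfsgLib.ElusH Cfsg.Geo CfsgLib.Asch Module

variable {F : Type*} [Field F] {ι κ : Type} [Fintype ι] [DecidableEq ι] [Fintype κ] [DecidableEq κ]
  {σ : F →+* F} {R : Subgroup (GL ι F)} {G : Matrix ι ι F}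

theorem mem_spGL_iff_sm {m : ℕ} {g : GL (Fin m ⊕ Fin m) F} :
    g ∈ Cfsg.spGL m F ↔ Sm (RingHom.id F) (Matrix.J (Fin m) F) g 1 := by
  rw [sm_iff]
  simp only [one_mul]
  rfl

theorem mem_GU_iff_sm [Fintype F] {q n : ℕ} (hF : Fintype.card F = q ^ 2) {g : GL (Fin n) F} :
    g ∈ Cfsg.GU n F q ↔ Sm (Unitary.conj hF) 1 (g : Matrix (Fin n) (Fin n) F) 1 := by
  rw [Unitary.mem_GU_iff hF, Sm, mul_one, one_smul]

theorem det_J_ne (m : ℕ) : (Matrix.J (Fin m) F).det ≠ 0 :=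
  left_ne_zero_of_mul_eq_one (Matrix.J_det_mul_J_det (Fin m) F)

theorem mem_of_conj {H : Subgroup (GL ι F)} (hH : scalars ι F ≤ H) {x g y : GL ι F} (hy : y ∈ H)
    {b : F} (hb : b ≠ 0) (h : (g : Matrix ι ι F) * (b • (x : Matrix ι ι F)) = y * g) :
    g⁻¹⁻¹ * x * g⁻¹ ∈ H := by
  rw [show g⁻¹⁻¹ * x * g⁻¹ = (sc ι (Units.mk0 b hb))⁻¹ * y by
    rw [inv_inv, eq_inv_mul_iff_mul_eq, ← mul_assoc, mul_inv_eq_iff_eq_mul]
    exact Units.ext (by simpa [coe_sc] using h)]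
  exact H.mul_mem (H.inv_mem (hH (sc_mem _))) hy

theorem alt_conj [Finite F] (hG : G.det ≠ 0) (h1 : Gᵀ = -G) (h2 : ∀ i, G i i = 0)
    {A B : Matrix ι ι F} (hA : Sm (RingHom.id F) G A 1) (hB : Sm (RingHom.id F) G B 1)
    (e : IsConj A B) {k : ℕ} (hk : (k : F) ≠ 0) (hAk : A ^ k = 1) :
    ∃ g : GL ι F, Sm (RingHom.id F) G g 1 ∧ g * A = B * g := by
  have t : ∀ {X : Matrix ι ι F}, Sm (RingHom.id F) G X 1 ↔
      ∀ u v, toBilin' G (X *ᵥ u) (X *ᵥ v) = toBilin' G u v := by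
    simp [sm_iff, gform_id]
  obtain ⟨Q, hQ, h⟩ := alt_conj_of_pow_eq_one (nondeg_toBilin' hG)
    (fun v => by
      classical
      rw [toBilin'_apply, ← Finset.sum_product']
      refine Finset.sum_involution (fun x _ => x.swap) (fun x _ => ?_) (fun x _ hx e => hx ?_)
        (fun _ _ => by simp) fun _ _ => rfl
      · have := congrFun (congrFun h1 x.1) x.2
        simp only [transpose_apply, Matrix.neg_apply] at this
        simp only [Prod.fst_swap, Prod.snd_swap, this]; ring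
      · rw [show x.2 = x.1 from congrArg Prod.fst e, h2]; simp)
    (t.1 hA) (t.1 hB) e hk hAk
  obtain ⟨g, rfl⟩ := exists_GL ((t.2 hQ).det_ne_zero hG one_ne_zero)
  exact ⟨g, t.2 hQ, h⟩

theorem sp_mem [Finite F] {m : ℕ} {H : Subgroup (GL (Fin m ⊕ Fin m) F)}
    (hH : scalars (Fin m ⊕ Fin m) F ≤ H) {x y : GL (Fin m ⊕ Fin m) F} (hy : y ∈ H)
    (hy' : Sm (RingHom.id F) (Matrix.J (Fin m) F) y 1) {b : F} (hb : b ≠ 0)
    (hx : Sm (RingHom.id F) (Matrix.J (Fin m) F) (b • (x : Matrix (Fin m ⊕ Fin m) (Fin m ⊕ Fin m) F)) 1)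
    (e : IsConj (b • (x : Matrix (Fin m ⊕ Fin m) (Fin m ⊕ Fin m) F)) y) {k : ℕ} (hk : (k : F) ≠ 0)
    (hAk : (b • (x : Matrix (Fin m ⊕ Fin m) (Fin m ⊕ Fin m) F)) ^ k = 1) : ∃ g ∈ Cfsg.spGL m F, g⁻¹ * x * g ∈ H := by
  obtain ⟨g, h1, h2⟩ := alt_conj (det_J_ne m) (J_transpose _ _) (fun i => by
    rcases i with i | i <;> simp [J]) hx hy' e hk hAk
  exact ⟨g⁻¹, inv_mem (mem_spGL_iff_sm.2 h1), mem_of_conj hH hy hb h2⟩

theorem su_conj [Fintype F] {q n : ℕ} (hF : Fintype.card F = q ^ 2) [NeZero n]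
    {A B : Matrix (Fin n) (Fin n) F} (hA : Sm (Unitary.conj hF) 1 A 1)
    (hB : Sm (Unitary.conj hF) 1 B 1) (e : IsConj A B) {k : ℕ} (hk : (k : F) ≠ 0)
    (hAk : A ^ k = 1) :
    ∃ g ∈ Cfsg.GU n F q ⊓ specialLinear (Fin n) F, (g : Matrix (Fin n) (Fin n) F) * A = B * g := by
  let := unitaryStar hF
  obtain ⟨a, rfl⟩ := exists_GL (hA.det_ne_zero (by simp) one_ne_zero)
  obtain ⟨b, rfl⟩ := exists_GL (hB.det_ne_zero (by simp) one_ne_zero)
  have ha := (mem_GU_iff_star hF a).1 ((mem_GU_iff_sm hF).2 hA)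
  obtain ⟨x, hx⟩ : ∃ x, x ∈ edM (a : Matrix (Fin n) (Fin n) F) :=
    Multiset.exists_mem_of_ne_zero fun h => NeZero.ne n (by
      simpa [h, mdeg] using card_eq_mdeg (a : Matrix (Fin n) (Fin n) F))
  have hx1 : x.2 = 1 := ed_exp_eq_one (squarefree_X_pow_sub_one hk) (by
    rw [aeval_toLin']; simp [hAk]) hx
  obtain ⟨Q, h1, h2, h3⟩ := special_unitary_conj (Unitary.exists_not_fixed hF) ha
    ((mem_GU_iff_star hF b).1 ((mem_GU_iff_sm hF).2 hB)) e fun ν hν => by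
      simpa [hx1] using exists_unitary_commute_det (Unitary.exists_not_fixed hF) ha hx hν
  obtain ⟨g, rfl⟩ := exists_GL (h2 ▸ one_ne_zero : Q.det ≠ 0)
  exact ⟨g, ⟨(mem_GU_iff_star hF g).2 h1, mem_SL.2 h2⟩, h3⟩

theorem NS.su_mem [Fintype F] {q n : ℕ} (hF : Fintype.card F = q ^ 2) [NeZero n]
    {R : Subgroup (GL (Fin n) F)} {M : Matrix (Fin n) (Fin n) F}
    (h : NS R (Unitary.conj hF) 1 1 M) {x : GL (Fin n) F} {b : F} (hb : b ≠ 0)
    (hx : Sm (Unitary.conj hF) 1 (b • (x : Matrix (Fin n) (Fin n) F)) 1)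
    (e : IsConj (b • (x : Matrix (Fin n) (Fin n) F)) M) {k : ℕ} (hk : (k : F) ≠ 0)
    (hAk : (b • (x : Matrix (Fin n) (Fin n) F)) ^ k = 1) :
    ∃ g ∈ Cfsg.GU n F q ⊓ specialLinear (Fin n) F, g⁻¹ * x * g ∈ subgroupNormalizer R := by
  obtain ⟨⟨y, hy, rfl⟩, h⟩ := h
  obtain ⟨g, h1, h2⟩ := su_conj hF hx h e hk hAk
  exact ⟨g⁻¹, inv_mem h1, mem_of_conj scalars_le_subgroupNormalizer hy hb h2⟩

theorem Sm.exists_split [Nonempty ι] (hG : G.det ≠ 0) {A : Matrix ι ι F} (h : Sm σ G A 1) {r m : ℕ}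
    (hm : m ≠ 0) (hc : r.Coprime m) (hσ : ∀ z : F, z * σ z = 1 → z ^ m = 1) (hA : PE r A) :
    ∃ b : F, b ≠ 0 ∧ Sm σ G (b • A) 1 ∧ (b • A) ^ r = 1 ∧ b • A ≠ 1 := by
  obtain ⟨⟨z, hz⟩, hs⟩ := id hA
  have h1 := h.pow_eq hG hz
  rw [one_pow] at h1
  obtain ⟨k, -, hk⟩ := Nat.exists_mul_mod_eq_of_coprime (m - 1) hc hm
  have h0 : z ^ k ≠ 0 := pow_ne_zero _ (left_ne_zero_of_mul_eq_one h1.symm)
  refine ⟨z ^ k, h0, ?_, ?_, by simpa using (hA.smul h0).2 1⟩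
  · simpa [map_pow, ← mul_pow, ← h1] using h.smul (z ^ k)
  · rw [_root_.smul_pow, hz, smul_smul, ← pow_mul, mul_comm k,
      pow_eq_pow_of_modEq (show r * k ≡ m - 1 [MOD m] from hk) (hσ z h1.symm), ← pow_succ,
      Nat.sub_add_cancel (by omega), hσ z h1.symm, one_smul]

section rat
variable [Fintype F] {p r : ℕ} [hp : Fact p.Prime] [CharP F p] [hr : Fact r.Prime]

/-- All non-trivial `r`-th roots of unity occur with the same multiplicity. -/
def Rat (r : ℕ) (A : Matrix ι ι F) : Prop := ∃ e k : ℕ, edM A = ssEd e (k • (cyc F r).val)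

include hp

theorem rank_of_rat (hrp : r ≠ p) {A : Matrix ι ι F} {e k : ℕ}
    (h : edM A = ssEd e (k • (cyc F r).val)) :
    (A - 1).rank = (r - 1) * k ∧ e + (r - 1) * k = Fintype.card ι := by
  have := rank_of_ssEd hrp (fun f hf => Multiset.mem_of_mem_nsmul hf) h
  rwa [Multiset.card_nsmul, Finset.card_val, card_cyc hrp, mul_left_comm, Nat.mul_div_cancel'
    (orderOf_dvd_sub_one (not_dvd_card hrp)), mul_comm k] at this

theorem Rat.dvd (hrp : r ≠ p) {A : Matrix ι ι F} (h : Rat r A) : r - 1 ∣ (A - 1).rank :=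
  let ⟨_, k, h⟩ := h
  ⟨k, (rank_of_rat hrp h).1⟩

theorem Rat.isConj (hrp : r ≠ p) {A B : Matrix ι ι F} (h : Rat r A) (h' : Rat r B)
    (e : (A - 1).rank = (B - 1).rank) : IsConj A B := by
  obtain ⟨a, k, h⟩ := h
  obtain ⟨b, l, h'⟩ := h'
  have h1 := rank_of_rat hrp h
  have h2 := rank_of_rat hrp h'
  obtain rfl : k = l := Nat.eq_of_mul_eq_mul_left (Nat.sub_pos_of_lt hr.out.one_lt)
    (by rw [← h1.1, e, h2.1])
  rw [isConj_iff_edM, h, h', show a = b by omega]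

theorem rat_of_ord (hrp : r ≠ p) (ho : orderOf (Fintype.card F : ZMod r) = r - 1)
    {A : Matrix ι ι F} (hA : A ^ r = 1) : Rat r A := by
  obtain ⟨e, t, ht, h⟩ := edM_ssEd hrp hA
  obtain ⟨f, hf⟩ := Finset.card_eq_one.1 (show (cyc F r).card = 1 by
    rw [card_cyc hrp, ho, Nat.div_self (Nat.sub_pos_of_lt hr.out.one_lt)])
  refine ⟨e, Multiset.card t, ?_⟩
  rw [h, hf, Finset.singleton_val, Multiset.nsmul_singleton]
  congr 1
  exact Multiset.eq_replicate_card.2 fun g hg => by simpa [hf] using ht g hg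

theorem rat_of_two (hrp : r ≠ p) (ho : 2 * orderOf (Fintype.card F : ZMod r) = r - 1)
    (hσ : ∀ x, σ (σ x) = x) (hn : ∀ f ∈ cyc F r, tilde σ f ≠ f) (hG : G.det ≠ 0)
    {A : Matrix ι ι F} (hS : Sm σ G A 1) (hA : A ^ r = 1) : Rat r A := by
  classical
  obtain ⟨e, t, ht, h⟩ := edM_ssEd hrp hA
  have h1 : dl σ (edM A) = edM A := hS.edM_tilde hσ hG
  rw [h, dl_ssEd] at h1
  have h2 := (ssEd_inj hrp (fun f hf => by
    obtain ⟨g, hg, rfl⟩ := Multiset.mem_map.1 hf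
    exact tilde_mem_cyc hσ (ht g hg) hrp) ht h1).2
  obtain ⟨t₀, rfl⟩ := exists_eq_add_map (tilde σ) t h2 (fun f hf => hn f (ht f hf)) fun f hf =>
    tilde_tilde hσ (mem_cyc.1 (ht f hf)).2.1 (coeff_ne_of_mem_cyc (ht f hf))
  have h3 : (cyc F r).card = 2 := by
    rw [card_cyc hrp, ← ho, Nat.mul_div_cancel _ (ord_pos hrp)]
  refine ⟨e, Multiset.card t₀, h.trans (congrArg _ ?_)⟩
  replace ht : ∀ f ∈ t₀, f ∈ cyc F r := fun f hf => ht f (Multiset.mem_add.2 (Or.inl hf))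
  clear h h1 h2
  induction t₀ using Multiset.induction_on with
  | empty => simp
  | cons f t ih =>
    have hf := ht f (by simp)
    have h4 : ({f, tilde σ f} : Finset F[X]) = cyc F r := Finset.eq_of_subset_of_card_le
      (by simp [Finset.insert_subset_iff, hf, tilde_mem_cyc hσ hf hrp])
      (by rw [h3, Finset.card_pair (hn f hf).symm])
    rw [Multiset.card_cons, succ_nsmul, ← ih fun g hg => ht g (by simp [hg]), ← h4,
      Finset.insert_val_of_notMem (by simpa using (hn f hf).symm), Multiset.map_cons]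
    simp only [← Multiset.singleton_add, Finset.singleton_val]
    abel

theorem rat_two (h2 : 2 ≠ p) {A : Matrix ι ι F} (hA : A * A = 1) : Rat 2 A :=
  rat_of_ord h2 (ord_eq_one_iff.2 (two_dvd_of_odd (odd_card_iff'.2 h2))) (by rwa [pow_two])

theorem det_of_sq (h2 : 2 ≠ p) {A : Matrix ι ι F} (hA : A * A = 1) :
    A.det = (-1) ^ (A - 1).rank := by
  obtain ⟨e, s, h, -, h3⟩ := edM_of_sq h2 (A := A) (by rwa [pow_two])
  obtain ⟨f, hf⟩ := exists_mem_cyc (F := F) h2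
  have := (rank_of_ssEd h2 (A := A) (e := e) (t := Multiset.replicate s f)
    (fun g hg => Multiset.eq_of_mem_replicate hg ▸ hf)
    (by rw [h, ssEd, Multiset.map_replicate, eq_X_add_one_of_mem_cyc hf])).1
  rw [ord_eq_one_iff.2 (two_dvd_of_odd (odd_card_iff'.2 h2)), Multiset.card_replicate,
    one_mul] at this
  rw [h3, this]

omit [Fintype F] in
theorem exists_golden (h2 : p ≠ 2) (h5 : p ≠ 5) (h : orderOf (p : ZMod 5) ≠ 4) :
    ∃ t : ℕ, (t : F) ^ 2 + t - 1 = 0 := by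
  have h6 : ∀ x : ZMod 5, x ≠ 0 → ¬ IsSquare x → ¬ x ^ 2 ^ 1 = 1 ∧ x ^ 2 ^ (1 + 1) = 1 := by decide
  haveI : Fact (Nat.Prime 5) := ⟨Nat.prime_five⟩
  have h0 : (p : ZMod 5) ≠ 0 := fun e => h5 ((Nat.prime_dvd_prime_iff_eq Nat.prime_five hp.out).1
    ((ZMod.natCast_eq_zero_iff p 5).1 e)).symm
  obtain ⟨s, hs⟩ := (ZMod.exists_sq_eq_prime_iff_of_mod_four_eq_one (p := 5) (q := p)
    (by norm_num) h2).1 (by
      by_contra hn
      exact h (orderOf_eq_prime_pow (p := 2) (n := 1) (h6 _ h0 hn).1 (h6 _ h0 hn).2))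
  have h3 : (2 : ZMod p) ≠ 0 := fun e => h2 ((Nat.prime_dvd_prime_iff_eq hp.out Nat.prime_two).1
    ((ZMod.natCast_eq_zero_iff 2 p).1 e))
  refine ⟨((s - 1) / 2).val, ?_⟩
  have : ((s - 1) / 2) ^ 2 + (s - 1) / 2 - 1 = 0 := by
    field_simp; push_cast at hs; linear_combination -hs
  simpa using congrArg (ZMod.castHom dvd_rfl F) this

variable [Finite R] {g : Fin 5 → GL ι F}

theorem Gam.conj_invol (h : Gam R g) (hR : ∀ a ∈ R, Sm σ G a 1) (h4 : Fintype.card ι = 4)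
    {z : Fˣ} (hz : sc ι z ∈ R) (hzz : (z : F) * z = -1) {A : Matrix ι ι F} (hA : A ^ 2 = 1)
    (hs : ∀ c : F, A ≠ c • 1) : ∃ M, NS R σ G 1 M ∧ IsConj A M := by
  haveI : Nonempty ι := Fintype.card_pos_iff.1 (by omega)
  have h2 := two_ne_zero_iff.1 h.p2.two
  rw [pow_two] at hA
  obtain ⟨s, s1, s2, s3⟩ := h.exists_refl hR h4 hz hzz
  have h3 := rank_add_of_sq h.p2.two hA
  have h5 := rank_add_of_sq h.p2.two s2
  have h6 : (A - 1).rank ≠ 0 := fun e => hs 1 (by simpa [sub_eq_zero] using eq_zero_of_rank e)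
  have h7 : (-A - 1).rank ≠ 0 := fun e => hs (-1) (by
    simpa [sub_eq_zero, neg_eq_iff_eq_neg] using eq_zero_of_rank e)
  have h8 := h.rank_g0
  obtain e | e | e : (A - 1).rank = 1 ∨ (A - 1).rank = 2 ∨ (A - 1).rank = 3 := by omega
  · exact ⟨s, s1, (rat_two h2 hA).isConj h2 (rat_two h2 s2) (by omega)⟩
  · exact ⟨_, ns_of_mem hR (h.mem 0), (rat_two h2 hA).isConj h2 (rat_two h2 (h.sq 0)) (by omega)⟩
  · exact ⟨-s, s1.neg, (rat_two h2 hA).isConj h2 (rat_two h2 (by simpa using s2)) (by omega)⟩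

theorem Gam.conj_three (h : Gam R g) (hR : ∀ a ∈ R, Sm σ G a 1) (h4 : Fintype.card ι = 4)
    {z : Fˣ} (hz : sc ι z ∈ R) (hzz : (z : F) * z = -1) (h3 : 3 ≠ p)
    (hrat : ∀ B, Sm σ G B 1 → B ^ 3 = 1 → Rat 3 B) {A : Matrix ι ι F} (hS : Sm σ G A 1)
    (hA : A ^ 3 = 1) (h1 : A ≠ 1) : ∃ M, NS R σ G 1 M ∧ IsConj A M := by
  haveI : Nonempty ι := Fintype.card_pos_iff.1 (by omega)
  obtain ⟨M, M', m1, m2, m3, m4, m5, m6, m7⟩ := h.exists_three hR
    (by simpa using cast_ne_zero (F := F) h3) hz hzz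
  have h5 := (hrat A hS hA).dvd h3
  have h6 := (hrat M' m2.2 m4).dvd h3
  have h7 : (A - 1).rank ≠ 0 := fun e => h1 (sub_eq_zero.1 (eq_zero_of_rank e))
  have h8 := rank_le_card_width (A - 1)
  have h9 := rank_le_card_width (M' - 1)
  obtain e | e : (A - 1).rank = 2 ∨ (A - 1).rank = 4 := by omega
  · exact ⟨M', m2, (hrat A hS hA).isConj h3 (hrat M' m2.2 m4) (by omega)⟩
  · exact ⟨M, m1, (hrat A hS hA).isConj h3 (hrat M m1.2 m3) (by omega)⟩

theorem Gam.conj_five [Fact (Nat.Prime 5)] (h : Gam R g) (hR : ∀ a ∈ R, Sm σ G a 1)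
    (h4 : Fintype.card ι = 4) (h5 : 5 ≠ p) (hrat : ∀ B, Sm σ G B 1 → B ^ 5 = 1 → Rat 5 B)
    (hs : ∀ M, Sm σ G M 1 → M.det ≠ 0 → PE 5 M → ∃ b : F, b ≠ 0 ∧ Sm σ G (b • M) 1 ∧ (b • M) ^ 5 = 1 ∧
      b • M ≠ 1) {A : Matrix ι ι F} (hS : Sm σ G A 1) (hA : A ^ 5 = 1) (h1 : A ≠ 1) :
    ∃ M, NS R σ G 1 M ∧ IsConj A M := by
  haveI : Nonempty ι := Fintype.card_pos_iff.1 (by omega)
  obtain ⟨M, m1, m2⟩ := h.exists_five hR
  obtain ⟨b, b1, b2, b3, b4⟩ := hs M m1.2 m1.det_ne_zero m2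
  have t : ∀ B, Sm σ G B 1 → B ^ 5 = 1 → B ≠ 1 → (B - 1).rank = 4 := fun B e1 e2 e3 => by
    have h6 := (hrat B e1 e2).dvd h5
    have h7 : (B - 1).rank ≠ 0 := fun e => e3 (sub_eq_zero.1 (eq_zero_of_rank e))
    have h8 := rank_le_card_width (B - 1)
    omega
  exact ⟨_, ⟨(m1.smul b1).1, b2⟩, (hrat A hS hA).isConj h5 (hrat _ b2 b3)
    (by rw [t A hS hA h1, t _ b2 b3 b4])⟩

end rat

/-- A `2 × 2` block completed by the identity. -/
def blk (e : Fin 2 ⊕ Fin 2 ≃ ι) : Matrix (Fin 2) (Fin 2) F →* Matrix ι ι F where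
  toFun B := reindex e e (fromBlocks B 0 0 1)
  map_one' := by simp
  map_mul' A B := by simp [reindex_apply, submatrix_mul_equiv, fromBlocks_multiply]

theorem blk_apply (e : Fin 2 ⊕ Fin 2 ≃ ι) (B : Matrix (Fin 2) (Fin 2) F) :
    blk e B = reindex e e (fromBlocks B 0 0 1) := rfl

theorem det_blk (e : Fin 2 ⊕ Fin 2 ≃ ι) (B : Matrix (Fin 2) (Fin 2) F) : (blk e B).det = B.det := by
  simp [blk_apply]

theorem trace_blk (e : Fin 2 ⊕ Fin 2 ≃ ι) (B : Matrix (Fin 2) (Fin 2) F) :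
    (blk e B).trace = B.trace + 2 := by
  rw [trace, ← e.sum_comp]
  simp [blk_apply, trace_fin_two, one_add_one_eq_two]

theorem exists_blk (e : Fin 2 ⊕ Fin 2 ≃ ι) {B : Matrix (Fin 2) (Fin 2) F} (hd : B.det = 1) {r : ℕ}
    (hr : B ^ r = 1) (h1 : B ≠ 1) : ∃ x : GL ι F, (x : Matrix ι ι F) = blk e B ∧
      (x : Matrix ι ι F).det = 1 ∧ PE r (x : Matrix ι ι F) ∧ tau x = (B.trace + 2) ^ 2 ∧
      ((B - 1) * (B - 1) = 0 → rk (x : Matrix ι ι F) 1 ≤ 1) := by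
  refine ⟨⟨blk e B, blk e B.adjugate, by rw [← map_mul, mul_adjugate, hd, one_smul, map_one],
    by rw [← map_mul, adjugate_mul, hd, one_smul, map_one]⟩, rfl, by simp [det_blk, hd],
    ⟨⟨1, by simp [← map_pow, hr]⟩, fun c hc => h1 ?_⟩, ?_, fun h => ?_⟩
  · have h2 : 1 = c := by simpa [blk_apply] using congrFun (congrFun hc (e (.inr 0))) (e (.inr 0))
    ext i j
    simpa [blk_apply, ← h2, one_apply] using congrFun (congrFun hc (e (.inl i))) (e (.inl j))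
  · simp only [tau, Units.inv_mk, trace_blk, adjugate_fin_two, trace_fin_two]
    simp; ring
  · have h2 := rank_add_rank_le_card_of_mul_eq_zero h
    have h3 : blk e B - 1 = (fromRows (1 : Matrix (Fin 2) (Fin 2) F) 0 * (B - 1) *
        fromCols (1 : Matrix (Fin 2) (Fin 2) F) 0).submatrix e.symm e.symm := by
      ext i j
      obtain ⟨i, rfl⟩ := e.surjective i
      obtain ⟨j, rfl⟩ := e.surjective j
      rw [fromRows_mul, fromRows_mul_fromCols]
      rcases i with i | i <;> rcases j with j | j <;> simp [blk_apply, one_apply]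
    rw [rk_one, Units.val_mk, h3, rank_submatrix]
    have := (rank_mul_le_left (fromRows (1 : Matrix (Fin 2) (Fin 2) F) (0 : Matrix (Fin 2) (Fin 2) F) *
      (B - 1)) (fromCols (1 : Matrix (Fin 2) (Fin 2) F)
      (0 : Matrix (Fin 2) (Fin 2) F))).trans (rank_mul_le_right
        (fromRows (1 : Matrix (Fin 2) (Fin 2) F) (0 : Matrix (Fin 2) (Fin 2) F)) (B - 1))
    simp only [Fintype.card_fin] at h2
    omega

theorem sm_blk (e : Fin 2 ⊕ Fin 2 ≃ ι) {B : Matrix (Fin 2) (Fin 2) F} (h : Sm σ 1 B 1) :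
    Sm σ 1 (blk e B) 1 := by
  rw [Sm, mul_one, one_smul] at h ⊢
  rw [show (blk e B)ᵀ = blk e Bᵀ by simp [blk_apply, fromBlocks_transpose],
    show (blk e B).map σ = blk e (B.map σ) by
      simp [blk_apply, reindex_apply, ← submatrix_map, fromBlocks_map], ← map_mul, h, map_one]

theorem sm_diagonal {d : ι → F} (h : ∀ i, d i * σ (d i) = 1) : Sm σ 1 (diagonal d) 1 := by
  rw [Sm, mul_one, one_smul, diagonal_transpose, diagonal_map σ.map_zero, diagonal_mul_diagonal]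
  simp [h]

theorem pow_five_of_golden {B : Matrix (Fin 2) (Fin 2) F} {t : F} (ht : t ^ 2 + t - 1 = 0)
    (h : B * B = t • B - 1) : B ^ 5 = 1 := by
  have h1 : aeval B (X ^ 2 - C t * X + 1 : F[X]) = 0 := by
    simp [pow_two, h, Algebra.algebraMap_eq_smul_one]
  have h2 : (X ^ 5 - 1 : F[X]) = (X ^ 2 - C t * X + 1) * ((X - 1) * (X ^ 2 + C (t + 1) * X + 1)) := by
    have := congrArg C ht
    simp only [map_sub, map_add, map_pow, map_one, map_zero] at this ⊢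
    linear_combination (X ^ 3 - X ^ 2) * this
  have := congrArg (aeval B) h2
  rw [map_mul, h1, zero_mul] at this
  simpa [sub_eq_zero] using this

theorem golden_ne {t : F} (ht : t ^ 2 + t - 1 = 0) (h5 : (5 : F) ≠ 0) : (t + 2) ^ 2 ≠ 1 :=
  fun h => h5 (by linear_combination (3 * t - 1) * (h - ht) - 9 * ht)

theorem ord_two_three : orderOf ((2 : ℕ) : ZMod 3) = 2 := orderOf_eq_prime (by decide) (by decide)

theorem comp_facts (t : F) : (!![0, -1; 1, t] : Matrix (Fin 2) (Fin 2) F).det = 1 ∧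
    (!![0, -1; 1, t] : Matrix (Fin 2) (Fin 2) F) * !![0, -1; 1, t] = t • !![0, -1; 1, t] - 1 ∧
    (!![0, -1; 1, t] : Matrix (Fin 2) (Fin 2) F) ≠ 1 ∧
    (!![0, -1; 1, t] : Matrix (Fin 2) (Fin 2) F).trace = t := by
  refine ⟨by simp, ?_, fun h => by simpa using congrFun (congrFun h 0) 0, by simp⟩
  ext i j
  fin_cases i <;> fin_cases j <;> simp [mul_apply] <;> ring

theorem exists_diag_three {n : ℕ} {ω : F} (h1 : ω ≠ 1) (h3 : ω ^ 3 = 1) (hn : n % 3 = 0)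
    (h0 : n ≠ 0) : ∃ x : GL (Fin (n + 1)) F, (x : Matrix (Fin (n + 1)) (Fin (n + 1)) F) =
      diagonal (Fin.cons 1 fun _ => ω) ∧ (x : Matrix (Fin (n + 1)) (Fin (n + 1)) F).det = 1 ∧
      PE 3 (x : Matrix (Fin (n + 1)) (Fin (n + 1)) F) ∧
      rk (x : Matrix (Fin (n + 1)) (Fin (n + 1)) F) ω ≤ 1 := by
  have hd : (diagonal (Fin.cons 1 fun _ => ω : Fin (n + 1) → F)).det = 1 := by
    simp [Fin.prod_univ_succ, pow_eq_pow_mod n h3, hn]
  obtain ⟨x, hx⟩ := exists_GL (hd ▸ one_ne_zero : (diagonal (Fin.cons 1 fun _ => ω)).det ≠ 0)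
  refine ⟨x, hx, hx ▸ hd, ⟨⟨1, ?_⟩, fun c hc => h1 ?_⟩, ?_⟩
  · rw [hx]
    exact diagonal_pow_eq fun i => by induction i using Fin.cases <;> simp [h3]
  · rw [hx] at hc
    have e1 := congrFun (congrFun hc 0) 0
    have e2 := congrFun (congrFun hc (Fin.succ ⟨0, by omega⟩)) (Fin.succ ⟨0, by omega⟩)
    simp only [diagonal_apply_eq, Fin.cons_zero, Fin.cons_succ, Matrix.smul_apply, one_apply_eq,
      smul_eq_mul, mul_one] at e1 e2
    rw [e2, e1]
  · rw [rk, hx, show diagonal (Fin.cons 1 fun _ => ω : Fin (n + 1) → F) - ω • 1 =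
      vecMulVec (Pi.single 0 (1 - ω)) (Pi.single 0 1) by
        ext i j
        induction i using Fin.cases <;> induction j using Fin.cases <;>
          simp [vecMulVec_apply, diagonal_apply, one_apply, (Fin.succ_ne_zero _).symm]]
    exact rank_vecMulVec_le _ _

end CfsgLib.ElusF
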