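import Mathlib
import Cfsg.Agent.Lib.ElusF.Tests

/-!
Elements of prime order conjugate into the similarity group of a symmetric form.
-/

set_option autoImplicit false
set_option linter.unusedSectionVars false

namespace CfsgLib.ElusF

open Matrix Polynomial CfsgLib.MatConj CfsgLib.Elusive CfsgLib.ElusH Cfsg.Geo CfsgLib.Asch

variable {F : Type*} [Field F] {ι : Type} [Fintype ι] [DecidableEq ι] {σ : F →+* F}

theorem scalars_le_sim {f : (ι → F) → (ι → F) → F} (hs : IsSesq0 σ f) :
    scalars ι F ≤ similarityGroup f := fun g hg => by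
  obtain ⟨c, hc⟩ := (mem_scalars_iff g).1 hg
  refine (mem_sim_iff hs).2 ⟨_, ?_, hc ▸ (Sm.one _).smul (c : F)⟩
  simp

theorem symm_polar {Q : (ι → F) → F} (hQ : IsNondegenerateQuadraticForm Q) :
    IsSymmetricForm (QuadraticMap.polar Q) :=
  ⟨hQ.polar_bilinear, QuadraticMap.polar_comm Q, hQ.nondegenerate⟩

theorem quadSim_eq {Q : (ι → F) → F} (hQ : IsNondegenerateQuadraticForm Q) (h2 : (2 : F) ≠ 0) :
    quadSimilarityGroup Q = similarityGroup (QuadraticMap.polar Q) := by
  refine le_antisymm ?_ (similarityGroup_polar_le hQ h2)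
  rintro g ⟨c, hc⟩
  refine ⟨c, fun u v => ?_⟩
  simp only [QuadraticMap.polar, ← mulVec_add, hc]
  ring

theorem gram_symm {f : (ι → F) → (ι → F) → F} (hf : IsSymmetricForm f) :
    (gramMatrix f).det ≠ 0 ∧ (gramMatrix f)ᵀ = gramMatrix f :=
  ⟨((isSesq0_of_bilin hf.bilinear).isUnit_det hf.nondegenerate).ne_zero, by
    ext i j; exact hf.symm _ _⟩

theorem isConj_diagonal_of_map_eq {d d' : ι → F}
    (h : Finset.univ.val.map d = Finset.univ.val.map d') : IsConj (diagonal d) (diagonal d') := by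
  obtain ⟨e, he⟩ : ∃ e : ι ≃ ι, ∀ i, d (e i) = d' i := by
    classical
    have h1 : ∀ a, Fintype.card {i // d' i = a} = Fintype.card {i // d i = a} := fun a => by
      have := congrArg (Multiset.count a) h
      simp only [Multiset.count_map, eq_comm (a := a)] at this
      simp only [Fintype.card_subtype]
      exact this.symm
    exact ⟨Equiv.ofFiberEquiv fun a => Fintype.equivOfCardEq (h1 a),
      fun i => Equiv.ofFiberEquiv_map _ i⟩
  rw [isConj_iff_edM, ← edM_reindex e.symm]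
  congr 1
  rw [reindex_apply, Equiv.symm_symm, submatrix_diagonal_equiv]
  exact congrArg diagonal (funext he)

variable [Fintype F] {p r : ℕ} [hp : Fact p.Prime] [CharP F p] [hr : Fact r.Prime]

theorem exists_sub_sq (h2 : (2 : F) ≠ 0) {z : F} (hz : z ≠ 0) (c : F) :
    ∃ a b : F, z * a ^ 2 - b ^ 2 = c := by
  obtain ⟨a, b, h⟩ := FiniteField.exists_root_sum_quadratic (f := C z * X ^ 2)
    (g := C (-1) * X ^ 2 + C (-c)) (degree_C_mul_X_pow 2 hz) (by
      rw [degree_add_C (by rw [degree_C_mul_X_pow 2 (by simp)]; norm_num),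
        degree_C_mul_X_pow 2 (by simp)]; rfl) (Nat.odd_iff.1 (odd_card_iff.2 h2))
  refine ⟨a, b, ?_⟩
  simp at h
  linear_combination h

include hp in
theorem ci_symm_two (h2 : 2 ≠ p) {f : (ι → F) → (ι → F) → F} (hf : IsSymmetricForm f)
    {A : Matrix ι ι F} (hd : A.det ≠ 0) (hA : PE 2 A) : CI (similarityGroup f) A := by
  haveI : Fact (Nat.Prime 2) := ⟨Nat.prime_two⟩
  haveI := hA.nonempty
  have h2' := (two_ne_zero_iff (F := F) (p := p)).2 h2
  have hs := isSesq0_of_bilin hf.bilinear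
  obtain ⟨h0, h1⟩ := gram_symm hf
  rcases hA.split_or hd with ⟨b, hb, h⟩ | ⟨z, hz, hz'⟩
  · obtain ⟨d, hd1, hd2⟩ := exists_isConj_diagonal h2
      (two_dvd_of_odd ((odd_card_iff' (p := p)).2 h2)) h
    let g : ι → F := Function.update 1 (Classical.arbitrary ι) (gramMatrix f).det
    have hg : (diagonal g).det = (gramMatrix f).det := by
      rw [det_diagonal, Finset.prod_update_of_mem (Finset.mem_univ _)]; simp
    refine (ci_sim_of_eqv hs hf.nondegenerate (G' := diagonal g) (A' := diagonal d)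
      (eqv_symm h2' h0 h1 (hg ▸ h0) (diagonal_transpose _) rfl ⟨_, by rw [hg]⟩) one_ne_zero ?_
      (isConj_iff_edM.1 hd2)).of_smul (scalars_le_sim hs) hb
    rw [sm_id, one_smul, diagonal_transpose, diagonal_mul_diagonal, diagonal_mul_diagonal]
    congr 1
    funext i
    linear_combination g i * hd1 i
  · obtain ⟨m, hm, h⟩ := edM_eq_nsM hz hz'
    have hz0 : z ≠ 0 := fun h => hz' 0 (by simp [h])
    obtain ⟨m, rfl⟩ : ∃ k, m = k + 1 := ⟨m - 1, by have := Fintype.card_pos (α := ι); omega⟩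
    choose a b hab using exists_sub_sq h2' hz0
    let c : Fin (m + 1) → F := Function.update 1 0 (gramMatrix f).det
    let G : Fin (m + 1) → Matrix (Fin 2) (Fin 2) F := fun i =>
      !![a (c i), b (c i); b (c i), z * a (c i)]
    have hg : (blockDiagonal G).det = (gramMatrix f).det := by
      have : ∀ i, (G i).det = c i := fun i => by
        rw [← hab (c i)]; simp only [G, det_fin_two_of]; ring
      simp only [det_blockDiagonal, this, c]
      rw [Finset.prod_update_of_mem (Finset.mem_univ _)]; simp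
    refine ci_sim_of_eqv hs hf.nondegenerate (G' := blockDiagonal G)
      (eqv_symm h2' h0 h1 (hg ▸ h0) ?_ (by simp [hm]) ⟨_, by rw [hg]⟩) hz0
      (sm_nsM z z _ fun _ => ?_) h
    · rw [blockDiagonal_transpose]
      congr 1
      funext i
      ext a b; fin_cases a <;> fin_cases b <;> simp [G]
    · ext a b; fin_cases a <;> fin_cases b <;> simp [G, Matrix.mul_apply, Fin.sum_univ_two] <;> ring

theorem ci_symm_of_quadReal (h2 : (2 : F) ≠ 0) {f : (ι → F) → (ι → F) → F}
    (hf : IsSymmetricForm f) (ho : Odd (Fintype.card ι)) {A : Matrix ι ι F}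
    (h : QuadReal (edM A)) : CI (similarityGroup f) A := by
  obtain ⟨κ, _, _, A', T, e, h3, h4⟩ := h
  obtain ⟨h0, h1⟩ := gram_symm hf
  have hT : (T + Tᵀ)ᵀ = T + Tᵀ := by rw [transpose_add, transpose_transpose, add_comm]
  refine ci_sim_of_eqv (isSesq0_of_bilin hf.bilinear) hf.nondegenerate (G' := T + Tᵀ) (A' := A')
    (eqv_symm_odd h2 h0 h1 h3 hT (by rw [card_eq_mdeg A, card_eq_mdeg A', e]) ho) one_ne_zero
    ((sm_iff_qG h2 hT).2 fun v => ?_) e.symm
  have : ∀ w, qG (T + Tᵀ) w = 2 * (w ⬝ᵥ T *ᵥ w) := fun w => by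
    rw [qG, LinearMap.BilinMap.toQuadraticMap_apply, toBilin'_apply', add_mulVec, dotProduct_add,
      mulVec_transpose, dotProduct_comm w (w ᵥ* T), ← dotProduct_mulVec, two_mul]
  rw [this, this, h4]

include hp in
theorem recip_of_diag (hrp : r ≠ p) {d : ι → F} (hd : ∀ i, d i ^ r = 1)
    (h : Finset.univ.val.map d = Finset.univ.val.map fun i => (d i)⁻¹) :
    ∃ e t, (∀ f ∈ t, f ∈ cycFac F r) ∧ edM (diagonal d) = edOf e t ∧
      t.map (tilde (RingHom.id F)) = t := by
  have h0 : ∀ i, d i ≠ 0 := fun i h0 => by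
    have := hd i
    rw [h0, zero_pow hr.out.ne_zero] at this
    exact zero_ne_one this
  obtain ⟨e, t, ht, hE⟩ := edM_ssEd hrp (A := diagonal d) (by simpa using diagonal_pow_eq hd)
  rw [ssEd_eq_edOf] at hE
  refine ⟨e, t, fun f hf => mem_cyc_iff_cycFac.1 (ht f hf), hE, map_tilde_of_edOf (k := e) ?_⟩
  rw [← hE]
  refine (edM_inv (B := diagonal fun i => (d i)⁻¹) ?_).symm.trans
    (isConj_iff_edM.1 (isConj_diagonal_of_map_eq h)).symm
  rw [diagonal_mul_diagonal, ← diagonal_one]
  exact congrArg diagonal (funext fun i => inv_mul_cancel₀ (h0 i))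

include hp in
theorem not_ci_symm_even (hrp : r ≠ p) (hr2 : r ≠ 2) (h2 : (2 : F) ≠ 0)
    (hq : ¬ r ∣ Fintype.card F - 1) {f : (ι → F) → (ι → F) → F} (hf : IsSymmetricForm f) {k : ℕ}
    (hk : Fintype.card ι = 2 * k + 2) {c : ℕ}
    (hc : orderOf (Fintype.card F : ZMod r) * c = Fintype.card ι)
    (h : ¬ (IsPlus (qG (gramMatrix f)) ↔ Even c)) :
    ∃ A : Matrix ι ι F, A.det = 1 ∧ PE r A ∧ ¬ CI (similarityGroup f) A := by
  haveI : Nonempty ι := Fintype.card_pos_iff.1 (by omega)
  obtain ⟨π, hπ⟩ := exists_mem_cyc (F := F) hrp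
  have ht : ∀ g ∈ Multiset.replicate c π, g ∈ cyc F r := fun g hg =>
    Multiset.eq_of_mem_replicate hg ▸ hπ
  obtain ⟨A, hA, hAr⟩ := exists_ssEd_mat (ι := ι) hrp (e := 0) ht (by simpa using hc)
  obtain ⟨h0, h1⟩ := gram_symm hf
  refine ⟨A, det_eq_one_of_pow hq hAr, pe_of_pow_eq_one hq hAr ?_, fun hci => h ?_⟩
  · rintro rfl
    have := (rank_of_ssEd hrp ht hA).1
    rw [Multiset.card_replicate, hc] at this
    simp at this
    omega
  · obtain ⟨B, e, hB⟩ := exists_sm_one hq hAr (isSesq0_of_bilin hf.bilinear) hf.nondegenerate hci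
    have := isPlus_iff_even hr.out hrp hr2 (qG_nondeg h2 h0 h1) hk ((sm_iff_qG h2 h1).1 hB)
      (fun g hg => mem_cyc_iff_cycFac.1 (ht g hg))
      (by rw [← isConj_iff_edM.1 e, hA, ssEd_eq_edOf])
    rwa [Multiset.card_replicate] at this

end CfsgLib.ElusF
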