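import Mathlib
import Cfsg.Agent.Lib.ElusF.Orth

/-!
Elements conjugate into the similarity group of a hermitian form.
-/

set_option autoImplicit false
set_option linter.unusedSectionVars false

namespace CfsgLib.ElusF

open Matrix Polynomial CfsgLib.MatConj CfsgLib.Elusive CfsgLib.ElusH Cfsg.Geo CfsgLib.Asch

variable {F : Type*} [Field F] [Fintype F] {ι : Type} [Fintype ι] [DecidableEq ι] {q : ℕ}

theorem ci_herm_of_edM (hF : Fintype.card F = q ^ 2) {f : (ι → F) → (ι → F) → F}
    (hf : IsUnitaryFormPow q f) {A : Matrix ι ι F} (hA : A.det ≠ 0)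
    (h : (edM A).map (fun x => (tilde (Unitary.conj hF) x.1, x.2)) = edM A) :
    CI (similarityGroup f) A := by
  obtain ⟨hs, h0, h1⟩ := gram_herm hF hf
  obtain ⟨e, he⟩ := eqv_herm (Unitary.conj_ne_id hF) (Unitary.conj_conj hF) h0 h1 rfl
  letI := unitaryStar hF
  have hσ : starRingEnd F = Unitary.conj hF := rfl
  obtain ⟨B, hB, hE⟩ := exists_unitary_edM_eq (K := F) (n := Fin (Fintype.card ι))
    (Unitary.exists_not_fixed hF) (edM_valid A)
    ((isUnit_iff_edM A).1 ((isUnit_iff_isUnit_det A).2 (Ne.isUnit hA)))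
    (by rw [Fintype.card_fin, card_eq_sum_edM A]) (hσ ▸ h)
  refine ci_sim_of_eqv hs hf.nondegenerate ⟨e, 1, one_ne_zero, he⟩ one_ne_zero (A' := B) ?_ hE.symm
  rw [star_eq_map_transpose, hσ] at hB
  have := congrArg (fun M => M.map (Unitary.conj hF)) hB
  simp only [Matrix.map_mul, transpose_map, Matrix.map_map] at this
  rw [Sm, mul_one, one_smul]
  convert this
  · ext i j; simp [Unitary.conj_conj]
  · simp

theorem ci_herm_diag (hF : Fintype.card F = q ^ 2) {f : (ι → F) → (ι → F) → F}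
    (hf : IsUnitaryFormPow q f) {d : ι → F} (h0 : ∀ i, d i ≠ 0)
    (h : Finset.univ.val.map d = Finset.univ.val.map fun i => (d i ^ q)⁻¹) :
    CI (similarityGroup f) (diagonal d) := by
  refine ci_herm_of_edM hF hf (by rw [det_diagonal]; exact Finset.prod_ne_zero_iff.2 fun i _ => h0 i)
    ((MatConj.edM_tilde (B := diagonal fun i => (d i ^ q)⁻¹) (Unitary.conj_conj hF) ?_).symm.trans
      (isConj_iff_edM.1 (isConj_diagonal_of_map_eq h)).symm)
  rw [diagonal_map (map_zero _), diagonal_mul_diagonal, ← diagonal_one]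
  exact congrArg diagonal (funext fun i => inv_mul_cancel₀ (pow_ne_zero _ (h0 i)))

theorem ci_herm_unip (hF : Fintype.card F = q ^ 2) {f : (ι → F) → (ι → F) → F}
    (hf : IsUnitaryFormPow q f) {A : Matrix ι ι F} (hA : IsNilpotent (A - 1)) :
    CI (similarityGroup f) A := by
  refine ci_herm_of_edM hF hf (by rw [det_eq_one_of_isNilpotent_sub_one hA]; exact one_ne_zero) ?_
  rw [edM_eq_map_jt hA, Multiset.map_map]
  simp [tilde_X_sub_one]

theorem not_ci_herm_nonsplit (hF : Fintype.card F = q ^ 2) (ho : Odd q) [Nonempty ι]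
    {f : (ι → F) → (ι → F) → F} (hf : IsUnitaryFormPow q f) {A : Matrix ι ι F} {z : F}
    (hA : A ^ 2 = z • 1) (hz : ∀ b : F, b ^ 2 ≠ z) : ¬ CI (similarityGroup f) A := by
  intro hc
  obtain ⟨hs, h0, h1⟩ := gram_herm hF hf
  obtain ⟨B, μ, hμ, e, hB⟩ := (ci_sim_iff hs hf.nondegenerate).1 hc
  have h2 := hB.pow_eq h0 (pow_eq_of_isConj e hA)
  have h3 : μ ^ q = μ := by
    refine Sm.unique h0 (sm_iff.2 fun u v => ?_) hB
    rw [← hs.eq_gform, ← hs.eq_gform, hf.herm, hs.eq_gform, sm_iff.1 hB, ← hs.eq_gform, mul_pow,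
      ← hf.herm]
  rw [Unitary.pow_q_eq_self_iff hF hμ] at h3
  have hz0 : z ≠ 0 := fun h => hz 0 (by simp [h])
  have hchar : ringChar F ≠ 2 := by
    intro h
    have := FiniteField.even_card_iff_char_two.1 h
    rw [hF, Nat.odd_iff.1 ho.pow] at this
    omega
  obtain ⟨k, hk⟩ := ho
  obtain ⟨s, hs⟩ := (FiniteField.isSquare_iff hchar hz0).2 (by
    have : Fintype.card F / 2 = (q + 1) * k := by
      have : Fintype.card F = 2 * ((q + 1) * k) + 1 := by rw [hF, hk]; ring
      omega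
    rw [this, pow_mul, pow_succ', ← Unitary.conj_apply hF, ← h2, ← pow_mul, ← h3, hk]
    simp)
  exact hz s (by rw [hs, sq])

end CfsgLib.ElusF
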