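import Mathlib
import Cfsg.Agent.Lib.ElusF.C6
import Cfsg.Agent.Lib.Mit.GeoHess2
import Cfsg.Agent.Lib.PGroup.MaxClass2
import Cfsg.Agent.Lib.Unitary.Order

/-! The normaliser of an extraspecial group of order 27 in dimension three. -/

set_option autoImplicit false
set_option linter.unusedSimpArgs false

namespace CfsgLib.ElusF

open Matrix Polynomial CfsgLib.MatConj CfsgLib.Elusive CfsgLib.ElusH Cfsg.Geo CfsgLib.Asch Module
open CfsgLib.Mit CfsgLib.Mit.Gm

variable {F : Type*} [Field F] {σ : F →+* F} {R : Subgroup (GL (Fin 3) F)} {G : M3 F} {ω : F}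

theorem mat3_cube (M : M3 F) : (2 : F) • (M * M * M) = (2 * M.trace) • (M * M) -
    (M.trace ^ 2 - (M * M).trace) • M + (2 * M.det) • (1 : M3 F) := by
  ext i j
  fin_cases i <;> fin_cases j <;>
    simp [mul_apply, Fin.sum_univ_three, trace_fin_three, det_fin_three] <;> ring

theorem trace_eq_zero_of_smul {M : M3 F} {a : GL (Fin 3) F} {l : F} (hl : l ≠ 1)
    (h : a * M = l • (M * a)) : M.trace = 0 := by
  have := trace_cj a M
  rw [(cj_eq_iff (b := l • M)).2 (by rw [h, smul_mul_assoc]), trace_smul, smul_eq_mul] at this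
  exact (mul_eq_zero.1 (show (l - 1) * M.trace = 0 by linear_combination this)).resolve_left
    (sub_ne_zero.2 hl)

theorem scalar_comm (h2 : (2 : F) ≠ 0) (hω : Om ω) {a b : GL (Fin 3) F} {z : M3 F}
    (hb : (b : M3 F) ^ 3 = 1) (hz : z ^ 3 = 1) (h : (a : M3 F) * b = z * (b * a))
    (ha' : z * a = a * z) (hb' : z * b = b * z) (h1 : z ≠ 1) : z = ω • 1 ∨ z = ω ^ 2 • 1 := by
  have hz3 : z * (z * z) = 1 := by simpa [pow_succ, mul_assoc] using hz
  have key : ∀ l : F, l ^ 3 = 1 → l ≠ 1 → l ^ 2 ≠ 1 → z ≠ l • 1 → 1 + l ^ 2 • z + l • (z * z) = 0 := by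
    intro l l3 l1 l2 hl
    set P := 1 + l ^ 2 • z + l • (z * z) with hP
    have e1 : z * P = l • P := by
      simp only [hP, mul_add, mul_smul_comm, hz3, mul_one, smul_add, smul_smul, ← pow_succ', l3,
        one_smul, ← pow_two l]
      abel
    have e2 : ∀ X : M3 F, z * X = X * z → P * X = X * P := fun X hX => by
      simp only [hP, add_mul, mul_add, smul_mul_assoc, mul_smul_comm, mul_assoc, hX, one_mul,
        mul_one, ← mul_assoc z X]
    have e3 : P * P = (3 : F) • P := by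
      nth_rewrite 1 [hP]
      simp only [add_mul, smul_mul_assoc, mul_assoc, e1, mul_smul_comm, smul_smul, one_mul]
      rw [show l ^ 2 * l = 1 by linear_combination l3,
        show l * (l * l) = 1 by linear_combination l3, show (3 : F) = 1 + 1 + 1 by norm_num]
      simp only [add_smul, one_smul]
    have e4 : (a : M3 F) * (b * P) = l • (b * P * a) := by
      rw [← mul_assoc, h, mul_assoc, mul_assoc, ← e2 _ ha', ← mul_assoc, hb', mul_assoc,
        ← mul_assoc z, e1]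
      simp [mul_assoc]
    have e5 := trace_eq_zero_of_smul l1 e4
    have e6 := trace_eq_zero_of_smul (M := (b : M3 F) * P * ((b : M3 F) * P)) (a := a) l2 (by
      rw [← mul_assoc, e4, smul_mul_assoc, mul_assoc, e4, mul_smul_comm, smul_smul, pow_two,
        mul_assoc ((b : M3 F) * P)])
    have e7 := mat3_cube ((b : M3 F) * P)
    rw [e5, e6, show (b : M3 F) * P * (b * P) * (b * P) = (3 * 3 : F) • P by
      rw [← pow_three', (show Commute (b : M3 F) P from (e2 _ hb').symm).mul_pow, hb, one_mul,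
        pow_three', e3, smul_mul_assoc, e3, smul_smul]] at e7
    simp only [mul_zero, zero_smul, ne_eq, OfNat.ofNat_ne_zero, not_false_eq_true, zero_pow,
      sub_self, zero_add, smul_smul] at e7
    have h18 := mul_ne_zero h2 (mul_ne_zero hω.three hω.three)
    replace e7 := (eq_inv_smul_iff₀ h18).2 e7
    rw [smul_smul] at e7
    generalize (2 * (3 * 3))⁻¹ * (2 * ((b : M3 F) * P).det) = c at e7
    by_cases hc : c = 0
    · rw [e7, hc, zero_smul]
    · rw [e7, mul_smul_comm, mul_one, smul_comm] at e1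
      exact absurd (smul_right_injective _ hc e1) hl
  by_contra hn
  push Not at hn
  have e1 := key ω hω.cube hω.ne_one hω.sq_ne_one hn.1
  have e2 := key (ω ^ 2) (by linear_combination (ω ^ 3 + 1) * hω.cube) hω.sq_ne_one
    (fun e => hω.ne_one (by linear_combination e - ω * hω.cube)) hn.2
  rw [show (ω ^ 2) ^ 2 = ω by linear_combination ω * hω.cube] at e2
  have e3 : (ω ^ 2 - ω) • (z - z * z) = 0 := by
    rw [← sub_eq_zero.2 (e1.trans e2.symm)]; simp only [sub_smul, smul_sub]; abel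
  rw [smul_eq_zero, sub_eq_zero, sub_eq_zero] at e3
  refine h1 ?_
  rw [← hz3, ← e3.resolve_left hω.sq_ne, ← e3.resolve_left hω.sq_ne]

theorem exists_pull_of_card (h2 : (2 : F) ≠ 0) (hω : Om ω) (hR : Nat.card R = 27)
    (hRe : Monoid.exponent R = 3) (hRna : ¬ IsMulCommutative R) : ∃ B, pull B R = stdR hω := by
  haveI : Finite R := Nat.finite_of_card_ne_zero (by omega)
  have hE := PGroup.isExtraspecial_of_card_eq_cube (p := 3) hR hRna
  have h3 : ∀ x ∈ R, x ^ 3 = 1 := fun x hx =>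
    congrArg Subtype.val (hRe ▸ Monoid.pow_exponent_eq_one (⟨x, hx⟩ : R))
  have h3' : ∀ x ∈ R, (x : M3 F) ^ 3 = 1 := fun x hx => by
    rw [← Units.val_pow_eq_pow_val, h3 x hx, Units.val_one]
  suffices ∃ x ∈ R, ∃ y ∈ R, (x : M3 F) * y = ω • (y * x) by
    obtain ⟨x, hx, y, hy, e⟩ := this
    obtain ⟨B, l, hl, h1, h2⟩ := exists_basis hω (h3 x hx) (h3 y hy) e
    haveI : Finite (pull B R) := Nat.finite_of_card_ne_zero (by rw [card_pull]; omega)
    exact ⟨B, (Subgroup.eq_of_le_of_card_ge (stdR_le hω (by rw [mem_pull]; simpa [mul_assoc] using hx)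
      h1 hl (by rw [← h2, mem_pull]; simpa [mul_assoc] using hy))
      (by rw [card_pull, card_stdR, hR])).symm⟩
  obtain ⟨a, b, hab⟩ : ∃ a b : R, a * b ≠ b * a := by
    by_contra hn
    push Not at hn
    exact hRna ⟨⟨hn⟩⟩
  have hz : a * b * a⁻¹ * b⁻¹ ∈ commutator R :=
    Subgroup.commutator_mem_commutator (Subgroup.mem_top _) (Subgroup.mem_top _)
  rw [hE.1.2.2, Subgroup.mem_center_iff] at hz
  set z := a * b * a⁻¹ * b⁻¹ with hzz
  have e : ((a : GL (Fin 3) F) : M3 F) * (b : GL (Fin 3) F) =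
      (z : GL (Fin 3) F) * ((b : GL (Fin 3) F) * (a : GL (Fin 3) F)) :=
    congrArg (fun g : R => ((g : GL (Fin 3) F) : M3 F)) (show a * b = z * (b * a) by rw [hzz]; group)
  rcases scalar_comm h2 hω (h3' _ b.2) (h3' _ z.2) e
    (congrArg (fun g : R => ((g : GL (Fin 3) F) : M3 F)) (hz a).symm)
    (congrArg (fun g : R => ((g : GL (Fin 3) F) : M3 F)) (hz b).symm) (fun e => hab (by
      have : z = 1 := Subtype.ext (Units.ext e)
      rwa [hzz, mul_inv_eq_one, mul_inv_eq_iff_eq_mul] at this)) with h | h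
  · exact ⟨a, a.2, b, b.2, by rw [e, h, smul_mul_assoc, one_mul]⟩
  · exact ⟨b, b.2, a, a.2, by rw [e, h, smul_mul_assoc, one_mul, smul_smul, ← pow_succ', hω.cube,
      one_smul]⟩

theorem sm_cj_iff {ι : Type} [Fintype ι] [DecidableEq ι] {G A : Matrix ι ι F} {B : GL ι F} {μ : F} :
    Sm σ G (cj B A) μ ↔ Sm σ ((B : Matrix ι ι F)ᵀ * G * (B : Matrix ι ι F).map σ) A μ := by
  have t : ∀ {G A : Matrix ι ι F} {B : GL ι F}, Sm σ G (cj B A) μ →
      Sm σ ((B : Matrix ι ι F)ᵀ * G * (B : Matrix ι ι F).map σ) A μ := fun {G A B} h => by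
    rw [Sm, ← smul_mul_assoc, ← mul_smul_comm, ← h, ← mul_assoc, ← mul_assoc, ← transpose_mul,
      ← mul_assoc, ← mul_assoc, ← transpose_mul, mul_assoc, mul_assoc _ _ (Matrix.map _ σ),
      ← Matrix.map_mul, ← Matrix.map_mul, cj_mul_coe]
  refine ⟨t, fun h => ?_⟩
  have := t (A := cj B A) (B := B⁻¹) (by rwa [cj_inv_cj])
  rwa [← mul_assoc, ← mul_assoc, ← transpose_mul, mul_assoc, ← Matrix.map_mul, Units.mul_inv,
    transpose_one, Matrix.map_one _ σ.map_zero σ.map_one, one_mul, mul_one] at this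

/-- `R` is the standard group in a basis in which the form is standard. -/
structure Hess (hω : Om ω) (R : Subgroup (GL (Fin 3) F)) (σ : F →+* F) (G : M3 F) : Prop where
  le : R ≤ specialLinear (Fin 3) F
  pow : ∀ x ∈ subgroupNormalizer R, (x : M3 F).det = 1 → x ^ 108 = 1
  ns : ∀ y ∈ subgroupNormalizer (stdR hω), (G = 0 ∨ Sm σ 1 (y : M3 F) 1) →
    ∃ M, NS R σ G 1 M ∧ IsConj (y : M3 F) M

theorem hess_of (h2 : (2 : F) ≠ 0) (hω : Om ω) (hR : Nat.card R = 27)
    (hRe : Monoid.exponent R = 3) (hRna : ¬ IsMulCommutative R) (hσ : G = 0 ∨ σ ω = ω ^ 2)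
    (hG : ∀ a ∈ R, Sm σ G (a : M3 F) 1) : Hess hω R σ G := by
  obtain ⟨B, hB⟩ := exists_pull_of_card h2 hω hR hRe hRna
  refine ⟨fun x hx => ?_, fun x hx hd => (col6_of_le hω hB inf_le_left inf_le_right).pow x
    ⟨hx, mem_SL.2 hd⟩, fun y hy h => ⟨cj B y, ⟨⟨B * y * B⁻¹, ?_, (cj_coe B y).symm⟩, ?_⟩,
      ⟨B, (cj_mul_coe B y).symm⟩⟩⟩
  · have : B⁻¹ * x * B ∈ stdR hω := by rw [← hB, mem_pull]; simpa [mul_assoc] using hx
    rw [mem_SL, det_eq_of_isConj (isConj_conj B x), this.1]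
  · rwa [← hB, ← pull_normalizer, mem_pull] at hy
  · rcases hσ with rfl | hσ
    · simp [Sm]
    rcases h with rfl | h
    · simp [Sm]
    have t : ∀ g ∈ stdR hω, Sm σ ((B : M3 F)ᵀ * G * (B : M3 F).map σ) (g : M3 F) 1 := fun g hg =>
      sm_cj_iff.1 (by rw [cj_coe]; exact hG _ (mem_pull.1 (hB ▸ hg)))
    rw [sm_cj_iff]
    generalize (B : M3 F)ᵀ * G * (B : M3 F).map σ = H at t
    have e1 := t _ (xS_mem hω)
    have e2 := t _ (yS_mem hω)
    have n1 := sub_ne_zero.2 hω.ne_one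
    have n2 := sub_ne_zero.2 hω.sq_ne_one
    have c := hω.cube
    have : H = H 0 0 • 1 := by
      have a := fun i j => congrFun (congrFun e1 i) j
      have b := fun i j => congrFun (congrFun e2 i) j
      have a01 := a 0 1; have a02 := a 0 2; have a12 := a 1 2
      have b00 := b 0 0; have b11 := b 1 1; have b01 := b 0 1; have b02 := b 0 2
      have b12 := b 1 2; have b10 := b 1 0; have b20 := b 2 0
      simp [xS, coe_gl, XS, coe_yS, mul_apply, Fin.sum_univ_three, hσ] at a01 a02 a12 b00 b11 b01 b02 b12 b10 b20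
      have z01 : H 0 1 = 0 := (mul_eq_zero.1 (by linear_combination a01)).resolve_left n2
      have z02 : H 0 2 = 0 := (mul_eq_zero.1 (by
        linear_combination a02 - ω * H 0 2 * c)).resolve_left n1
      have z12 : H 1 2 = 0 := by rw [b01, z01]
      have z20 : H 2 0 = 0 := by rw [b12, z12]
      have z10 : H 1 0 = 0 := by rw [b02, z02]
      have z21 : H 2 1 = 0 := by rw [b10, z10]
      ext i j
      fin_cases i <;> fin_cases j <;> simp [z01, z02, z12, z20, z10, z21, b00, b11]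
    rw [this, Sm, mul_smul_comm, smul_mul_assoc, h, one_smul, one_smul]

section finite
variable [Fintype F] {p : ℕ} [hp : Fact p.Prime] [CharP F p] {hω : Om ω}
include hp

theorem Hess.conj_invol (h : Hess hω R σ G) (h2 : 2 ≠ p) {A : M3 F} (hd : A.det = 1)
    (hA : PE 2 A) : ∃ b : F, b ^ 3 = 1 ∧ (b • A) ^ 2 = 1 ∧ ∃ M, NS R σ G 1 M ∧ IsConj (b • A) M := by
  obtain ⟨⟨z, hz⟩, -⟩ := id hA
  have h3 : z ^ 3 = 1 := by simpa [hd] using (congrArg det hz).symm
  have h4 : (z • A) ^ 2 = 1 := by rw [_root_.smul_pow, hz, smul_smul, ← pow_succ, h3, one_smul]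
  have t : ∀ B : M3 F, B * B = 1 → B.det = 1 → B ≠ 1 → (B - 1).rank = 2 := fun B b1 b2 b3 => by
    have e1 := det_of_sq h2 b1
    rw [b2, eq_comm, neg_one_pow_eq_one_iff_even fun e => two_ne_zero_iff.2 h2 (by
      linear_combination -e), Nat.even_iff] at e1
    have e2 : (B - 1).rank ≠ 0 := fun e => b3 (sub_eq_zero.1 (eq_zero_of_rank e))
    have e3 := rank_le_card_width (B - 1)
    rw [Fintype.card_fin] at e3
    omega
  have ht : (tS F : M3 F) * tS F = 1 := by simp [coe_tS, one_fin_three]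
  obtain ⟨M, m1, m2⟩ := h.ns (tS F) (fS_sq hω ▸ pow_mem (hessRow_normalizer hω).f_mem 2)
    (Or.inr (by
      rw [Sm, mul_one, one_smul]
      ext i j
      fin_cases i <;> fin_cases j <;> simp [coe_tS, mul_apply, Fin.sum_univ_three]))
  refine ⟨z, h3, h4, M, m1, IsConj.trans ?_ m2⟩
  rw [pow_two] at h4
  refine (rat_two h2 h4).isConj h2 (rat_two h2 ht) ?_
  rw [t _ h4 (by simp [hd, h3]) (by
    simpa using (hA.smul (by rintro rfl; simp at h3)).2 1), t _ ht det_tS fun e => by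
      simpa [coe_tS] using congrFun (congrFun e 1) 1]

theorem Hess.conj_three (h : Hess hω R σ G) (h3 : 3 ≠ p) (hq : 3 ∣ Fintype.card F - 1)
    (hσ : G = 0 ∨ σ ω = ω ^ 2) {A : M3 F} (hA : A ^ 3 = 1) : ∃ M, NS R σ G 1 M ∧ IsConj A M := by
  obtain ⟨d, hd, e⟩ := exists_isConj_diagonal h3 hq hA
  obtain ⟨i, hi⟩ := hω.exists_pow (hd 0)
  obtain ⟨j, hj⟩ := hω.exists_pow (hd 1)
  obtain ⟨k, hk⟩ := hω.exists_pow (hd 2)
  have c : ∀ a b : ℕ, ω ^ (a + 3 * b) = ω ^ a := fun a b => by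
    rw [pow_add, pow_mul, hω.cube, one_pow, mul_one]
  have e1 : ((sc (Fin 3) (Units.mk0 ω hω.ne_zero) ^ (2 * j + 2 * k) * dS hω ^ (i + j + k) *
      xS hω ^ (k + 2 * j) : GL (Fin 3) F) : M3 F) = diagonal d := by
    rw [Units.val_mul, Units.val_mul, ← map_pow, coe_sc, Units.val_pow_eq_pow_val (dS hω),
      Units.val_pow_eq_pow_val (xS hω), show (xS hω : M3 F) = diagonal ![1, ω, ω ^ 2] by
        ext i j; fin_cases i <;> fin_cases j <;> simp [xS, coe_gl, XS],
      show (dS hω : M3 F) = diagonal ![ω, 1, 1] from rfl, diagonal_pow, diagonal_pow, smul_mul_assoc,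
      one_mul, smul_mul_assoc, diagonal_mul_diagonal, ← diagonal_smul]
    congr 1
    ext a
    fin_cases a <;> simp [← pow_add, ← pow_mul]
    · rw [hi, ← c i (j + k)]; congr 1; ring
    · rw [hj, ← c j (j + k)]; congr 1; ring
    · rw [hk, ← c k (2 * j + k)]; congr 1; ring
  obtain ⟨M, m1, m2⟩ := h.ns _ (mul_mem (mul_mem (pow_mem (scalars_le_subgroupNormalizer
    (sc_mem (Units.mk0 ω hω.ne_zero))) (2 * j + 2 * k)) (pow_mem ((act_dS hω).mem_normalizer hω)
      (i + j + k))) (pow_mem (Subgroup.le_normalizer (xS_mem hω)) (k + 2 * j)))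
    (hσ.imp_right fun hσ => e1 ▸ sm_diagonal fun a => by
      obtain ⟨m, hm⟩ := hω.exists_pow (hd a)
      rw [hm, map_pow, hσ, ← mul_pow, ← pow_succ', hω.cube, one_pow])
  exact ⟨M, m1, e.trans (e1 ▸ m2)⟩

end finite

theorem Hess.eq_of_ci {hω : Om ω} (h : Hess hω R σ G) {r : ℕ} (hr : r.Prime) {x : GL (Fin 3) F}
    (hd : (x : M3 F).det = 1) (h1 : x ^ r = 1) (h2 : x ≠ 1)
    (hc : CI (subgroupNormalizer R) (x : M3 F)) : r = 2 ∨ r = 3 := by
  haveI := Fact.mk hr
  obtain ⟨y, hy, e⟩ := hc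
  have h3 := orderOf_dvd_of_pow_eq_one (h.pow y hy (by rw [← det_eq_of_isConj e, hd]))
  rw [← IsConj.orderOf_eq' ((isConj_units_iff x y).2 e), orderOf_eq_prime h1 h2] at h3
  exact ((Nat.Prime.dvd_mul hr).1 (show r ∣ 2 ^ 2 * 3 ^ 3 from h3)).imp
    (fun h => (Nat.prime_dvd_prime_iff_eq hr Nat.prime_two).1 (hr.dvd_of_dvd_pow h))
    fun h => (Nat.prime_dvd_prime_iff_eq hr Nat.prime_three).1 (hr.dvd_of_dvd_pow h)

theorem card_GU_inf_SL {n q : ℕ} :
    Nat.card (Cfsg.GU n F q ⊓ specialLinear (Fin n) F : Subgroup (GL (Fin n) F)) =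
      Nat.card (Cfsg.SU n F q) := by
  rw [← Subgroup.card_map_of_injective (K := Cfsg.SU n F q) SpecialLinearGroup.toGL_injective]
  congr 2
  ext x
  exact ⟨fun hx => ⟨⟨x, mem_SL.1 hx.2⟩, hx.1, Units.ext rfl⟩,
    by rintro ⟨x, hx, rfl⟩; exact ⟨hx, mem_SL.2 x.2⟩⟩

theorem not_dvd_sl3 {q : ℕ} (h : q % 9 = 4 ∨ q % 9 = 7) :
    ¬ 81 ∣ q ^ 3 * ((q ^ 2 - 1) * (q ^ 3 - 1)) := by
  have hq : 0 < q := by omega
  rw [← ZMod.natCast_eq_zero_iff]
  push_cast [Nat.cast_sub (Nat.one_le_pow _ _ hq)]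
  rw [← ZMod.natCast_mod q 81]
  have h1 : q % 81 % 9 = 4 ∨ q % 81 % 9 = 7 := by omega
  have h2 : q % 81 < 81 := Nat.mod_lt _ (by norm_num)
  generalize q % 81 = m at h1 h2
  revert h1
  revert m
  decide +kernel

theorem not_dvd_su3 {q : ℕ} (h : q % 9 = 2 ∨ q % 9 = 5) :
    ¬ 81 ∣ q ^ 3 * ((q ^ 2 - 1) * (q ^ 3 + 1)) := by
  have hq : 0 < q := by omega
  rw [← ZMod.natCast_eq_zero_iff]
  push_cast [Nat.cast_sub (Nat.one_le_pow _ _ hq)]
  rw [← ZMod.natCast_mod q 81]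
  have h1 : q % 81 % 9 = 2 ∨ q % 81 % 9 = 5 := by omega
  have h2 : q % 81 < 81 := Nat.mod_lt _ (by norm_num)
  generalize q % 81 = m at h1 h2
  revert h1
  revert m
  decide +kernel

theorem exists_cube_root [Fintype F] (h : 9 ∣ Fintype.card F - 1) {z : F} (hz : z ^ 3 = 1) :
    ∃ b : F, b ^ 9 = 1 ∧ b ^ 3 * z = 1 := by
  obtain ⟨c, -, hc⟩ := exists_orderOf_eq h
  have h9 : c ^ 9 = 1 := hc ▸ pow_orderOf_eq_one c
  have h3 : c ^ 3 ≠ 1 := pow_ne_one_of_lt_orderOf (by norm_num) (by omega)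
  have hω : (c ^ 3) ^ 2 + c ^ 3 + 1 = 0 := (mul_eq_zero.1 (show (c ^ 3 - 1) * _ = 0 by
    linear_combination h9)).resolve_left (sub_ne_zero.2 h3)
  have : (z - 1) * ((z - c ^ 3) * (z - c ^ 6)) = 0 := by
    linear_combination hz + (z - z ^ 2) * hω + (z - 1) * h9
  rcases mul_eq_zero.1 this with e | e
  · exact ⟨1, by simp, by simpa [sub_eq_zero] using e⟩
  rcases mul_eq_zero.1 e with e | e
  · exact ⟨c ^ 2, by linear_combination (c ^ 9 + 1) * h9, by linear_combination h9 + c ^ 6 * e⟩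
  · exact ⟨c, h9, by linear_combination h9 + c ^ 3 * e⟩

end CfsgLib.ElusF
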