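import Mathlib
import Cfsg.Agent.Lib.ElusF.C6
import Cfsg.Agent.Lib.Elus2.Sp
import Cfsg.Agent.Lib.Asch.FormTensor

/-!
Test elements of prime order in symplectic groups, and tensor decompositions.
-/

set_option autoImplicit false
set_option linter.unusedSectionVars false

namespace CfsgLib.ElusF

open Matrix Polynomial CfsgLib.MatConj CfsgLib.Elusive CfsgLib.ElusH Cfsg.Geo CfsgLib.Asch Module
open scoped Kronecker

variable {F : Type*} [Field F] {ι κ : Type} [Fintype ι] [DecidableEq ι] [Fintype κ] [DecidableEq κ]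
  {G : Matrix ι ι F}

theorem not_dvd_relIndex {Γ : Type*} [Group Γ] {S H R : Subgroup Γ} [Finite S] {r : ℕ}
    [hr : Fact r.Prime] (hH : R ≤ H) (hS : R ≤ S)
    (hc : Nat.card R = r ^ (Nat.card S).factorization r) : ¬ r ∣ H.relIndex S := fun h => by
  have h1 := (mul_dvd_mul h dvd_rfl).trans (relIndex_mul_dvd_of_le H S R hH hS)
  rw [hc, ← pow_succ', hr.out.pow_dvd_iff_le_factorization Nat.card_pos.ne'] at h1
  omega

theorem exists_sylow_le {Γ : Type*} [Group Γ] (S : Subgroup Γ) [Finite S] (r : ℕ)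
    [hr : Fact r.Prime] : ∃ R ≤ S, Nat.card R = r ^ (Nat.card S).factorization r := by
  obtain ⟨P⟩ : Nonempty (Sylow r S) := inferInstance
  exact ⟨(P : Subgroup S).map S.subtype, Subgroup.map_subtype_le _, by
    rw [Subgroup.card_map_of_injective S.subtype_injective, Sylow.card_eq_multiplicity]⟩

theorem pe_of_sm [Nonempty ι] (hG : G.det ≠ 0) {A : Matrix ι ι F} (h : Sm (RingHom.id F) G A 1)
    {r : ℕ} (hr : Odd r) (hA : A ^ r = 1) (h1 : A ≠ 1) : PE r A := by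
  refine ⟨⟨1, by simpa using hA⟩, fun c hc => h1 ?_⟩
  have h2 := Sm.pow_eq hG h (k := 1) (z := c) (by simpa using hc)
  have h3 : c ^ r = 1 := smul_one_inj (ι := ι) (by rw [hc, _root_.smul_pow] at hA; simpa using hA)
  rw [hc, eq_one_of_sq_of_odd hr (by simpa using h2.symm) h3, one_smul]

theorem pow_cases_of_sm [Nonempty ι] (hG : G.det ≠ 0) {A : Matrix ι ι F}
    (h : Sm (RingHom.id F) G A 1) {r : ℕ} {z : F} (hA : A ^ r = z • 1) :
    A ^ r = 1 ∨ A ^ r = -1 := by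
  have h2 := Sm.pow_eq hG h hA
  rcases mul_self_eq_one_iff.1 (by simpa using h2.symm : z * z = 1) with h | h <;> simp [hA, h]

theorem Sm.isConj_inv (hG : G.det ≠ 0) {A B : Matrix ι ι F} {μ : F}
    (h : Sm (RingHom.id F) G A μ) (hB : A * B = 1) : IsConj A (μ • B) := by
  refine (isConj_transpose A).trans (IsConj.symm (isConj_iff_exists_unit.2 ⟨G, hG.isUnit, ?_⟩))
  rw [mul_smul_comm, ← smul_mul_assoc, ← sm_id.1 h, mul_assoc, hB, mul_one]

theorem exists_spGL {m : ℕ} {A : Matrix (Fin m ⊕ Fin m) (Fin m ⊕ Fin m) F}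
    (h : Sm (RingHom.id F) (J (Fin m) F) A 1) :
    ∃ x ∈ Cfsg.spGL m F, (x : Matrix (Fin m ⊕ Fin m) (Fin m ⊕ Fin m) F) = A := by
  obtain ⟨x, rfl⟩ := exists_GL (h.det_ne_zero (det_J_ne m) one_ne_zero)
  exact ⟨x, mem_spGL_iff_sm.2 h, rfl⟩

section fin

variable [Fintype F] {p r : ℕ} [hp : Fact p.Prime] [CharP F p] [hr : Fact r.Prime]

theorem pe_one_add {N : Matrix ι ι F} (h : N * N = 0) (h0 : N ≠ 0) :
    (1 + N) ^ p = 1 ∧ PE p (1 + N) := by
  haveI : Nonempty ι := by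
    by_contra hn
    rw [not_nonempty_iff] at hn
    exact h0 (Subsingleton.elim _ _)
  have h1 : (1 + N) ^ p = 1 := by
    obtain ⟨k, hk⟩ := Nat.exists_eq_add_of_le hp.out.two_le
    rw [add_pow_char_of_commute _ (Commute.one_left N), one_pow, hk, pow_add, sq, h]; simp
  refine ⟨h1, ⟨1, by simpa using h1⟩, fun c hc => h0 ?_⟩
  have h2 : N = (c - 1) • 1 := by rw [sub_smul, ← hc]; simp
  have h3 : (c - 1) * (c - 1) = 0 :=
    smul_one_inj (ι := ι) (by rw [h2] at h; simpa [smul_smul] using h)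
  rw [h2, mul_self_eq_zero.1 h3, zero_smul]

theorem sp_transv {m : ℕ} (hm : 0 < m) : ∃ x ∈ Cfsg.spGL m F,
    PE p (x : Matrix (Fin m ⊕ Fin m) (Fin m ⊕ Fin m) F) ∧
      rk (x : Matrix (Fin m ⊕ Fin m) (Fin m ⊕ Fin m) F) 1 = 1 := by
  let i : Fin m := ⟨0, hm⟩
  obtain ⟨x, hx, e⟩ := exists_spGL (mem_sp_iff_sm.1
    (CfsgLib.Forms.sympTransvection_mem m (Pi.single (Sum.inl i) (1 : F)) 1))
  rw [Cfsg.sympTransvection, one_smul] at e
  set N := vecMulVec (Pi.single (Sum.inl i) (1 : F) : Fin m ⊕ Fin m → F) (J (Fin m) F *ᵥ Pi.single (Sum.inl i) 1)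
  have h0 : N ≠ 0 := fun h => by
    simpa [N, vecMulVec_apply, J] using congrFun (congrFun h (Sum.inl i)) (Sum.inr i)
  refine ⟨x, hx, e ▸ (pe_one_add ?_ h0).2, ?_⟩
  · simp [N, vecMulVec_mul_vecMulVec, J]
  · rw [rk_one, e, add_sub_cancel_left]
    have : N.rank ≤ 1 := rank_vecMulVec_le _ _
    have h1 : N.rank ≠ 0 := fun h => h0 (eq_zero_of_rank h)
    omega

theorem sp_invol (h2 : (2 : F) ≠ 0) {m : ℕ} (hm : 2 ≤ m) : ∃ x ∈ Cfsg.spGL m F,
    PE 2 (x : Matrix (Fin m ⊕ Fin m) (Fin m ⊕ Fin m) F) ∧ x ^ 2 = 1 ∧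
      rk (x : Matrix (Fin m ⊕ Fin m) (Fin m ⊕ Fin m) F) 1 = 2 := by
  classical
  let i : Fin m := ⟨0, by omega⟩
  let j : Fin m := ⟨1, by omega⟩
  have hji : j ≠ i := by simp [i, j]
  let δ : Fin m → F := fun k => if k = i then -1 else 1
  have hδ : ∀ k, δ k * δ k = 1 := fun k => by simp only [δ]; split_ifs <;> simp
  have h1 : (-1 : F) ≠ 1 := fun h => h2 (by linear_combination -h)
  have hs : Sm (RingHom.id F) (J (Fin m) F) (diagonal (Sum.elim δ δ)) 1 := by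
    rw [sm_id, one_smul, ← fromBlocks_diagonal, J, fromBlocks_transpose, fromBlocks_multiply,
      fromBlocks_multiply]
    simp [hδ, -diagonal_neg]
  obtain ⟨x, hx, e⟩ := exists_spGL hs
  have hsq : (x : Matrix (Fin m ⊕ Fin m) (Fin m ⊕ Fin m) F) ^ 2 = 1 := by
    rw [e, diagonal_pow_eq (z := 1), one_smul]
    rintro (k | k) <;> simp [sq, hδ]
  refine ⟨x, hx, ⟨⟨1, by simpa using hsq⟩, fun c hc => ?_⟩, Units.ext (by simpa using hsq), ?_⟩
  · rw [e] at hc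
    have a1 := congrFun (congrFun hc (Sum.inl i)) (Sum.inl i)
    have a2 := congrFun (congrFun hc (Sum.inl j)) (Sum.inl j)
    simp [δ, hji] at a1 a2
    exact h1 (a1.trans a2.symm)
  · rw [e, rk, smul_one_eq_diagonal, diagonal_sub, rank_diagonal, Fintype.card_subtype]
    rw [Finset.card_eq_two]
    refine ⟨Sum.inl i, Sum.inr i, by simp, ?_⟩
    ext (k | k) <;> by_cases h : k = i <;> simp [δ, h, sub_eq_zero, h1]

theorem isConj_of_sq_neg (h2 : 2 ≠ p) (hG : G.det ≠ 0) {A B : Matrix ι ι F}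
    (hA : Sm (RingHom.id F) G A 1) (hB : Sm (RingHom.id F) G B 1) (a2 : A * A = -1)
    (b2 : B * B = -1) : IsConj A B := by
  have h2' := (two_ne_zero_iff (F := F)).2 h2
  by_cases h : ∃ b : F, b ^ 2 = -1
  · obtain ⟨b, hb⟩ := h
    have hb0 : b ≠ 0 := by rintro rfl; simp at hb
    have key : ∀ A : Matrix ι ι F, Sm (RingHom.id F) G A 1 → A * A = -1 →
        (b • A) * (b • A) = 1 ∧ 2 * (b • A - 1).rank = Fintype.card ι := fun A hA a2 => by
      have h1 : (b • A) * (b • A) = 1 := by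
        rw [smul_mul_smul_comm, a2, ← sq, hb]; simp
      refine ⟨h1, rank_of_anti h2' h1 ?_⟩
      simpa using isConj_smul (hA.isConj_inv hG (B := -A) (by simp [a2])) b
    obtain ⟨h3, h4⟩ := key A hA a2
    obtain ⟨h5, h6⟩ := key B hB b2
    simpa [smul_smul, hb0] using isConj_smul
      ((rat_two h2 h3).isConj h2 (rat_two h2 h5) (by omega)) b⁻¹
  · push Not at h
    exact isConj_iff_edM.2 (edM_eq_of_irreducible (irreducible_nonsplit (r := 2) h)
      (monic_X_pow_sub_C _ two_ne_zero) (aeval_X_pow_sub_C.2 (by simp [sq, a2]))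
      (aeval_X_pow_sub_C.2 (by simp [sq, b2])) rfl)

variable (F r) in
/-- The dimension of a non-trivial block of an isometry of order `r`. -/
noncomputable def cc : ℕ := if Even (orderOf (Fintype.card F : ZMod r)) then
  orderOf (Fintype.card F : ZMod r) else 2 * orderOf (Fintype.card F : ZMod r)

theorem sd_cc (hrp : r ≠ p) (h2 : r ≠ 2) : SDData (RingHom.id F) r
    (Even (orderOf (Fintype.card F : ZMod r))) (orderOf (Fintype.card F : ZMod r)) (cc F r) :=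
  CfsgLib.Elus2.sdData_id hrp h2 rfl rfl

theorem cc_pos (hrp : r ≠ p) (h2 : r ≠ 2) : 0 < cc F r := (sd_cc hrp h2).c_pos hrp

theorem map_tilde_of_sm (hG : G.det ≠ 0) {A : Matrix ι ι F} (h : Sm (RingHom.id F) G A 1) {e : ℕ}
    {t : Multiset F[X]} (hE : edM A = ssEd e t) : t.map (tilde (RingHom.id F)) = t := by
  have := h.edM_tilde (fun _ => rfl) hG
  rw [hE, ssEd_eq_edOf] at this
  exact map_tilde_of_edOf this

theorem cc_dvd_rank (hrp : r ≠ p) (h2 : r ≠ 2) (hG : G.det ≠ 0) {A : Matrix ι ι F}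
    (h : Sm (RingHom.id F) G A 1) (hA : A ^ r = 1) : cc F r ∣ (A - 1).rank := by
  obtain ⟨e, t, h1, h3⟩ := edM_ssEd hrp hA
  obtain ⟨k, hk⟩ := CfsgLib.Elus2.exists_card_eq (sd_cc hrp h2) (fun _ => rfl) h1
    (map_tilde_of_sm hG h h3)
  exact ⟨k, (rank_of_ssEd hrp h1 h3).1.trans hk⟩

theorem cc_le_rank (hrp : r ≠ p) (h2 : r ≠ 2) (hG : G.det ≠ 0) {A : Matrix ι ι F}
    (h : Sm (RingHom.id F) G A 1) (hA : A ^ r = 1) (h1 : A ≠ 1) : cc F r ≤ (A - 1).rank :=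
  Nat.le_of_dvd (Nat.pos_of_ne_zero fun h0 => h1 (sub_eq_zero.1 (eq_zero_of_rank h0)))
    (cc_dvd_rank hrp h2 hG h hA)

theorem cc_le_of_dvd (hrp : r ≠ p) (h2 : r ≠ 2) {m : ℕ} {H : Subgroup (GL (Fin m ⊕ Fin m) F)}
    (h : r ∣ H.relIndex (Cfsg.spGL m F)) : cc F r ≤ 2 * m := by
  obtain ⟨x, hx, h3, h4⟩ := exists_orderOf_of_dvd_index h
  have := (cc_le_rank hrp h2 (det_J_ne m) (mem_spGL_iff_sm.1 hx) (by simpa using congrArg Units.val h3)
    fun e => h4 (Units.ext e)).trans (rank_le_card_height _)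
  simpa [two_mul] using this

theorem sp_exists_ss (hrp : r ≠ p) (h2 : r ≠ 2) {m k : ℕ} (hk : 0 < k) (h : cc F r * k ≤ 2 * m) :
    ∃ x ∈ Cfsg.spGL m F, PE r (x : Matrix (Fin m ⊕ Fin m) (Fin m ⊕ Fin m) F) ∧ x ^ r = 1 ∧
      ((x : Matrix (Fin m ⊕ Fin m) (Fin m ⊕ Fin m) F) - 1).rank = cc F r * k := by
  obtain ⟨t, h1, h3, h4, -⟩ := (sd_cc (F := F) hrp h2).exists_mult (fun _ => rfl) hrp k
  obtain ⟨c, hc⟩ : Even (cc F r) := CfsgLib.Elus2.c_even rfl
  have hpos := cc_pos (F := F) hrp h2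
  obtain ⟨A, hA⟩ := (altReal_edOf hr.out hrp h2 (fun f hf => mem_cyc_iff_cycFac.1 (h1 f hf)) h3
    (m - c * k)).exists_sp (m := m) (by
      rw [← ssEd_eq_edOf]
      refine (mdeg_ssEd hrp _ h1).trans ?_
      have : cc F r * k = 2 * (c * k) := by rw [hc]; ring
      omega)
  rw [← ssEd_eq_edOf] at hA
  obtain ⟨x, hx, e⟩ := exists_spGL (mem_sp_iff_sm.1 A.2)
  have h5 := (rank_of_ssEd hrp h1 hA).1.trans h4
  have h6 : (A : Matrix (Fin m ⊕ Fin m) (Fin m ⊕ Fin m) F) ^ r = 1 :=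
    (aeval_X_pow_sub_C.1 ((aeval_eq_zero_iff_edM A.1 (X ^ r - C 1)).2
      (hA ▸ dvd_of_mem_ssEd _ h1))).trans (one_smul _ _)
  haveI : Nonempty (Fin m) := ⟨⟨0, by nlinarith⟩⟩
  refine ⟨x, hx, e ▸ pe_of_sm (det_J_ne m) (mem_sp_iff_sm.1 A.2) (hr.out.odd_of_ne_two h2) h6
    fun h0 => ?_, Units.ext (by simpa [e] using h6), e ▸ h5⟩
  rw [h0, sub_self, rank_zero] at h5
  exact (Nat.mul_pos hpos hk).ne h5

end fin

section tensor

variable {α β : Type} [Fintype α] [DecidableEq α] [Fintype β] [DecidableEq β]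
  {G₁ g : Matrix α α F} {G₂ h : Matrix β β F}

theorem sm_coord {e : ι ≃ κ} {P : GL ι F} {G' M : Matrix κ κ F} {c : F} (hc : c ≠ 0)
    (hS : ∀ x y, gform (RingHom.id F) G ((P : Matrix ι ι F) *ᵥ (x ∘ e))
      ((P : Matrix ι ι F) *ᵥ (y ∘ e)) = c * gform (RingHom.id F) G' x y) :
    Sm (RingHom.id F) G (coord e P M) 1 ↔ Sm (RingHom.id F) G' M 1 := by
  simp only [sm_iff, one_mul]
  refine ⟨fun h x y => mul_left_cancel₀ hc (by rw [← hS, ← hS, ← coord_mulVec, ← coord_mulVec, h]),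
    fun h u v => ?_⟩
  have hs : ∀ u : ι → F, ∃ x : κ → F, u = (P : Matrix ι ι F) *ᵥ (x ∘ e) := fun u =>
    ⟨(((P⁻¹ : GL ι F) : Matrix ι ι F) *ᵥ u) ∘ e.symm, by
      rw [Function.comp_assoc, e.symm_comp_self, Function.comp_id, mulVec_mulVec, Units.mul_inv,
        one_mulVec]⟩
  obtain ⟨x, rfl⟩ := hs u
  obtain ⟨y, rfl⟩ := hs v
  rw [coord_mulVec, coord_mulVec, hS, hS, h]

theorem exists_entry [Nonempty ι] {A : Matrix ι ι F} (h : A.det ≠ 0) : ∃ i j, A i j ≠ 0 := by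
  obtain ⟨g, rfl⟩ := exists_GL h
  exact exists_entry_ne_zero g

theorem Sm.kron {μ ν : F} (h1 : Sm (RingHom.id F) G₁ g μ) (h2 : Sm (RingHom.id F) G₂ h ν) :
    Sm (RingHom.id F) (G₁ ⊗ₖ G₂) (g ⊗ₖ h) (μ * ν) := by
  rw [sm_id] at *
  rw [← kroneckerMap_transpose, ← mul_kronecker_mul, ← mul_kronecker_mul, h1, h2, smul_kronecker,
    kronecker_smul, smul_smul]

theorem Sm.of_kron [Nonempty α] [Nonempty β] (h1 : G₁.det ≠ 0) (h2 : G₂.det ≠ 0) (hg : g.det ≠ 0)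
    (hh : h.det ≠ 0) (hs : Sm (RingHom.id F) (G₁ ⊗ₖ G₂) (g ⊗ₖ h) 1) :
    ∃ μ ν : F, Sm (RingHom.id F) G₁ g μ ∧ Sm (RingHom.id F) G₂ h ν ∧ μ * ν = 1 := by
  simp only [sm_id] at *
  rw [← kroneckerMap_transpose, ← mul_kronecker_mul, ← mul_kronecker_mul] at hs
  exact kron_factor (exists_entry (by simp [h1, hg])) (exists_entry (by simp [h2, hh])) hs

theorem isConj_kron {g' : Matrix α α F} (e : IsConj g g') : IsConj (g ⊗ₖ h) (g' ⊗ₖ h) := by
  obtain ⟨P, hP, e⟩ := isConj_iff_exists_unit.1 e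
  refine isConj_iff_exists_unit.2 ⟨P ⊗ₖ 1, by simpa [det_kronecker] using hP.pow _, ?_⟩
  rw [← mul_kronecker_mul, ← mul_kronecker_mul, e, one_mul, mul_one]

variable [Fintype F] {p r : ℕ} [hp : Fact p.Prime] [CharP F p] [hr : Fact r.Prime]

/-- An isometry with one non-trivial block is not a Kronecker product. -/
theorem not_kron (hrp : r ≠ p) (h2 : r ≠ 2) (h1 : G₁.det ≠ 0) (h3 : G₂.det ≠ 0)
    (ha : 2 ≤ Fintype.card α) (hb : 3 ≤ Fintype.card β) (hg : g.det ≠ 0) (hh : h.det ≠ 0)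
    (hs : Sm (RingHom.id F) (G₁ ⊗ₖ G₂) (g ⊗ₖ h) 1) (hX : (g ⊗ₖ h) ^ r = 1) :
    (g ⊗ₖ h - 1).rank ≠ cc F r := fun hc => by
  haveI : Nonempty α := Fintype.card_pos_iff.1 (by omega)
  haveI : Nonempty β := Fintype.card_pos_iff.1 (by omega)
  have hpos := cc_pos (F := F) hrp h2
  obtain ⟨μ, ν, s1, s2, hμ⟩ := hs.of_kron h1 h3 hg hh
  obtain ⟨a, b, e1, e2, hab⟩ := kron_factor (C := 1) (D := 1) (c := 1)
    (exists_entry (A := g ^ r) (by simp [hg])) (exists_entry (A := h ^ r) (by simp [hh]))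
    (by rw [← kronecker_pow', hX]; simp)
  have p1 := s1.pow_eq h1 e1
  have p2 := s2.pow_eq h3 e2
  simp only [RingHom.id_apply] at p1 p2
  have t1 : Sm (RingHom.id F) G₁ (ν • (g * g)) 1 := by
    convert (s1.mul s1).smul ν using 1
    simp only [RingHom.id_apply]; linear_combination -(μ * ν + 1) * hμ
  have t2 : Sm (RingHom.id F) G₂ (μ • (h * h)) 1 := by
    convert (s2.mul s2).smul μ using 1
    simp only [RingHom.id_apply]; linear_combination -(μ * ν + 1) * hμ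
  have u1 : (ν • (g * g)) ^ r = 1 := by
    rw [_root_.smul_pow, ← sq, ← pow_mul, mul_comm 2, pow_mul, e1, p2, _root_.smul_pow, smul_smul,
      show b * b * a ^ 2 = 1 by linear_combination (a * b + 1) * hab]; simp
  have u2 : (μ • (h * h)) ^ r = 1 := by
    rw [_root_.smul_pow, ← sq, ← pow_mul, mul_comm 2, pow_mul, e2, p1, _root_.smul_pow, smul_smul,
      show a * a * b ^ 2 = 1 by linear_combination (a * b + 1) * hab]; simp
  have hμ0 : μ ≠ 0 := left_ne_zero_of_mul_eq_one hμ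
  have hi : g * g⁻¹ = 1 := mul_nonsing_inv _ hg.isUnit
  have v1 : ν • (g * g) = 1 := by
    by_contra hne
    have w1 := cc_le_rank hrp h2 h1 t1 u1 hne
    have w2 := rank_sub_one_pow_eq_of_isConj (isConj_kron (h := h) (s1.isConj_inv h1 hi)) 1
    have w3 : ((ν • (g * g)) ⊗ₖ (1 : Matrix β β F) - 1) * ((μ • g⁻¹) ⊗ₖ h) =
        (g ⊗ₖ h - 1) + -1 * ((μ • g⁻¹) ⊗ₖ h - 1) := by
      rw [sub_mul, ← mul_kronecker_mul, smul_mul_smul_comm, mul_assoc, hi, mul_comm ν, hμ]; simp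
    have w4 := congrArg Matrix.rank w3
    rw [rank_mul_eq_left_of_isUnit_det _ _ (by simp [det_kronecker, hg, hh, hμ0]), ← rk_one,
      rk_of_edM (edM_kronecker_comm _ _), rk_one_kronecker, rk_one] at w4
    have w5 := (rank_add_le' _ _).trans (add_le_add_right (rank_mul_le_right (-1)
      ((μ • g⁻¹) ⊗ₖ h - 1)) (g ⊗ₖ h - 1).rank)
    rw [pow_one, pow_one] at w2
    nlinarith
  have x1 : (g ⊗ₖ h) * (g ⊗ₖ h) = (1 : Matrix α α F) ⊗ₖ (μ • (h * h)) := by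
    rw [← v1, smul_kronecker, kronecker_smul, smul_smul, mul_comm ν, hμ, one_smul,
      mul_kronecker_mul]
  have v2 : μ • (h * h) = 1 := by
    by_contra hne
    have w1 := cc_le_rank hrp h2 h3 t2 u2 hne
    have w2 := rank_mul_le_left (g ⊗ₖ h - 1) (g ⊗ₖ h + 1)
    rw [show (g ⊗ₖ h - 1) * (g ⊗ₖ h + 1) = (g ⊗ₖ h) * (g ⊗ₖ h) - 1 by noncomm_ring, x1, ← rk_one,
      rk_one_kronecker, rk_one] at w2
    nlinarith
  obtain ⟨k, hk⟩ := hr.out.odd_of_ne_two h2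
  rw [hk, pow_succ, pow_mul, sq, x1, v2, one_kronecker_one, one_pow, one_mul] at hX
  rw [hX, sub_self, rank_zero] at hc
  omega

theorem exists_orth_invol (h2 : (2 : F) ≠ 0) (hG : G.det ≠ 0) (h1 : Gᵀ = G) [Nonempty ι] {s : ℕ}
    (hs : s ≤ Fintype.card ι) :
    ∃ A, Sm (RingHom.id F) G A 1 ∧ A * A = 1 ∧ (A - 1).rank = s := by
  classical
  obtain ⟨n, hn⟩ := Nat.exists_eq_succ_of_ne_zero (Fintype.card_pos (α := ι)).ne'
  obtain ⟨c, -, -, h⟩ := eqv_diag h2 hG h1 hn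
  let δ : Fin (n + 1) → F := fun i => if i.val < s then -1 else 1
  have hδ : ∀ k, δ k ^ 2 = 1 := fun k => by simp only [δ]; split_ifs <;> simp
  obtain ⟨A, h3, h4⟩ := h.exists_sm (A := diagonal δ) (μ := 1) (by
    rw [sm_id, one_smul, diagonal_transpose, diagonal_mul_diagonal, diagonal_mul_diagonal]
    congr 1
    funext i
    linear_combination (if i = Fin.last n then c else 1) * hδ i)
  refine ⟨A, h3, by simpa [sq] using pow_eq_of_edM h4.symm (diagonal_pow_eq hδ), ?_⟩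
  have h5 : (-1 : F) ≠ 1 := fun h => h2 (by linear_combination -h)
  rw [← rk_one, rk_of_edM h4, rk, smul_one_eq_diagonal, diagonal_sub, rank_diagonal,
    Fintype.card_subtype]
  simp [δ, sub_eq_zero, h5, Fin.card_filter_val_lt]
  omega

end tensor

end CfsgLib.ElusF
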