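import Mathlib
import Cfsg.Agent.Lib.ElusF.SpTest
import Cfsg.Agent.Lib.ClMax.ExtSp

/-!
Symplectic groups over extension fields inside symplectic groups.
-/

set_option autoImplicit false
set_option linter.unusedSectionVars false

namespace CfsgLib.ElusF

open Matrix CfsgLib.Forms CfsgLib.ClMax CfsgLib.ElusH CfsgLib.Elusive CfsgLib.Asch CfsgLib.Elus2
  Cfsg.Geo Module

theorem spo_split {q k : ℕ} (hk : 0 < k) (m : ℕ) : ∃ N, spo q (k * m) = spo (q ^ k) m * N ∧
    ∀ r : ℕ, r.Prime → r ∣ N → ∃ i, ¬ k ∣ i ∧ r ∣ q ^ (2 * i) - 1 := by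
  induction m with
  | zero => exact ⟨1, by simp [spo], fun r hr h => absurd (Nat.dvd_one.1 h) hr.ne_one⟩
  | succ m ih =>
    obtain ⟨N, h1, h2⟩ := ih
    obtain ⟨k, rfl⟩ := Nat.exists_eq_succ_of_ne_zero hk.ne'
    refine ⟨N * ∏ i ∈ Finset.range k, (q ^ (2 * ((k + 1) * m + i + 1)) - 1), ?_, fun r hr h => ?_⟩
    · rw [mul_add_one, spo_add, h1, spo_succ, Finset.prod_range_succ, ← pow_mul,
        show k.succ * (2 * (m + 1)) = 2 * (k.succ * m + k + 1) by simp only [Nat.succ_eq_add_one]; ring]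
      ring
    · refine (hr.dvd_mul.1 h).elim (h2 r hr) fun h => ?_
      obtain ⟨i, hi, h⟩ := (hr.prime.dvd_finsetProd_iff _).1 h
      refine ⟨_, fun h3 => ?_, h⟩
      rw [add_assoc, Nat.dvd_add_right (dvd_mul_right _ _)] at h3
      have := Nat.le_of_dvd (by omega) h3
      rw [Finset.mem_range] at hi
      omega

section mat

variable {F : Type*} [Field F] [Fintype F] {ι : Type} [Fintype ι] [DecidableEq ι]

theorem card_spGL (m : ℕ) : Nat.card (Cfsg.spGL m F) =
    Fintype.card F ^ (m ^ 2) * spo (Fintype.card F) m := by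
  rw [← alt_card_isom (spPQ_Λ (Fin m) F) (spPQ_nondeg (Fin m) F) (finrank_sum_fun F m)]
  exact Nat.card_congr (glEquiv.toEquiv.subtypeEquiv fun g =>
    (mem_spGL_iff g).trans (spPQ_isIso (Fin m) F _).symm)

theorem commute_of_coprime [Nonempty ι] {k r : ℕ} {K : Subalgebra F (Matrix ι ι F)}
    (hK : IsFieldSubalgebra k K) {g : GL ι F} (hg : g ∈ subalgebraNormalizer K) (hr : r.Coprime k)
    {z : F} (h : (g : Matrix ι ι F) ^ r = z • 1) : ∀ x ∈ K, Commute x g := by
  let _ : Field K := (isField_of_isFieldSubalgebra hK).toField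
  have : Finite K := Module.finite_of_finite F
  have hst := stab_of_le_normalizer (le_refl (subalgebraNormalizer K))
  let ψ : subalgebraNormalizer K →* (K ≃ₐ[F] K) :=
    { toFun := fun g => hst.equiv g.2
      map_one' := AlgEquiv.ext fun a => Subtype.ext (cj_one a.1)
      map_mul' := fun g h => AlgEquiv.ext fun a => Subtype.ext (cj_mul g.1 h.1 a.1) }
  have h1 : ψ ⟨g, hg⟩ ^ k = 1 := by rw [← hK.finrank_eq, ← card_gal]; exact pow_card_eq_one'
  have h2 : ψ ⟨g, hg⟩ ^ r = 1 := by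
    rw [← map_pow]
    exact AlgEquiv.ext fun a => Subtype.ext (cj_eq_iff.2 (by simp [h]))
  have h3 := (pow_eq_one_iff_of_coprime hr).1 ⟨h2, h1⟩
  exact fun x hx => (cj_eq_iff.1 (congrArg Subtype.val (AlgEquiv.congr_fun h3 ⟨x, hx⟩))).symm

theorem rank_invol_four {p : ℕ} [Fact p.Prime] [CharP F p] (h2 : 2 ≠ p)
    {A : Matrix (Fin 2 ⊕ Fin 2) (Fin 2 ⊕ Fin 2) F} (h : Sm (RingHom.id F) (J (Fin 2) F) A 1)
    (hA : A * A = 1) (h1 : A ≠ 1) (h3 : A ≠ -1) : (A - 1).rank = 2 := by
  have h2' : (2 : F) ≠ 0 := two_ne_zero_iff.2 h2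
  have h4 := det_of_sq h2 hA
  rw [h.det_alt (det_J_ne 2) (J_transpose _ _) (by rintro (i | i) <;> simp [J])] at h4
  obtain ⟨s, hs⟩ := (neg_one_pow_eq_one_iff_even (fun h => h2' (by linear_combination -h))).1 h4.symm
  have h5 := rank_add_of_sq h2' hA
  have h6 : (A - 1).rank ≠ 0 := fun e => h1 (sub_eq_zero.1 (eq_zero_of_rank e))
  have h7 : (-A - 1).rank ≠ 0 := fun e => h3 (neg_eq_iff_eq_neg.1 (sub_eq_zero.1 (eq_zero_of_rank e)))
  simp at h5
  omega

end mat

variable {F K V : Type*} [Field F] [Field K] [Algebra F K] [AddCommGroup V]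
  [Module F V] [Module K V] [IsScalarTower F K V]

/-- Restriction of scalars as a homomorphism. -/
def resHom (F K V : Type*) [Field F] [Field K] [Algebra F K] [AddCommGroup V]
    [Module F V] [Module K V] [IsScalarTower F K V] : (V ≃ₗ[K] V) →* (V ≃ₗ[F] V) where
  toFun t := t.restrictScalars F
  map_one' := rfl
  map_mul' _ _ := rfl

theorem resHom_injective : Function.Injective (resHom F K V) :=
  LinearEquiv.restrictScalars_injective F

/-- An endomorphism commuting with the extension field. -/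
def extEnd (T : End F V) (h : ∀ (k : K) v, T (k • v) = k • T v) : End K V where
  toFun := T
  map_add' := T.map_add
  map_smul' := h

theorem finrank_range_extEnd {T : End F V} (h : ∀ (k : K) v, T (k • v) = k • T v) :
    finrank F (LinearMap.range (T - 1)) =
      finrank F K * finrank K (LinearMap.range (extEnd T h - 1)) := by
  rw [Module.finrank_mul_finrank]
  rfl

theorem extEnd_pow {T : End F V} (h : ∀ (k : K) v, T (k • v) = k • T v) (n : ℕ) (v : V) :
    (extEnd T h ^ n) v = (T ^ n) v := by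
  rw [End.pow_apply, End.pow_apply]; rfl

variable {B : LinearMap.BilinForm F V} {f : LinearMap.BilinForm K V} {l : K →ₗ[F] F}

theorem ext_isom (hl : l ≠ 0) (hB : ∀ u v, B u v = l (f u v)) {T : End F V}
    (h : ∀ (k : K) v, T (k • v) = k • T v) (hT : ∀ u v, B (T u) (T v) = B u v) (u v : V) :
    f (T u) (T v) = f u v :=
  sub_eq_zero.1 (eq_zero_of_forall_mul hl fun k => by
    have := hT u (k • v)
    rw [h, hB, hB, (f _).map_smul, (f _).map_smul] at this
    rw [mul_sub, map_sub]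
    exact sub_eq_zero.2 this)

variable [Finite K] [FiniteDimensional K V]

theorem ext_rank {p r : ℕ} [Fact p.Prime] [CharP F p] [Fact r.Prime] (hrp : r ≠ p) (hA : f.IsAlt)
    (hf : f.Nondegenerate) (hl : l ≠ 0) (hB : ∀ u v, B u v = l (f u v)) {T : End F V}
    (h : ∀ (k : K) v, T (k • v) = k • T v) (hT : ∀ u v, B (T u) (T v) = B u v) (hr : T ^ r = 1) :
    2 * finrank F K ∣ finrank F (LinearMap.range (T - 1)) := by
  haveI := Fintype.ofFinite K
  haveI := charP_of_injective_algebraMap (algebraMap F K).injective p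
  have hP := ofAlt_nondeg f hA hf
  obtain ⟨a, ha⟩ := alt_even rfl hP (nd_fix hP hrp (T := extEnd T h)
    ((ofAlt_isIso f hA _).2 (ext_isom hl hB h hT))
    (LinearMap.ext fun v => by rw [extEnd_pow, hr]; rfl))
  obtain ⟨b, hb⟩ := even_finrank_of_alt f hA hf
  have h1 := LinearMap.finrank_range_add_finrank_ker (extEnd T h - 1)
  rw [show LinearMap.ker (extEnd T h - 1) = fix (extEnd T h) by simp [fix]] at h1
  rw [finrank_range_extEnd h, mul_comm 2]
  exact mul_dvd_mul_left _ ⟨b - a, by omega⟩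

theorem exists_semi_invol (hr : finrank F K = 2) (hA : f.IsAlt) (hf : f.Nondegenerate)
    [Nontrivial V] (hB : ∀ u v, B u v = Algebra.trace F K (f u v)) :
    ∃ y ∈ spIso B, SemiK K y ∧ y * y = 1 ∧ ¬ ∀ (k : K) v, y (k • v) = k • y v := by
  obtain ⟨m, hm⟩ := even_finrank_of_alt f hA hf
  obtain ⟨e, he⟩ := exists_isIso₂_spPQ f hA hf (hm.trans (two_mul m).symm)
  have h1 := card_gal (F := F) (K := K)
  haveI : Nontrivial (K ≃ₐ[F] K) := Finite.one_lt_card_iff_nontrivial.1 (by omega)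
  obtain ⟨σ, hσ⟩ := exists_ne (1 : K ≃ₐ[F] K)
  have h2 : ∀ a, σ (σ a) = a := fun a => by
    rw [← AlgEquiv.mul_apply, ← sq, ← hr, ← h1, pow_card_eq_one', AlgEquiv.one_apply]
  let y : V ≃ₗ[F] V := (e.restrictScalars F).trans
    ((LinearEquiv.piCongrRight fun _ => σ.toLinearEquiv).trans (e.symm.restrictScalars F))
  have hy : ∀ v, e (y v) = fun i => σ (e v i) := fun v => e.apply_symm_apply _
  have h3 : ∀ (k : K) v, y (k • v) = σ k • y v := fun k v => e.injective (by
    rw [e.map_smul, hy, hy]; ext i; simp)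
  have h4 : ∀ u v, f u v = spB (Fin m) K (e u) (e v) := fun u v => (he.B_eq u v).symm
  refine ⟨y, fun u v => ?_, fun k => ⟨_, h3 k⟩, LinearEquiv.ext fun v => e.injective ?_,
    fun h => hσ (AlgEquiv.ext fun k => ?_)⟩
  · rw [hB, hB, ← Algebra.trace_eq_of_algEquiv σ (f u v), h4, h4, hy, hy]
    simp [spB_eq_sum]
  · rw [LinearEquiv.mul_apply, hy, hy]; simp [h2]
  · obtain ⟨v, hv⟩ := exists_ne (0 : V)
    exact smul_left_injective K (y.map_ne_zero_iff.2 hv) ((h3 k v).symm.trans (h k v))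

end CfsgLib.ElusF
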