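import Mathlib
import Cfsg.Agent.Lib.ElusF.SpExt
import Cfsg.Agent.Lib.Elus2.Orth4
import Cfsg.Agent.Lib.MatConj.FormStar

/-!
Orthogonal groups over a quadratic extension inside orthogonal groups.
-/

set_option autoImplicit false
set_option linter.unusedSectionVars false

namespace CfsgLib.ElusF

open CfsgLib.Forms CfsgLib.ClMax CfsgLib.Elusive CfsgLib.Elus2 CfsgLib.Orth CfsgLib.MatConj Module
  QuadraticMap Algebra

section field

variable {F K : Type*} [Field F] [Field K] [Algebra F K] [Fintype F] [Finite K]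
  (hr : finrank F K = 2)
include hr

theorem qtr_eq (x : K) : algebraMap F K (trace F K x) = x + x ^ Fintype.card F := by
  rw [FiniteField.algebraMap_trace_eq_sum_pow, hr]; simp [Finset.sum_range_succ]

theorem qnm_eq (x : K) : algebraMap F K (norm F x) = x * x ^ Fintype.card F := by
  rw [FiniteField.algebraMap_norm_eq_prod_pow, hr]; simp [Finset.prod_range_succ]

theorem exists_coord {k : K} (hk : ∀ t : F, t • (1 : K) ≠ k) (m : K) :
    ∃ α β : F, α • (1 : K) + β • k = m := by
  have h : LinearIndependent F ![1, k] := (LinearIndependent.pair_iff' one_ne_zero).2 hk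
  rw [← Submodule.mem_span_pair, ← Matrix.range_cons_cons_empty,
    h.span_eq_top_of_card_eq_finrank (by simp [hr])]
  trivial

variable (h2 : (2 : F) ≠ 0)
include h2

theorem half_card [Fintype K] : Fintype.card F = 2 * (Fintype.card F / 2) + 1 ∧
    Fintype.card K / 2 = (1 + Fintype.card F) * (Fintype.card F / 2) ∧ ringChar F ≠ 2 ∧
      ringChar K ≠ 2 := by
  have h1 : ringChar F ≠ 2 := fun h => h2 (by exact_mod_cast h ▸ ringChar.Nat.cast_ringChar)
  have h3 := FiniteField.odd_card_of_char_ne_two h1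
  refine ⟨by omega, ?_, h1, by rwa [← Algebra.ringChar_eq F K]⟩
  obtain ⟨a, ha⟩ : ∃ a, Fintype.card F = 2 * a + 1 := ⟨Fintype.card F / 2, by omega⟩
  rw [Module.card_eq_pow_finrank (K := F), hr, ha, show (2 * a + 1) / 2 = a by omega,
    show (2 * a + 1) ^ 2 = 2 * ((1 + (2 * a + 1)) * a) + 1 by ring]
  omega

theorem isSquare_norm_iff {c : K} (hc : c ≠ 0) : IsSquare (norm F c) ↔ IsSquare c := by
  haveI := Fintype.ofFinite K
  obtain ⟨-, h3, h4, h5⟩ := half_card hr h2
  rw [FiniteField.isSquare_iff h4 (Algebra.norm_ne_zero_iff.2 hc), FiniteField.isSquare_iff h5 hc,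
    ← (algebraMap F K).injective.eq_iff, map_pow, qnm_eq hr, map_one, h3, pow_mul, pow_add, pow_one]

theorem exists_omega : ∃ (ω : K) (ε : F), ω ≠ 0 ∧ trace F K ω = 0 ∧
    algebraMap F K ε = ω * ω ∧ ¬ IsSquare ε := by
  haveI := Fintype.ofFinite K
  have hK : Fintype.card K = Fintype.card F ^ 2 := by rw [Module.card_eq_pow_finrank (K := F), hr]
  obtain ⟨ω, h0, h1⟩ := Unitary.exists_trace_zero hK
  have h3 : algebraMap F K (-norm F ω) = ω * ω := by
    rw [map_neg, qnm_eq hr]; linear_combination -ω * h1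
  refine ⟨ω, _, h0, (algebraMap F K).injective (by rw [qtr_eq hr, h1, map_zero]), h3, ?_⟩
  rintro ⟨a, ha⟩
  rw [ha, map_mul] at h3
  obtain ⟨b, rfl⟩ : ∃ b, algebraMap F K b = ω :=
    (mul_self_eq_mul_self_iff.1 h3).elim (fun h => ⟨a, h⟩) fun h => ⟨-a, by rw [map_neg, h, neg_neg]⟩
  rw [← map_pow, FiniteField.pow_card, ← map_add, map_eq_zero, ← two_mul] at h1
  exact h0 (by rw [(mul_eq_zero.1 h1).resolve_left h2, map_zero])

theorem exists_tr_sq {c : K} (hc : c ≠ 0) : ∃ a : K, trace F K (a * a * c) ≠ 0 := by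
  by_contra h
  push Not at h
  obtain ⟨a, ha⟩ := trace_surjective F K 1
  have h1 := h (a / c + 1)
  rw [show (a / c + 1) * (a / c + 1) * c = a / c * (a / c) * c + 1 * 1 * c + (a + a) by
    field_simp; ring, map_add, map_add, h, h, map_add, ha] at h1
  exact h2 (by linear_combination h1)

theorem isSquare_neg_one_ext : IsSquare (-1 : K) :=
  (isSquare_norm_iff hr h2 (by simp)).1 (by
    rw [← map_one (algebraMap F K), ← map_neg, Algebra.norm_algebraMap, hr]; simp)

end field

theorem SemiK.mul' {F K V : Type*} [Field F] [Field K] [AddCommGroup V] [Module F V] [Module K V]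
    {g h : V ≃ₗ[F] V} (hg : SemiK K g) (hh : SemiK K h) : SemiK K (g * h) := fun k => by
  obtain ⟨a, ha⟩ := hh k
  obtain ⟨b, hb⟩ := hg a
  exact ⟨b, fun v => by rw [LinearEquiv.mul_apply, ha, hb]; rfl⟩

variable {F K V : Type*} [Field F] [Field K] [Algebra F K] [AddCommGroup V]
  [Module F V] [Module K V] [IsScalarTower F K V]

/-- `Q` is the trace of a form `P` over a quadratic extension. -/
structure TD (Q : QuadraticForm F V) (P : QuadraticForm K V) : Prop where
  h2 : (2 : F) ≠ 0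
  hr : finrank F K = 2
  hQ : (ofQuad Q).Nondeg
  eq : ∀ v, Q v = trace F K (P v)

namespace TD

variable {Q : QuadraticForm F V} {P : QuadraticForm K V} (h : TD Q P)
include h

theorem h2K : (2 : K) ≠ 0 := fun e =>
  h.h2 ((algebraMap F K).injective (by rw [map_ofNat, e, map_zero]))

theorem pol (x y : V) : polar Q x y = trace F K (polar P x y) := by simp [polar, h.eq]

theorem hP : (ofQuad P).Nondeg := fun x hx => h.hQ x fun y => by
  rw [ofQuad_B, h.pol, ← ofQuad_B, hx, map_zero]

/-- Restriction of scalars. -/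
def res : OG P →* OG Q where
  toFun t := ⟨t.1.restrictScalars F, fun v => by rw [h.eq, h.eq]; exact congr_arg _ (t.2 v)⟩
  map_one' := rfl
  map_mul' _ _ := rfl

theorem res_apply (t : OG P) (v : V) : (h.res t).1 v = t.1 v := rfl

theorem semiK_res (t : OG P) : SemiK K (h.res t).1 := semiK_restrict _

theorem finrank_res (W : Submodule K V) : finrank F (W.restrictScalars F) = 2 * finrank K W := by
  rw [← h.hr, finrank_mul_finrank]; rfl

variable [Fintype F] [Finite K]

theorem isom {T : End F V} (hc : ∀ (k : K) v, T (k • v) = k • T v) (hT : Isom (ofQuad Q) T) :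
    Isom (ofQuad P) (extEnd T hc) := by
  have h1 : ∀ u v, polar P (T u) (T v) = polar P u v := ext_isom (B := polarBilin Q)
    (f := polarBilin P) (fun e => by
      obtain ⟨a, ha⟩ := trace_surjective F K 1
      simp [e] at ha) h.pol hc hT.B_eq
  exact (ofQuad_isIso _ _).2 fun v => mul_left_cancel₀ h.h2K (by
    rw [← polar_self', ← polar_self']; exact h1 v v)

theorem refl_mul {u : V} {k : K} (h1 : Q u ≠ 0) (h2 : Q (k • u) ≠ 0)
    (h3 : polar Q u (k • u) = 0) : refl Q u * refl Q (k • u) = h.res (refl P u) := by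
  have h0 : P u ≠ 0 := fun e => h1 (by rw [h.eq, e, map_zero])
  refine OG.ext fun z => ?_
  obtain ⟨α, β, e⟩ := exists_coord h.hr (k := k) (fun t e => by
    subst e
    rw [smul_one_smul] at h2 h3
    rw [polar_smul_right, polar_self', smul_eq_mul, mul_eq_zero] at h3
    exact h3.elim (fun e => h2 (by simp [e])) (mul_ne_zero h.h2 h1)) (polar P u z / (2 * P u))
  obtain ⟨w, rfl, hw⟩ : ∃ w, z = w + (α • u + β • k • u) ∧ polar P u w = 0 := by
    refine ⟨z - (α • u + β • k • u), by simp, ?_⟩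
    have := h.h2K
    rw [show α • u + β • k • u = (α • (1 : K) + β • k) • u by simp [add_smul], e,
      polar_sub_right, polar_smul_right, polar_self', smul_eq_mul]
    field_simp
    ring
  have h4 : polar Q u w = 0 := by rw [h.pol, hw, map_zero]
  have h5 : polar Q (k • u) w = 0 := by rw [h.pol, polar_smul_left, hw, smul_zero, map_zero]
  have h6 : (h.res (refl P u)).1 (k • u) = -(k • u) := by
    rw [res_apply, LinearEquiv.map_smul, refl_apply_self h0, smul_neg]
  simp only [map_add, LinearEquiv.map_smul, h6, OG.mul_apply, refl_apply_self h2, map_neg,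
    refl_apply_of_polar_eq_zero h3, refl_apply_of_polar_eq_zero h4, refl_apply_of_polar_eq_zero h5,
    refl_apply_of_polar_eq_zero ((polar_comm _ _ _).trans h3), refl_apply_self h1]
  rw [res_apply, res_apply, refl_apply_of_polar_eq_zero hw, refl_apply_self h0]

variable [FiniteDimensional K V] [FiniteDimensional F V]

theorem res_refl {v : V} (hv : P v ≠ 0) : LinearMap.det (h.res (refl P v)).1.toLinearMap = 1 ∧
    (Sp1 (h.res (refl P v)) ↔ ¬ IsSquare (P v)) := by
  obtain ⟨a, ha⟩ := exists_tr_sq h.hr h.h2 hv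
  have ha0 : a ≠ 0 := by rintro rfl; simp at ha
  rw [← refl_smul ha0, ← isSquare_mul_self_mul_iff ha0, ← Q_smul]
  rw [← Q_smul, ← h.eq] at ha
  generalize a • v = u at ha
  have h0 : P u ≠ 0 := fun e => ha (by rw [h.eq, e, map_zero])
  obtain ⟨ω, ε, h1, h3, h4, h5⟩ := exists_omega h.hr h.h2
  have hε : ε ≠ 0 := by rintro rfl; simp at h5
  have h6 : Q ((ω / P u) • u) * norm F (P u) = ε * Q u := (algebraMap F K).injective (by
    rw [h.eq, Q_smul, show ω / P u * (ω / P u) * P u = ε • (P u)⁻¹ by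
      rw [Algebra.smul_def, h4]; field_simp, map_smul, smul_eq_mul, h.eq]
    simp only [map_mul, qtr_eq h.hr, qnm_eq h.hr, inv_pow]
    field_simp
    ring)
  have h7 : Q ((ω / P u) • u) ≠ 0 := fun e => mul_ne_zero hε ha (by rw [← h6, e, zero_mul])
  rw [← h.refl_mul ha h7 (by
    rw [h.pol, polar_smul_right, polar_self', smul_eq_mul, show ω / P u * (2 * P u) = ω + ω by
      field_simp; ring, map_add, h3, add_zero])]
  refine ⟨by rw [det_mul, det_refl ha, det_refl h7]; simp, ?_⟩
  have h8 := sp1_reflProd h.hQ h.h2 (l := [u, (ω / P u) • u]) (by simp [ha, h7])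
  have h9 := isSquare_mul_iff_of_finite h7 (Algebra.norm_ne_zero_iff.2 h0)
  rw [h6, isSquare_mul_iff_of_finite hε ha, isSquare_norm_iff h.hr h.h2 h0] at h9
  simp only [reflProd_cons, reflProd_nil, mul_one, List.map_cons, List.map_nil, List.prod_cons,
    List.prod_nil, isSquare_mul_iff_of_finite ha h7] at h8
  tauto

theorem res_sp1 (g : OG P) : LinearMap.det (h.res g).1.toLinearMap = 1 ∧
    (Sp1 (h.res g) ↔ (Sp1 g ↔ LinearMap.det g.1.toLinearMap = 1)) := by
  obtain ⟨l, hl, rfl⟩ := exists_reflProd (nondeg_of_ofQuad h.hP)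
    (Or.inl (card_ne_two_of_two_ne_zero h.h2K)) g
  rw [det_reflProd hl, neg_one_pow_eq_one_iff_even fun e => h.h2K (by linear_combination -e)]
  induction l with
  | nil => simp [reflProd_nil, sp1_one]
  | cons v l ih =>
    obtain ⟨h1, h3⟩ := ih fun w hw => hl w (List.mem_cons_of_mem _ hw)
    obtain ⟨h4, h5⟩ := h.res_refl (hl v List.mem_cons_self)
    have h6 := sp1_reflProd h.hP h.h2K (l := [v]) (by simpa using hl v List.mem_cons_self)
    rw [reflProd_singleton] at h6
    rw [reflProd_cons, map_mul, det_mul, h1, h4, sp1_mul h.hQ h.h2, sp1_mul h.hP h.h2K, h3, h5, h6,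
      List.length_cons, Nat.even_add_one]
    simp only [List.map_cons, List.map_nil, List.prod_cons, List.prod_nil, mul_one, true_and]
    generalize IsSquare (P v) = A, Sp1 (reflProd P l) = B, Even l.length = C
    clear * -
    tauto

theorem dsq_res {g : OG P} (hg : g.1.toLinearMap ^ 2 = 1) :
    Dsq Q (fix (-(h.res g).1.toLinearMap)) ↔
      (Dsq P (fix (-g.1.toLinearMap)) ↔ Even (finrank K (fix (-g.1.toLinearMap)))) := by
  have h1 : (h.res g).1.toLinearMap ^ 2 = 1 := LinearMap.ext fun v => LinearMap.congr_fun hg v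
  rw [(on_of_invol h.hQ h.h2 h1).dsq_iff h.hQ (nd_fix_invol h.hQ h.h2
      ((ofQuad_isIso _ _).2 (h.res g).2) h1).2, (on_of_invol h.hP h.h2K hg).dsq_iff h.hP
      (nd_fix_invol h.hP h.h2K ((ofQuad_isIso _ _).2 g.2) hg).2, (h.res_sp1 g).2, det_invol h.h2K hg,
    neg_one_pow_eq_one_iff_even fun e => h.h2K (by linear_combination -e)]

theorem dsq_top : Dsq Q ⊤ ↔ (Dsq P ⊤ ↔ Even (finrank K V)) := by
  have h1 := h.dsq_res (g := negOG P) (by ext v; simp [pow_two, negOG_apply])
  rwa [show fix (-(h.res (negOG P)).1.toLinearMap) = ⊤ from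
      eq_top_iff.2 fun v _ => by simp [mem_fix, res_apply, negOG_apply],
    show fix (-(negOG P).1.toLinearMap) = ⊤ from eq_top_iff.2 fun v _ => by
      simp [mem_fix, negOG_apply], finrank_top] at h1

theorem finrank_eq : finrank F V = 2 * finrank K V := by rw [← h.hr, finrank_mul_finrank]

theorem plus_iff {m : ℕ} (hm : finrank K V = 2 * m) :
    Plus (ofQuad Q) ⊤ ↔ Plus (ofQuad P) ⊤ := by
  rw [plus_iff_dsq h.hQ h.h2 (nd_top h.hQ) (finrank_top F V ▸ h.finrank_eq), h.dsq_top,
    plus_iff_dsq h.hP h.h2K (nd_top h.hP) (finrank_top K V ▸ hm), hm,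
    isSquare_pow_iff' (by simp), isSquare_pow_iff' (by simp)]
  simp [isSquare_neg_one_ext h.hr h.h2]

theorem adjust (hd : 2 ≤ finrank K V) {x g a : OG Q} (h1 : SemiK K (g⁻¹ * x * g).1)
    (h3 : SemiK K ((g * a)⁻¹ * x * (g * a)).1) (ha : LinearMap.det a.1.toLinearMap = -1) :
    ∃ g ∈ commutator (OG Q), SemiK K (g⁻¹ * x * g).1 := by
  obtain ⟨g, h1, h4⟩ : ∃ g : OG Q, SemiK K (g⁻¹ * x * g).1 ∧ LinearMap.det g.1.toLinearMap = 1 := by
    obtain ⟨l, hl, rfl⟩ := exists_reflProd (nondeg_of_ofQuad h.hQ)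
      (Or.inl (card_ne_two_of_two_ne_zero h.h2)) g
    rcases neg_one_pow_eq_or F l.length with e | e
    · exact ⟨_, h1, (det_reflProd hl).trans e⟩
    · exact ⟨_, h3, by rw [det_mul, det_reflProd hl, e, ha]; simp⟩
  by_cases h5 : Sp1 g
  · exact ⟨g, (mem_commutator_iff_sp1 h.hQ h.h2 g).2 ⟨h4, h5⟩, h1⟩
  obtain ⟨v, -, hv⟩ := quad_exists_eq (P := ofQuad P) rfl (nd_top h.hP) (by simpa) 1
  replace hv : P v = 1 := hv
  obtain ⟨h6, h7⟩ := h.res_refl (v := v) (by simp [hv])
  refine ⟨g * h.res (refl P v), (mem_commutator_iff_sp1 h.hQ h.h2 _).2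
    ⟨by rw [det_mul, h4, h6, one_mul], by simp [sp1_mul h.hQ h.h2, h5, h7, hv]⟩, ?_⟩
  rw [mul_inv_rev, ← map_inv, ← mul_assoc, mul_assoc _ g⁻¹, mul_assoc _ (g⁻¹ * x)]
  exact SemiK.mul' (SemiK.mul' (h.semiK_res _) h1) (h.semiK_res _)

theorem conj_invol {x : OG Q} (hx : x ∈ commutator (OG Q)) (h1 : x.1.toLinearMap ^ 2 = 1)
    (h3 : x.1.toLinearMap ≠ 1) (h4 : -x.1.toLinearMap ≠ 1) :
    ∃ g ∈ commutator (OG Q), SemiK K (g⁻¹ * x * g).1 := by
  have hx' : Isom (ofQuad Q) x.1.toLinearMap := (ofQuad_isIso _ _).2 x.2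
  obtain ⟨⟨s, hs⟩, h5⟩ := (inO_invol h.hQ h.h2 hx' h1).1 ((inO_iff x).2 hx)
  have h6 := finrank_fix_invol h.hQ h.h2 hx' h1
  have h7 : ∀ T : End F V, T ≠ 1 → finrank F (fix T) < finrank F V := fun T hT =>
    Submodule.finrank_lt fun e => hT (LinearMap.ext fun v => mem_fix.1 (e ▸ Submodule.mem_top))
  have h8 := h7 _ h3
  have h9 := h7 _ h4
  have h10 := h.finrank_eq
  obtain ⟨W, -, w1, w2, w3⟩ := exists_dsq h.hP h.h2K (nd_top h.hP) (s := s) (by omega)
    (by rw [finrank_top]; omega) (Even s)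
  obtain ⟨T, t1, t2, -, rfl⟩ := exists_invol h.hP h.h2K w1
  obtain ⟨t, rfl⟩ := exists_og h.hP t1
  have y1 : (h.res t).1.toLinearMap ^ 2 = 1 := LinearMap.ext fun v => LinearMap.congr_fun t2 v
  have y2 := (nd_fix_invol h.hQ h.h2 ((ofQuad_isIso _ _).2 (h.res t).2) y1).2
  have y3 : finrank F (fix (-(h.res t).1.toLinearMap)) = 2 * s := by
    rw [← w2, ← h.finrank_res]
    exact congrArg (fun U : Submodule F V => finrank F U) (Submodule.ext fun v => by
      simp [mem_fix, res_apply])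
  have x2 := (nd_fix_invol h.hQ h.h2 hx' h1).2
  obtain ⟨e, e1, e2⟩ := quad_nd_trans rfl h.hQ y2 x2 (y3 ▸ even_two_mul s) (by omega) (by
    rw [plus_iff_dsq h.hQ h.h2 y2 y3, plus_iff_dsq h.hQ h.h2 x2 (hs.trans (two_mul s).symm),
      h.dsq_res t2, w2]
    simp [w3, h5])
  let g : OG Q := ⟨e, (ofQuad_isIso _ _).1 e1⟩
  have key : g⁻¹ * x * g = h.res t := by
    refine On.unique h.hQ y2 ⟨fun w hw => ?_, fun z hz => ?_⟩ (on_of_invol h.hQ h.h2 y1)
    · rw [OG.mul_apply, OG.mul_apply, (on_of_invol h.hQ h.h2 h1).1 _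
        (e2 ▸ Submodule.mem_map_of_mem hw)]
      simp
    · rw [OG.mul_apply, OG.mul_apply, (on_of_invol h.hQ h.h2 h1).2 _
        (e2 ▸ map_le_perp_map e1 le_rfl (Submodule.mem_map_of_mem hz)), OG.inv_apply_self]
  obtain ⟨u, hu, hu0⟩ := quad_exists_ne rfl y2 (by rintro e; rw [e, finrank_bot] at y3; omega)
  refine h.adjust (by omega) (key ▸ h.semiK_res t) ?_ (det_refl (v := u) hu0)
  have h11 := conj_refl (h.res t) u
  rw [show (h.res t).1 u = -u from (on_of_invol h.hQ h.h2 y1).1 u hu, refl_neg,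
    mul_inv_eq_iff_eq_mul] at h11
  rw [mul_inv_rev, ← mul_assoc, mul_assoc _ g⁻¹, mul_assoc _ (g⁻¹ * x), key, mul_assoc, h11,
    inv_mul_cancel_left]
  exact h.semiK_res t

theorem exists_neg [Nontrivial V] (hD : Dsq Q ⊤) : ∃ y a : OG Q, SemiK K y.1 ∧
    SemiK K (a⁻¹ * y * a).1 ∧ LinearMap.det a.1.toLinearMap = -1 ∧ ∀ v, y.1 (y.1 v) = -v := by
  haveI := Fintype.ofFinite K
  have hK : Fintype.card K = Fintype.card F ^ 2 := by rw [Module.card_eq_pow_finrank (K := F), h.hr]
  obtain ⟨q1, q2, -, q3⟩ := half_card h.hr h.h2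
  obtain ⟨c, hc, hc1⟩ : ∃ c : K, ¬ IsSquare c ∧ trace F K c ≠ 0 := by
    obtain ⟨c, hc⟩ := FiniteField.exists_nonsquare q3
    obtain ⟨a, ha⟩ := exists_tr_sq h.hr h.h2 (c := c) (by rintro rfl; simp at hc)
    exact ⟨_, by rwa [isSquare_mul_self_mul_iff (by rintro rfl; simp at ha)], ha⟩
  have hc0 : c ≠ 0 := by rintro rfl; simp at hc
  let P' : QuadraticForm K (Fin (finrank K V) → K) := weightedSumSquares K fun _ => c
  have p1 : ∀ v, P' v = ∑ i, c * (v i * v i) := weightedSumSquares_apply _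
  have p2 : ∀ i w, polar P' (Pi.single i 1) w = 2 * c * w i := fun i w => by
    simp only [polar, p1, ← Finset.sum_sub_distrib, Pi.add_apply]
    rw [Finset.sum_eq_single i (fun j _ e => by simp [e]) (by simp)]
    simp; ring
  have p3 : ∀ i, P' (Pi.single i 1) = c := fun i => by
    rw [p1, Finset.sum_eq_single i (fun j _ e => by simp [e]) (by simp)]; simp
  obtain ⟨b, b1, b2⟩ := exists_orth_basis (nondeg_of_ofQuad h.hP) h.h2K
  obtain ⟨e, he⟩ := exists_equiv_of_isSquare_disc h.h2K (Q' := P') (nondeg_of_ofQuad h.hP)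
    (nondegenerate_of_polar fun x hx => funext fun i => by
      simpa [h.h2K, hc0] using (p2 i x).symm.trans ((polar_comm _ _ _).trans (hx _)))
    b (Pi.basisFun K _) rfl (by
      rw [det_gram_of_orth b1, det_gram_of_orth fun i j hij => by simp [p2, hij],
        mul_mul_mul_comm, isSquare_mul_self_mul_iff (pow_ne_zero _ h.h2K)]
      have h1 := h.dsq_top.1 hD
      rw [On.dsq_iff h.hP (g := negOG P) ⟨fun _ _ => rfl, fun z hz => by
        rw [h.hP.right z fun x => hz x trivial, map_zero]⟩ (nd_top h.hP), negOG_eq_reflProd b b1 b2,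
        sp1_reflProd h.hP h.h2K (by simpa using b2), List.map_ofFn, List.prod_ofFn] at h1
      rw [isSquare_mul_iff_of_finite (Finset.prod_ne_zero_iff.2 fun i _ => b2 i)
        (by simp [p3, hc0])]
      simpa [p3, isSquare_pow_iff' hc0, hc] using h1)
  set σ := Unitary.conj hK
  have s1 : ∀ a : F, σ (algebraMap F K a) = algebraMap F K a := fun a => by
    rw [Unitary.conj_apply, ← map_pow, FiniteField.pow_card]
  have s2 : ∀ a, σ (σ a) = a := Unitary.conj_conj hK
  obtain ⟨l, l1, l2⟩ : ∃ l : K, l * σ l = -1 ∧ c * (l * l) = σ c :=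
    ⟨c ^ (Fintype.card F / 2), by
      rw [Unitary.conj_apply, ← pow_succ', ← pow_mul, mul_comm, add_comm, ← q2]
      exact (FiniteField.pow_dichotomy q3 hc0).resolve_left
        (mt (FiniteField.isSquare_iff q3 hc0).2 hc), by
      rw [Unitary.conj_apply]; conv_rhs => rw [q1]
      ring⟩
  let τ : K →ₗ[F] K :=
    { toFun := fun a => l * σ a
      map_add' := fun a b => by rw [map_add, mul_add]
      map_smul' := fun a b => by simp only [Algebra.smul_def, map_mul, s1, RingHom.id_apply]; ring }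
  let y : End F V := (e.symm.restrictScalars F).toLinearMap ∘ₗ τ.compLeft _ ∘ₗ
    (e.restrictScalars F).toLinearMap
  have hy : ∀ v, e (y v) = fun i => l * σ (e v i) := fun v => e.apply_symm_apply _
  have h1 : ∀ v, y (y v) = -v := fun v => e.injective (by
    rw [hy, hy, map_neg]; ext i; simp only [map_mul, s2, Pi.neg_apply]; linear_combination e v i * l1)
  have h3 : ∀ v, Q (y v) = Q v := fun v => (algebraMap F K).injective (by
    have : P (y v) = σ (P v) := by
      rw [← he, ← he, hy, p1, p1, map_sum]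
      exact Finset.sum_congr rfl fun i _ => by
        simp only [map_mul]; linear_combination σ (e v i) * σ (e v i) * l2
    rw [h.eq, h.eq, qtr_eq h.hr, qtr_eq h.hr, this, ← Unitary.conj_apply hK, s2, add_comm]; rfl)
  let Y := OG.mk' Q y (-y) h3 (by simp [h1]) (by simp [h1])
  have h4 : SemiK K Y.1 := fun k => ⟨σ k, fun v => e.injective (by
    change e (y _) = e (_ • y v)
    rw [e.map_smul, hy, hy, e.map_smul]
    ext i
    simp [mul_left_comm])⟩
  let i : Fin (finrank K V) := ⟨0, finrank_pos⟩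
  let u := e.symm (Pi.single i 1)
  have h5 : Q u ≠ 0 := by rwa [h.eq, ← he, e.apply_symm_apply, p3]
  have h6 : y u = l • u := e.injective (by
    rw [hy, e.map_smul, e.apply_symm_apply]
    ext j
    by_cases hj : j = i <;> simp [hj])
  have h7 := h.refl_mul h5 (k := l) (by rwa [← h6, h3]) (by
    have := OG.map_polar Y u (y u)
    change polar Q (y u) (y (y u)) = _ at this
    rw [h1, polar_neg_right, polar_comm] at this
    exact (mul_eq_zero.1 (show 2 * polar Q u (l • u) = 0 by
      rw [← h6]; linear_combination -this)).resolve_left h.h2)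
  refine ⟨Y, refl Q u, h4, ?_, det_refl h5, h1⟩
  rw [← h6, show y u = Y.1 u from rfl, ← conj_refl, ← mul_assoc, mul_inv_eq_iff_eq_mul,
    ← mul_assoc] at h7
  rw [refl_inv, h7]
  exact SemiK.mul' (h.semiK_res _) h4

end TD

end CfsgLib.ElusF
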