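import Mathlib
import Cfsg.Agent.Lib.ElusF.OrthExt
import Cfsg.Agent.Lib.OMax.ExtMain

/-!
Elements of prime order and orthogonal groups over a quadratic extension.
-/

set_option autoImplicit false
set_option linter.unusedSectionVars false

namespace CfsgLib.ElusF

open CfsgLib.Forms CfsgLib.ClMax CfsgLib.Elusive CfsgLib.Elus2 CfsgLib.Orth CfsgLib.MatConj Module
  QuadraticMap Matrix CfsgLib.ElusH CfsgLib.Asch Cfsg.Geo Polynomial

theorem spo_split_two (q d : ℕ) : ∃ N, spo q d = spo (q ^ 2) (d / 2) * N ∧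
    ∀ r : ℕ, r.Prime → r ∣ N → ∃ i, ¬ 2 ∣ i ∧ r ∣ q ^ (2 * i) - 1 := by
  obtain ⟨N, h1, h2⟩ := spo_split (q := q) two_pos (d / 2)
  rcases Nat.even_or_odd' d with ⟨m, rfl | rfl⟩
  · rw [Nat.mul_div_cancel_left _ two_pos] at h1 ⊢
    exact ⟨N, h1, h2⟩
  · rw [show (2 * m + 1) / 2 = m by omega] at h1 ⊢
    exact ⟨N * _, by rw [spo_succ, h1, mul_assoc], fun r hr h =>
      (hr.dvd_mul.1 h).elim (h2 r hr) fun h => ⟨_, by omega, h⟩⟩

theorem cc_sq {i : ℕ} (h : i % 4 ≠ 0) : (if Even (i / i.gcd 2) then i / i.gcd 2 else 2 * (i / i.gcd 2))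
    = if Even i then i else 2 * i := by
  rw [Nat.gcd_comm, Nat.gcd_rec]
  simp only [Nat.even_iff]
  rcases Nat.mod_two_eq_zero_or_one i with e | e <;> simp only [e] <;> simp <;>
    first | omega | (split_ifs <;> omega)

section abs

variable {F V : Type*} [Field F] [AddCommGroup V] [Module F V] {Q : QuadraticForm F V}

theorem isom_ofQuad : (ofQuad Q).isom = OG Q := Subgroup.ext fun g => ofQuad_isIso Q g.toLinearMap

variable [Fintype F] [FiniteDimensional F V] {p r : ℕ} [hp : Fact p.Prime] [CharP F p]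
  [hr : Fact r.Prime]

theorem exists_eichler (hQ : (ofQuad Q).Nondeg) (h2 : (2 : F) ≠ 0) (hn : 4 ≤ finrank F V) :
    ∃ T, Isom (ofQuad Q) T ∧ T ^ p = 1 ∧
      finrank F (LinearMap.range ((T - 1) * (T - 1))) = 1 := by
  obtain ⟨w, -, hw⟩ := quad_exists_ne rfl (nd_top hQ) (by
    intro e; have := finrank_top F V; rw [e, finrank_bot] at this; omega)
  have h1 := (nd_top hQ).finrank_inf_perp hQ (A := Submodule.span F {w}) le_top
  rw [quad_finrank_line rfl hw, finrank_top] at h1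
  obtain ⟨u, hu, hu0, hu1⟩ := quad_exists_sing (P := ofQuad Q) rfl
    (U := ⊤ ⊓ (ofQuad Q).perp (Submodule.span F {w})) (by omega)
  replace hu1 : Q u = 0 := hu1
  replace hw : Q w ≠ 0 := hw
  have h3 : polar Q u w = 0 :=
    (polar_comm _ _ _).trans ((PQ.mem_perp_span_singleton (ofQuad Q)).1 hu.2)
  have h4 : ∀ n : ℕ, eichlerMap Q u w ^ n = eichlerMap Q u ((n : F) • w) := fun n => by
    induction n with
    | zero => ext z; simp [eichlerMap_zero]
    | succ n ih =>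
      ext z
      rw [pow_succ, ih, End.mul_apply, eichlerMap_eichlerMap hu1 (by simp [h3]) h3, Nat.cast_succ,
        add_smul, one_smul]
  have h5 : ∀ z, ((eichlerMap Q u w - 1) * (eichlerMap Q u w - 1)) z =
      (-(2 * Q w) * polar Q u z) • u := fun z => by
    simp [eichlerMap_apply, hu1, h3, polar_comm _ w u]
    module
  refine ⟨eichlerMap Q u w, (ofQuad_isIso _ _).2 (Q_eichlerMap hu1 h3), by
    ext z; simp [h4, eichlerMap_zero], ?_⟩
  rw [← finrank_span_singleton (K := F) hu0]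
  refine congrArg (fun U : Submodule F V => finrank F U)
    (le_antisymm ?_ ((Submodule.span_singleton_le_iff_mem _ _).2 ?_))
  · rintro _ ⟨z, rfl⟩
    exact h5 z ▸ Submodule.smul_mem _ _ (Submodule.mem_span_singleton_self u)
  · obtain ⟨z, hz⟩ := exists_polar_eq (nondeg_of_ofQuad hQ) hu0 (-(2 * Q w))⁻¹
    exact ⟨z, by rw [h5, hz, mul_inv_cancel₀ (neg_ne_zero.2 (mul_ne_zero h2 hw)), one_smul]⟩

theorem exists_one_block (hQ : (ofQuad Q).Nondeg) (hrp : r ≠ p) (h2 : r ≠ 2) {S : End F V}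
    (hS : Isom (ofQuad Q) S) (h1 : S ^ r = 1) (h3 : S ≠ 1) : ∃ T, Isom (ofQuad Q) T ∧ T ^ r = 1 ∧
      T ≠ 1 ∧ finrank F (LinearMap.range (T - 1)) = cc F r := by
  have hd := sd_cc (F := F) hrp h2
  have hc := cc_pos (F := F) hrp h2
  obtain ⟨k, k1, k2, k3⟩ := exists_k hQ hrp hd hS h1 h3
  obtain ⟨t, t1, t2, t3, -⟩ := hd.exists_mult (fun _ => rfl) hrp 1
  obtain ⟨T, h4, h5⟩ := quad_exists_ss rfl hQ hrp h2 rfl (c := cc F r) rfl 1 t
    ((Nat.mul_le_mul_left _ k1).trans k2) (fun e => by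
      obtain rfl : k = 1 := le_antisymm (Nat.le_of_mul_le_mul_left (e ▸ k2) hc) k1
      exact (quad_fix_facts rfl hQ hrp h2 rfl rfl hS h1 k3).1 e) t1 t2 t3
  obtain ⟨h6, h7, h8, -⟩ := exists_of_ed hQ hrp hd h4 t1 le_rfl t3 h5
  exact ⟨T, h4, h6, h7, by rw [← perp_fix_eq_range hQ h4, h8, mul_one]⟩

variable {K : Type*} [Field K] [Algebra F K] [Module K V] [IsScalarTower F K V] [Finite K]
  [FiniteDimensional K V] {P : QuadraticForm K V}

theorem TD.rank (h : TD Q P) (hrp : r ≠ p) (h2 : r ≠ 2)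
    (h4 : orderOf (Fintype.card F : ZMod r) % 4 ≠ 0) {T : End F V}
    (hc : ∀ (k : K) v, T (k • v) = k • T v) (hT : Isom (ofQuad Q) T) (hr : T ^ r = 1) :
    2 * cc F r ∣ finrank F (LinearMap.range (T - 1)) := by
  haveI := Fintype.ofFinite K
  haveI := charP_of_injective_algebraMap (algebraMap F K).injective p
  have h1 := h.isom hc hT
  have h3 : extEnd T hc ^ r = 1 := LinearMap.ext fun v => by rw [extEnd_pow, hr]; rfl
  obtain ⟨k, hk, -⟩ := (sd_cc hrp h2).multiples h.hP hrp h1 h3 le_rfl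
    ((nd_fix h.hP hrp h1 h3).perp h.hP) (Inv.perp h.hP h1 (inv_fix _))
  rw [finrank_range_extEnd hc, h.hr, ← perp_fix_eq_range h.hP h1, hk]
  refine mul_dvd_mul_left _ (Dvd.dvd.mul_right (dvd_of_eq ?_) _)
  rw [cc, cc, Module.card_eq_pow_finrank (K := F) (V := K), h.hr, Nat.cast_pow,
    orderOf_pow' _ two_ne_zero, cc_sq h4]

theorem TD.index (h : TD Q P) (hd : 2 ≤ finrank K V) (hrp : r ≠ p) (h2 : r ≠ 2) {I : ℕ}
    (hI : r ∣ I) (h1 : I * Nat.card (commutator (OG P)) ∣ Nat.card (OG Q)) :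
    orderOf (Fintype.card F : ZMod r) % 4 ≠ 0 := by
  haveI := Fintype.ofFinite K
  have hq : 1 < Fintype.card F := Fintype.one_lt_card
  have h3 := (commutator (OG P)).index_mul_card
  rw [index_commutator_of_two_ne_zero (nondeg_of_ofQuad h.hP) h.h2K hd] at h3
  obtain ⟨a, u, u₀, h4, -, h5⟩ := quad_card rfl h.hQ
  obtain ⟨b, u₁, u', -, h6, h7⟩ := quad_card rfl h.hP
  have h8 := h.finrank_eq
  obtain ⟨d, hd'⟩ : ∃ d, finrank K V = d + 1 := ⟨finrank K V - 1, by omega⟩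
  rw [isom_ofQuad, Module.card_eq_pow_finrank (K := F) (V := K), h.hr] at *
  have h9 : u * u' ∣ Fintype.card F ^ (2 * (d + 1)) - 1 := by
    have e : Fintype.card F ^ (2 * (d + 1)) - 1 =
        (Fintype.card F ^ (d + 1) + 1) * (Fintype.card F ^ (d + 1) - 1) := by
      rw [mul_comm 2, pow_mul, ← one_pow 2, Nat.sq_sub_sq, one_pow]
    rw [e]
    rcases h7 with ⟨-, rfl⟩ | ⟨m, hm, h7⟩
    · rcases h5 with ⟨rfl, -⟩ | ⟨k, hk, ⟨-, rfl, -⟩ | ⟨-, rfl, -⟩⟩
      · simp
      all_goals simp [show k = d + 1 by omega]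
    · rw [← pow_mul, ← hm, hd', ← h.plus_iff hm] at h7
      rcases h5 with ⟨rfl, -⟩ | ⟨k, hk, h5⟩
      · rcases h7 with ⟨-, -, rfl⟩ | ⟨-, -, rfl⟩ <;> simp
      · obtain rfl : k = d + 1 := by omega
        rcases h7 with ⟨h7, -, rfl⟩ | ⟨h7, -, rfl⟩ <;> rcases h5 with ⟨h5, rfl, -⟩ | ⟨h5, rfl, -⟩ <;>
          first | contradiction | simp [mul_comm]
  obtain ⟨N, h10, h11⟩ := spo_split_two (Fintype.card F) (d + 1)
  rw [h8, hd', show (2 * (d + 1) - 1) / 2 = d by omega] at h4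
  have h12 : r ∣ 2 ^ 3 * Fintype.card F ^ a * N := by
    refine Nat.dvd_of_mul_dvd_mul_right (Nat.pos_of_ne_zero (spo_ne_zero
      (q := Fintype.card F ^ 2) (Nat.one_lt_pow two_ne_zero hq) ((d + 1) / 2))) ?_
    rw [mul_assoc, mul_comm N, ← h10, spo_succ, ← hd']
    refine (mul_dvd_mul hI h6).trans ?_
    rw [← h3]
    calc I * (4 * Nat.card (commutator (OG P)) * u')
        = 4 * (I * Nat.card (commutator (OG P))) * u' := by ring
      _ ∣ 4 * (Fintype.card F ^ a * (spo (Fintype.card F) d * (2 * u))) * u' :=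
        mul_dvd_mul_right (mul_dvd_mul_left _ (h1.trans h4)) _
      _ = 2 ^ 3 * Fintype.card F ^ a * (spo (Fintype.card F) d * (u * u')) := by ring
      _ ∣ _ := mul_dvd_mul_left _ (mul_dvd_mul_left _ (hd' ▸ h9))
  obtain ⟨i, h13, h14⟩ := h11 r hr.out ((hr.out.dvd_mul.1 h12).resolve_left fun e =>
    (hr.out.dvd_mul.1 e).elim (fun e => h2 ((Nat.prime_dvd_prime_iff_eq hr.out Nat.prime_two).1
      (hr.out.dvd_of_dvd_pow e))) fun e => not_dvd_card hrp (hr.out.dvd_of_dvd_pow e))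
  have := (dvd_pow_sub_one_iff (by omega) _).1 h14
  intro e
  have := (Nat.dvd_of_mod_eq_zero e).trans this
  omega

end abs

variable {F : Type*} [Field F] {ι : Type} [Fintype ι] [DecidableEq ι] {Q : QuadraticForm F (ι → F)}

theorem sm_gram {A : Matrix ι ι F} (h : ∀ v, Q (A *ᵥ v) = Q v) :
    Sm (RingHom.id F) (gram Q (Pi.basisFun F ι)) A 1 := by
  rw [sm_iff]
  intro u v
  simp [gform_id, gram_eq_toMatrix, LinearMap.BilinForm.toMatrix_basisFun, polar, ← mulVec_add, h]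

variable [Fintype F] {p r : ℕ} [hp : Fact p.Prime] [CharP F p] [hr : Fact r.Prime]

theorem quad_conj_neg (h2 : 2 ≠ p) (hQ : (polarBilin Q).Nondegenerate) {x y : OG Q}
    (hx : ∀ v, x.1 (x.1 v) = -v) (hy : ∀ v, y.1 (y.1 v) = -v) : ∃ g : OG Q, g⁻¹ * x * g = y := by
  have h2' := (two_ne_zero_iff (F := F)).2 h2
  obtain ⟨_, hadj⟩ := exists_adjoint_star (polarBilin Q) hQ (ε := 1) fun x y => by
    simp [polar_comm]
  have key : ∀ x : OG Q, (∀ v, x.1 (x.1 v) = -v) → ∃ A : Matrix ι ι F, (∀ v, A *ᵥ v = x.1 v) ∧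
      Sm (RingHom.id F) (gram Q (Pi.basisFun F ι)) A 1 ∧ A * A = -1 ∧ star A * A = 1 := fun x hx => by
    have h := toOG_symm_mulVec Q x
    exact ⟨_, h, sm_gram fun v => by rw [h, x.2], matrix_eq_of_mulVec fun v => by
      rw [← mulVec_mulVec, h, h, hx, neg_mulVec, one_mulVec],
      (star_mul_self_eq_one_iff hQ hadj).2 fun u v => by simp [h, OG.map_polar]⟩
  obtain ⟨A, a1, a2, a3, a4⟩ := key y hy
  obtain ⟨B, b1, b2, b3, b4⟩ := key x hx
  obtain ⟨P, hP⟩ := isConj_of_sq_neg h2 (det_gram_ne_zero hQ _) a2 b2 a3 b3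
  obtain ⟨e, -, k, c, -, hek, he, -, -, -, hc, hφ⟩ :=
    exists_partial_isometry' P (mul_eq_one_comm.1 a4) b4 hP.eq
  obtain rfl : 1 = e := by
    rw [pow_two, a3, show (-1 - 1 : Matrix ι ι F) = (-2 : F) • 1 by
      rw [neg_smul, two_smul]; abel, _root_.smul_pow, one_pow] at hek
    rw [hek, smul_mul_smul_comm, one_mul] at he
    have h0 : (-2 : F) ^ k ≠ 0 := pow_ne_zero _ (neg_ne_zero.2 h2')
    rw [hek, ← inv_smul_smul₀ h0 ((-2 : F) ^ k • (1 : Matrix ι ι F)), smul_smul ((-2 : F) ^ k), he,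
      inv_smul_smul₀ h0]
  rw [mul_one, star_mul_self_eq_one_iff hQ hadj] at hφ
  refine ⟨OG.ofMap hQ (toLin' (P * c : Matrix ι ι F)) fun v => mul_left_cancel₀ h2' (by
    rw [← polar_self', ← polar_self']; exact hφ v v), ?_⟩
  rw [mul_assoc, inv_mul_eq_iff_eq_mul]
  refine OG.ext fun v => ?_
  rw [OG.mul_apply, OG.mul_apply, OG.ofMap_apply, OG.ofMap_apply, ← a1, ← b1, toLin'_apply,
    toLin'_apply, mulVec_mulVec, mulVec_mulVec, mul_assoc, ← hc.eq, ← mul_assoc, ← mul_assoc, hP.eq]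

variable (Q) in
/-- The matrix of an isometry. -/
noncomputable def oGL : OG Q →* GL ι F :=
  (Cfsg.isometryGroup F Q).subtype.comp (toOG Q).symm.toMonoidHom

theorem oGL_mulVec (g : OG Q) (v : ι → F) : (oGL Q g : Matrix ι ι F) *ᵥ v = g.1 v :=
  toOG_symm_mulVec Q g v

theorem oGL_injective : Function.Injective (oGL Q) :=
  Subtype.val_injective.comp (toOG Q).symm.injective

theorem mem_omegaGL_oGL {x : GL ι F} :
    x ∈ omegaGL Q ↔ ∃ g ∈ commutator (OG Q), oGL Q g = x :=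
  ⟨fun ⟨y, hy, e⟩ => ⟨toOG Q y, (mem_Omega_iff Q y).1 hy, by simpa [oGL] using e⟩,
    fun ⟨g, hg, e⟩ => ⟨(toOG Q).symm g, (mem_Omega_iff Q _).2 (by simpa using hg), e⟩⟩

theorem toLin'_oGL (g : OG Q) : toLin' (oGL Q g : Matrix ι ι F) = g.1.toLinearMap :=
  LinearMap.ext (oGL_mulVec g)

theorem elu_omega_ext.{u} {F : Type u} [Field F] [Fintype F] [CharP F p] (h2 : 2 ≠ p)
    {Q : QuadraticForm F (ι → F)} (hQ : (polarBilin Q).Nondegenerate) (hn : 4 ≤ Fintype.card ι)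
    {K : Subalgebra F (Matrix ι ι F)} (hK : IsFieldSubalgebra 2 K)
    (hs : IsSelfAdjointFor (polar Q) K) (hΩ : r ∣ (subalgebraNormalizer K).relIndex (omegaGL Q)) :
    Elu (omegaGL Q) (subalgebraNormalizer K) r ↔ r = 2 := by
  have h2' := (two_ne_zero_iff (F := F)).2 h2
  haveI : Nonempty ι := Fintype.card_pos_iff.1 (by omega)
  refine with_ext_field hK fun L _ _ _ _ _ hrK hdim hmem _ hN => ?_
  haveI : FiniteDimensional L (ι → F) := Module.Finite.of_finite
  obtain ⟨P, hP⟩ := OMax.exists_trForm (K := L) (Q := Q) h2' fun k u v => by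
    obtain ⟨a, ha, h⟩ := hmem k
    simpa only [h] using hs a ha u v
  have h : TD Q P := ⟨h2', hrK, ofQuad_nondeg Q hQ, hP⟩
  have hN' : ∀ g : OG Q, oGL Q g ∈ subalgebraNormalizer K ↔ SemiK L g.1 := fun g =>
    hN _ _ fun v => (oGL_mulVec g v).symm
  have h24 : Nat.card F ≠ 2 ∨ finrank F (ι → F) ≠ 4 := Or.inl (card_ne_two_of_two_ne_zero h2')
  constructor
  · intro H
    by_contra hr2
    have ho := hr.out.odd_of_ne_two hr2
    have key : ∀ T, Isom (ofQuad Q) T → T ^ r = 1 → T ≠ 1 → ∃ S, Isom (ofQuad Q) S ∧ S ^ r = 1 ∧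
        (∀ (k : L) v, S (k • v) = k • S v) ∧ ∀ f : F[X],
          finrank F (LinearMap.range (aeval T f)) = finrank F (LinearMap.range (aeval S f)) := by
      intro T h1 h3 h4
      have h5 := inO_of_odd h.hQ h24 ho h1 h3
      obtain ⟨x, rfl⟩ := h5.exists_gl
      have h6 : (x : Matrix ι ι F) ^ r = 1 := toLin'.injective (by rw [toLin'_pow, h3, toLin'_one]; rfl)
      have h7 := pe_of_sm (det_gram_ne_zero hQ _) (sm_gram ((ofQuad_isIso _ _).1 h1)) ho h6
        fun e => h4 (by rw [e, toLin'_one]; rfl)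
      have hx := (mem_omegaGL_iff x).2 h5
      obtain ⟨g, hg, h8⟩ := H x hx (by simpa using h7.1) h7.2
      have hy := mul_mem (mul_mem (inv_mem hg) hx) hg
      have e := isConj_conj g x
      generalize g⁻¹ * x * g = y at h8 hy e
      have h9 : (y : Matrix ι ι F) ^ r = 1 := by simpa [h6] using e.pow r
      have h10 := commute_of_coprime hK h8 ((Nat.coprime_primes hr.out Nat.prime_two).2 hr2) (z := 1)
        (by simpa using h9)
      refine ⟨_, ((mem_omegaGL_iff y).1 hy).isom, by rw [← toLin'_pow, h9, toLin'_one]; rfl,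
        fun c v => ?_, fun f => ?_⟩
      · obtain ⟨a, ha, h⟩ := hmem c
        rw [h, h, toLin'_apply, toLin'_apply, mulVec_mulVec, mulVec_mulVec, (h10 a ha).eq]
      · have t : ∀ A : Matrix ι ι F, aeval (toLin' A) f = toLin' (aeval A f) := fun A =>
          aeval_algHom_apply toLinAlgEquiv' A f
        rw [t, t]
        exact rank_aeval_eq_of_isConj e f
    by_cases hrp : r = p
    · subst hrp
      obtain ⟨T, h1, h3, h4⟩ := exists_eichler (p := r) h.hQ h2' (by simpa)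
      obtain ⟨S, -, -, h5, h6⟩ := key T h1 h3 (by rintro rfl; rw [sub_self, mul_zero, LinearMap.range_zero, finrank_bot] at h4; omega)
      have h7 := finrank_range_extEnd (K := L) (T := (S - 1) * (S - 1) + 1) fun k v => by
        simp [h5, smul_sub]
      have h8 := h6 ((X - 1) * (X - 1))
      rw [map_mul, map_mul, map_sub, map_sub, aeval_X, aeval_X, map_one, map_one] at h8
      rw [add_sub_cancel_right, ← h8, h4, hrK] at h7
      omega
    obtain ⟨x, hx, h1, h3⟩ := exists_orderOf_of_dvd_index hΩ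
    obtain ⟨T, h4, h5, h6, h7⟩ := exists_one_block h.hQ hrp hr2 ((mem_omegaGL_iff x).1 hx).isom
      (by rw [← toLin'_pow, ← Units.val_pow_eq_pow_val, h1, Units.val_one, toLin'_one]; rfl)
      fun e => h3 (Units.ext (toLin'.injective (e.trans toLin'_one.symm)))
    obtain ⟨S, h8, h9, h10, h11⟩ := key T h4 h5 h6
    have h12 := relIndex_mul_dvd (subalgebraNormalizer K) (omegaGL Q)
      ((oGL Q).comp (h.res.comp (commutator (OG P)).subtype))
      (oGL_injective.comp fun a b e => Subtype.ext (OG.ext fun v => congr(($e).1 v)))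
      (fun t => (hN' _).2 (h.semiK_res _))
      fun t => mem_omegaGL_oGL.2 ⟨_, map_mem_commutator h.res t.2, rfl⟩
    have h13 := h.rank hrp hr2 (h.index (by omega) hrp hr2 hΩ (h12.trans (by
      rw [← Nat.card_congr (toOG Q).toEquiv]
      exact Subgroup.card_dvd_of_le (Subgroup.map_subtype_le _)))) h10 h8 h9
    have h14 := h11 (X - 1)
    rw [map_sub, map_sub, aeval_X, aeval_X, map_one, map_one] at h14
    have := cc_pos (F := F) hrp hr2
    have := Nat.le_of_dvd (by omega) h13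
    omega
  · rintro rfl x hx ⟨z, hz⟩ hns
    obtain ⟨x, hx0, rfl⟩ := mem_omegaGL_oGL.1 hx
    suffices ∃ g ∈ commutator (OG Q), SemiK L (g⁻¹ * x * g).1 by
      obtain ⟨g, h1, h3⟩ := this
      exact ⟨_, mem_omegaGL_oGL.2 ⟨g, h1, rfl⟩, by simpa using (hN' _).2 h3⟩
    have hx' : Isom (ofQuad Q) x.1.toLinearMap := (ofQuad_isIso _ _).2 x.2
    rcases pow_cases_of_sm (det_gram_ne_zero hQ _) (sm_gram (A := oGL Q x) fun v => by
      rw [oGL_mulVec, x.2]) (by simpa using hz) with e | e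
    · refine h.conj_invol hx0 (by rw [← toLin'_oGL, ← toLin'_pow, e, toLin'_one]; rfl)
        (fun e => hns 1 (toLin'.injective ?_)) fun e => hns (-1) (toLin'.injective ?_)
      · rw [toLin'_oGL, e, one_smul, toLin'_one]; rfl
      · rw [toLin'_oGL, neg_eq_iff_eq_neg.1 e, neg_smul, one_smul, map_neg, toLin'_one]; rfl
    · have h1 : x.1.toLinearMap ^ 2 = -1 := by
        rw [← toLin'_oGL, ← toLin'_pow, e, map_neg, toLin'_one]; rfl
      obtain ⟨-, -, h3, -⟩ := neg_one_main h.hQ h2' hx' h1 (nd_top h.hQ) fun _ _ => trivial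
      obtain ⟨y, a, h4, h5, h6, h7⟩ := h.exists_neg h3
      obtain ⟨g, rfl⟩ := quad_conj_neg h2 hQ (fun v => LinearMap.congr_fun h1 v) h7
      exact h.adjust (by omega) h4 (by simpa [mul_assoc] using h5) h6

end CfsgLib.ElusF
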