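import Mathlib
import Cfsg.Agent.Lib.ElusF.SpTest
import Cfsg.Agent.Lib.ClMax.SpOrth
import Cfsg.Agent.Lib.Elus2.Polar

/-!
Quadratic forms polarising to an alternating form in characteristic two.
-/

set_option autoImplicit false
set_option linter.unusedSectionVars false

namespace CfsgLib.ElusF

open Matrix CfsgLib.Forms CfsgLib.ClMax CfsgLib.ElusH Module

theorem exists_other_fixed {Γ : Type*} [Group Γ] {S H : Subgroup Γ} [Finite S] {r : ℕ}
    [hr : Fact r.Prime] (h : r ∣ H.relIndex S) {x g : Γ} (hx : x ∈ S) (hxr : x ^ r = 1)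
    (hg : g ∈ S) (hgx : g⁻¹ * x * g ∈ H) : ∃ k ∈ S, k⁻¹ * x * k ∈ H ∧ g⁻¹ * k ∉ H := by
  let x' : S := ⟨x, hx⟩
  have hP : IsPGroup r (Subgroup.zpowers x') := IsPGroup.of_card_dvd_pow (n := 1) (by
    rw [Nat.card_zpowers, pow_one]
    exact orderOf_dvd_of_pow_eq_one (Subtype.ext hxr))
  have key : ∀ k : S, (k : S ⧸ H.subgroupOf S) ∈ MulAction.fixedPoints (Subgroup.zpowers x') _ ↔
      (k : Γ)⁻¹ * x * k ∈ H := fun k => by
    have : (k : Γ)⁻¹ * x * k ∈ H ↔ (k : S ⧸ H.subgroupOf S) ∈ MulAction.fixedBy _ x' := by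
      rw [MulAction.mem_fixedBy, MulAction.Quotient.smul_coe, eq_comm, QuotientGroup.eq,
        Subgroup.mem_subgroupOf]
      simp [x', mul_assoc]
    rw [this, ← MulAction.mem_fixedBy_zpowers_iff_mem_fixedBy]
    exact ⟨fun h j => h ⟨_, j, rfl⟩, fun h ⟨_, j, e⟩ => e ▸ h j⟩
  obtain ⟨b, hb, hne⟩ := hP.exists_fixed_point_of_prime_dvd_card_of_fixed_point
    (S ⧸ H.subgroupOf S) h ((key ⟨g, hg⟩).2 hgx)
  obtain ⟨k, rfl⟩ := QuotientGroup.mk_surjective b
  exact ⟨k, k.2, (key k).1 hb, fun h => hne (QuotientGroup.eq.2 h)⟩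

theorem exists_fixed_vec {F : Type*} [Field F] [Fintype F] {ι : Type} [Fintype ι] [DecidableEq ι]
    {R : Subgroup (GL ι F)} {r k : ℕ} [Fact r.Prime] (hR : Nat.card R = r ^ k)
    (h : ¬ r ∣ Fintype.card F ^ Fintype.card ι - 1) :
    ∃ u : ι → F, u ≠ 0 ∧ ∀ a ∈ R, (a : Matrix ι ι F) *ᵥ u = u := by
  by_contra hn
  push Not at hn
  have h1 := (IsPGroup.of_card hR).card_modEq_card_fixedPoints (ι → F)
  have h2 : MulAction.fixedPoints R (ι → F) = {0} := by
    ext u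
    refine ⟨fun hu => by_contra fun h0 => ?_, by rintro rfl a; exact smul_zero a⟩
    obtain ⟨a, ha, h⟩ := hn u h0
    exact h (hu ⟨a, ha⟩)
  rw [h2, Nat.card_eq_fintype_card, Fintype.card_fun, Nat.card_unique] at h1
  exact h ((Nat.modEq_iff_dvd' (Nat.one_le_pow _ _ Fintype.card_pos)).1 h1.symm)

theorem sp_exists_alt_invol {F : Type*} [Field F] [CharP F 2] {d : ℕ} (hd : Even d) (h0 : 0 < d) :
    ∃ N : Matrix (Fin d ⊕ Fin d) (Fin d ⊕ Fin d) F, N * N = 0 ∧ N ≠ 0 ∧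
      Sm (RingHom.id F) (J (Fin d) F) (1 + N) 1 ∧ (∀ v, spB (Fin d) F v (N *ᵥ v) = 0) ∧
      N.rank = d := by
  obtain ⟨k, hk⟩ := hd
  let e : Fin k ⊕ Fin k ≃ Fin d := finSumFinEquiv.trans (finCongr hk.symm)
  let A : Matrix (Fin d) (Fin d) F := reindex e e (J (Fin k) F)
  have h1 : Aᵀ = -A := by simp only [A, transpose_reindex, J_transpose]; rfl
  have h2 : A.det ≠ 0 := by simpa [A] using det_J_ne (F := F) k
  have h3 : (fromBlocks 0 A 0 0 : Matrix (Fin d ⊕ Fin d) (Fin d ⊕ Fin d) F).rank = d := by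
    have a1 : (fromBlocks 0 A 0 0 : Matrix (Fin d ⊕ Fin d) (Fin d ⊕ Fin d) F) =
        diagonal (Sum.elim 1 0) * fromBlocks 0 A 1 0 := by
      rw [← fromBlocks_diagonal, fromBlocks_multiply]; simp
    have a2 : (fromBlocks 0 A 1 0 : Matrix (Fin d ⊕ Fin d) (Fin d ⊕ Fin d) F) *
        fromBlocks 0 1 A⁻¹ 0 = 1 := by
      rw [fromBlocks_multiply]; simp [mul_nonsing_inv _ h2.isUnit]
    classical
    rw [a1, rank_mul_eq_left_of_isUnit_det _ _ (isUnit_det_of_right_inverse a2), rank_diagonal,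
      Fintype.card_congr Equiv.subtypeSum]
    simp
  refine ⟨fromBlocks 0 A 0 0, by simp [fromBlocks_multiply], fun h => ?_, ?_, fun v => ?_, h3⟩
  · rw [h, rank_zero] at h3; omega
  · rw [sm_id, one_smul, ← fromBlocks_one, fromBlocks_add, J, fromBlocks_transpose,
      fromBlocks_multiply, fromBlocks_multiply]
    simp [h1, show A + A = 0 by ext; simp [CharTwo.add_self_eq_zero]]
  · have := MatConj.isAlt_toBilin' h1 (fun i => by
      obtain ⟨i | i, rfl⟩ := e.surjective i <;> simp [A, J]) (v ∘ Sum.inr)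
    rw [toBilin'_apply'] at this
    rw [spB_apply, mulVec_mulVec, J, fromBlocks_multiply, ← Sum.elim_comp_inl_inr v,
      fromBlocks_mulVec, sumElim_dotProduct_sumElim]
    simpa using this

variable {F V : Type*} [Field F] [AddCommGroup V] [Module F V] {B : LinearMap.BilinForm F V}
  {Q Q' : V → F}

/-- A quadratic form with polar form `B`. -/
structure QB (B : LinearMap.BilinForm F V) (Q : V → F) : Prop where
  add : ∀ u v, Q (u + v) = Q u + Q v + B u v
  smul : ∀ c v, Q (c • v) = c ^ 2 * Q v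

theorem QB.comp (h : QB B Q) {T : V →ₗ[F] V} (hT : ∀ u v, B (T u) (T v) = B u v) :
    QB B fun v => Q (T v) :=
  ⟨fun u v => by rw [map_add, h.add, hT], fun c v => by rw [map_smul, h.smul]⟩

variable [CharP F 2]

theorem QB.shift (h : QB B Q) (w : V) : QB B fun v => Q v + B w v ^ 2 :=
  ⟨fun u v => by rw [map_add, h.add, CharTwo.add_sq]; ring,
    fun c v => by rw [map_smul, h.smul, smul_eq_mul]; ring⟩

theorem QB.exists_tv (hA : B.IsAlt) (h : QB B Q) {w : V} {t : F} (hw : Q w = t ^ 2 + t) :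
    ∃ g ∈ spIso B, ∀ v, Q (g v) = Q v + B w v ^ 2 := by
  have h2 : (2 : F) = 0 := CharTwo.two_eq_zero
  obtain ⟨c, hc⟩ : ∃ c : F, c ^ 2 * Q w + c = 1 := by
    by_cases h0 : Q w = 0
    · exact ⟨1, by simp [h0]⟩
    · exact ⟨t / Q w, by field_simp; linear_combination -hw⟩
  refine ⟨tv hA w c, tv_mem hA w c, fun v => ?_⟩
  rw [tv_apply, h.add, h.smul, map_smul, ← hA.neg_eq w v, smul_eq_mul]
  linear_combination B w v ^ 2 * hc - c * B w v ^ 2 * h2

theorem QB.sum {R : Type*} [Fintype R] (ho : Odd (Fintype.card R)) {Q : R → V → F}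
    (h : ∀ i, QB B (Q i)) : QB B fun v => ∑ i, Q i v :=
  ⟨fun u v => by simp [(h _).add, Finset.sum_add_distrib, CharTwo.natCast_eq_ite, ho,
    ← Nat.not_odd_iff_even], fun c v => by simp [(h _).smul, Finset.mul_sum]⟩

variable [Finite F] [FiniteDimensional F V] (hA : B.IsAlt) (hB : B.Nondegenerate)
include hA hB

theorem QB.exists_w (h : QB B Q) (h' : QB B Q') : ∃ w, ∀ v, Q' v = Q v + B w v ^ 2 := by
  let φ := (frobeniusEquiv F 2).symm
  have hφ : ∀ a, φ a ^ 2 = a := (frobeniusEquiv F 2).apply_symm_apply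
  have hφ' : ∀ a, φ (a ^ 2) = a := (frobeniusEquiv F 2).symm_apply_apply
  obtain ⟨w, hw⟩ := (ofAlt B hA).exists_B_eq (ofAlt_nondeg B hA hB)
    { toFun := fun v => φ (Q' v - Q v)
      map_add' := fun u v => by rw [← map_add, h.add, h'.add]; congr 1; ring
      map_smul' := fun c v => by
        rw [h.smul, h'.smul, ← mul_sub, map_mul, hφ', RingHom.id_apply, smul_eq_mul] }
  refine ⟨w, fun v => ?_⟩
  rw [show B w v = φ (Q' v - Q v) from LinearMap.congr_fun hw v, hφ]; ring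

theorem QB.exists_conj (h : QB B Q) (h' : QB B Q') {u : V} (hu : Q' u ≠ 0) :
    ∃ c : F, ∃ g ∈ spIso B, ∀ v, Q (g v) = Q' v + (c * B u v) ^ 2 := by
  have h2 : (2 : F) = 0 := CharTwo.two_eq_zero
  obtain ⟨w, hw⟩ := h.exists_w hA hB h'
  obtain ⟨c, hc⟩ := exists_sq_eq_of_two_eq_zero h2 (Q w / Q' u)
  obtain ⟨g, hg, e⟩ := h.exists_tv hA (w := w + c • u) (t := c * B w u) (by
    rw [eq_div_iff hu, hw] at hc
    rw [h.add, h.smul, map_smul, smul_eq_mul]
    linear_combination -hc + c ^ 2 * Q u * h2)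
  refine ⟨c, g, hg, fun v => ?_⟩
  rw [e, hw, map_add, map_smul, LinearMap.add_apply, CharTwo.add_sq, add_assoc]; rfl

theorem QB.exists_fixed (h : QB B Q) {T : End F V} (hT : ∀ u v, B (T u) (T v) = B u v) :
    ∃ Q', QB B Q' ∧ ∀ v, Q' (T v) = Q' v := by
  have h2 : (2 : F) = 0 := CharTwo.two_eq_zero
  obtain ⟨c, hc⟩ := h.exists_w hA hB (h.comp hT)
  obtain ⟨ψ, hψ⟩ : B c ∈ LinearMap.range (T - 1).dualMap := by
    rw [LinearMap.range_dualMap_eq_dualAnnihilator_ker, Submodule.mem_dualAnnihilator]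
    intro v hv
    have := hc v
    rw [show T v = v from sub_eq_zero.1 hv] at this
    simpa using this
  obtain ⟨w, rfl⟩ := (ofAlt B hA).exists_B_eq (ofAlt_nondeg B hA hB) ψ
  refine ⟨_, h.shift w, fun v => ?_⟩
  have : B w (T v) - B w v = B c v := by rw [← map_sub]; exact LinearMap.congr_fun hψ v
  rw [hc, ← this]
  linear_combination (B w (T v) ^ 2 - B w (T v) * B w v) * h2

theorem QB.ts (h : QB B Q) {U : Submodule F V} (hU : ∀ u ∈ U, Q u = 0) : (ofAlt B hA).TS U :=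
  (Elus2.alt_ts_iff rfl).2 fun u hu v hv => by
    simpa [hU u hu, hU v hv, hU _ (add_mem hu hv), ofAlt_B] using (h.add u v).symm

theorem QB.conj_of_plus (h : QB B Q) (h' : QB B Q') {U U' : Submodule F V} (hU : ∀ u ∈ U, Q u = 0)
    (hU' : ∀ u ∈ U', Q' u = 0) (h1 : 2 * finrank F U = finrank F V)
    (h3 : 2 * finrank F U' = finrank F V) : ∃ g ∈ spIso B, ∀ v, Q (g v) = Q' v := by
  have hP := ofAlt_nondeg B hA hB
  obtain ⟨w, hw⟩ := h.exists_w hA hB h'
  have hm : w ∈ (ofAlt B hA).perp (U ⊓ U') := (PQ.mem_perp' _).2 fun v hv => by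
    simpa [hU v hv.1, hU' v hv.2, ofAlt_B] using (hw v).symm
  rw [PQ.perp_inf _ hP, Elus2.perp_eq_of_lag hP (h.ts hA hB hU) h1,
    Elus2.perp_eq_of_lag hP (h'.ts hA hB hU') h3] at hm
  obtain ⟨u, hu, u', hu', rfl⟩ := Submodule.mem_sup.1 hm
  obtain ⟨g, hg, e⟩ := h.exists_tv hA (w := u + u') (t := B u u') (by
    have := hw u'
    rw [hU' u' hu', map_add, LinearMap.add_apply, hA.self_eq_zero, add_zero, eq_comm,
      CharTwo.add_eq_zero] at this
    rw [h.add, hU u hu, this, zero_add])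
  exact ⟨g, hg, fun v => by rw [e, hw]⟩

theorem QB.invol (h : QB B Q) {T : End F V} (hT : ∀ u v, B (T u) (T v) = B u v)
    (hTT : ∀ v, T (T v) = v) (hQ : ∀ v, Q (T v) = Q v) (h0 : ∀ v, T v = v → Q v = 0) :
    ∃ U : Submodule F V, (∀ u ∈ U, Q u = 0) ∧ 2 * finrank F U = finrank F V ∧
      Even (finrank F U) := by
  have h2 : (2 : F) = 0 := CharTwo.two_eq_zero
  have hP := ofAlt_nondeg B hA hB
  have hU : ∀ u ∈ LinearMap.ker (T - 1), Q u = 0 := fun u hu => h0 u (sub_eq_zero.1 hu)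
  have hn : ∀ v, T (T v - v) = T v - v := fun v => by
    rw [map_sub, hTT, ← sub_eq_zero, ← zero_smul F (v - T v), ← h2, two_smul]; abel
  have h1 := Submodule.finrank_mono (show LinearMap.range (T - 1) ≤ LinearMap.ker (T - 1) by
    rintro _ ⟨v, rfl⟩; exact sub_eq_zero.2 (hn v))
  have h3 := LinearMap.finrank_range_add_finrank_ker (T - 1)
  have h4 := Submodule.finrank_mono (h.ts hA hB hU).2
  have h5 := PQ.finrank_perp _ hP (LinearMap.ker (T - 1))
  obtain ⟨W, hW⟩ := (LinearMap.ker (T - 1)).exists_isCompl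
  have h6 := Submodule.finrank_add_eq_of_isCompl hW
  have hal : LinearMap.BilinForm.IsAlt (B.compl₁₂ W.subtype ((T - 1) ∘ₗ W.subtype)) := fun v => by
    have := h.add v (T v - v)
    rw [add_sub_cancel, hQ, h0 _ (hn v)] at this
    simpa using this
  have h7 := even_finrank_of_alt _ hal (hal.isRefl.nondegenerate_iff_separatingRight.2 fun w hw => by
    refine Subtype.ext (Submodule.disjoint_def.1 hW.disjoint _ (hB.2 _ fun v => ?_) w.2)
    obtain ⟨a, ha, b, hb, rfl⟩ := Submodule.mem_sup.1 (hW.sup_eq_top ▸ Submodule.mem_top (x := v))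
    have ha' : T a = a := sub_eq_zero.1 ha
    rw [map_add, LinearMap.add_apply, show B b ((T - 1) w) = 0 from hw ⟨b, hb⟩, LinearMap.sub_apply,
      map_sub, ← hT a (T w), hTT, ha']
    simp)
  refine ⟨_, hU, by omega, ?_⟩
  rwa [show finrank F (LinearMap.ker (T - 1)) = finrank F W by omega]

theorem QB.eq_of_surj (h : QB B Q) (h' : QB B Q') {T : End F V} (hQ : ∀ v, Q (T v) = Q v)
    (hQ' : ∀ v, Q' (T v) = Q' v) (hT : Function.Surjective (T - 1 : End F V)) (v : V) : Q' v = Q v := by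
  obtain ⟨w, hw⟩ := h.exists_w hA hB h'
  obtain ⟨u, rfl⟩ := hT v
  have h1 := hQ' u
  rw [hw, hw, hQ, add_right_inj] at h1
  rw [hw, LinearMap.sub_apply, map_sub, CharTwo.sub_eq_add, CharTwo.add_sq, h1, End.one_apply,
    CharTwo.add_self_eq_zero, add_zero]

/-- A group of odd order with a non-zero fixed vector fixes forms of every type. -/
theorem QB.exists_odd (h : QB B Q) {R : Type*} [Group R] [Finite R] (ho : Odd (Nat.card R))
    (ρ : R →* V ≃ₗ[F] V) (hρ : ∀ a, ρ a ∈ spIso B) {u : V} (hu : u ≠ 0) (hf : ∀ a, ρ a u = u) :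
    ∃ g ∈ spIso B, ∀ a v, Q (g (ρ a v)) = Q (g v) := by
  haveI := Fintype.ofFinite R
  rw [Nat.card_eq_fintype_card] at ho
  have h' := QB.sum ho fun a => h.comp (T := (ρ a : V →ₗ[F] V)) (hρ a)
  have inv : ∀ {M : Type _} [AddCommMonoid M] (φ : R → M) (a : R), ∑ b, φ (b * a) = ∑ b, φ b :=
    fun φ a => Equiv.sum_comp (Equiv.mulRight a) φ
  have inv' : ∀ (φ : R → V) (a : R), ∑ b, φ (a * b) = ∑ b, φ b :=
    fun φ a => Equiv.sum_comp (Equiv.mulLeft a) φ
  set Q' := fun v => ∑ a, Q (ρ a v) with hQ'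
  obtain ⟨u, hu, hf⟩ : ∃ u, Q' u ≠ 0 ∧ ∀ a, ρ a u = u := by
    obtain ⟨v, hv⟩ := exists_B_eq_one hA hB hu
    have h1 : ∀ a, ρ a (∑ b, ρ b v) = ∑ b, ρ b v := fun a => by
      simpa using inv' (fun b => ρ b v) a
    have h2 : B (∑ b, ρ b v) u = 1 := by
      have : ∀ b, B (ρ b v) u = 1 := fun b => by rw [← hv, ← hρ b v u, hf]
      simp [this, CharTwo.natCast_eq_ite, ho, ← Nat.not_odd_iff_even]
    by_contra hn
    push Not at hn
    have h3 := h'.add (∑ b, ρ b v) u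
    by_cases a1 : Q' u = 0
    · by_cases a2 : Q' (∑ b, ρ b v) = 0
      · obtain ⟨a, ha⟩ := hn (∑ b, ρ b v + u) (by
          simp only [LinearEquiv.coe_coe] at h3; rw [hQ'] at a1 a2 ⊢; simp only at a1 a2 ⊢
          rw [h3, a1, a2, h2]; simp)
        exact ha (by rw [map_add, h1, hf])
      · exact (hn _ a2).elim fun a ha => ha (h1 a)
    · exact (hn _ a1).elim fun a ha => ha (hf a)
  obtain ⟨c, g, hg, e⟩ := h.exists_conj hA hB h' hu
  refine ⟨g, hg, fun a v => ?_⟩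
  rw [e, e, ← hρ a u v, hf]
  simpa using inv (fun b => Q (ρ b v)) a

end CfsgLib.ElusF
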