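import Mathlib
import Cfsg.Agent.Lib.ElusF.SpExt
import Cfsg.Agent.Lib.ClMax.SpGU
import Cfsg.Agent.Lib.Elus2.Uni
import Cfsg.Agent.Lib.Elus2.Orth4

/-!
Unitary groups inside symplectic groups.
-/

set_option autoImplicit false
set_option linter.unusedSectionVars false

namespace CfsgLib.ElusF

open Matrix CfsgLib.Forms CfsgLib.ClMax CfsgLib.ElusH CfsgLib.Elusive CfsgLib.Asch CfsgLib.Elus2
  CfsgLib.Unitary Cfsg.Geo Module

theorem spo_eq_uo {q : ℕ} (m : ℕ) : spo q m =
    uo q m * ∏ i ∈ Finset.range m, (if Even i then q ^ (i + 1) - 1 else q ^ (i + 1) + 1) := by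
  rw [spo, uo, ← Finset.prod_mul_distrib]
  refine Finset.prod_congr rfl fun i _ => ?_
  rw [mul_comm 2, pow_mul, ← one_pow 2, Nat.sq_sub_sq]
  split_ifs <;> simp [mul_comm]

theorem ord_mod_four {q r m : ℕ} [hr : Fact r.Prime] (h2 : r ≠ 2) (hq : 0 < q)
    (h : r ∣ ∏ i ∈ Finset.range m, (if Even i then q ^ (i + 1) - 1 else q ^ (i + 1) + 1)) :
    orderOf (q : ZMod r) % 4 ≠ 2 := by
  obtain ⟨i, -, h⟩ := (hr.out.prime.dvd_finsetProd_iff _).1 h
  split_ifs at h with h1
  · have := ((dvd_pow_sub_one_iff hq _).1 h).trans (dvd_refl _)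
    have := Odd.of_dvd_nat h1.add_one this
    rw [Nat.odd_iff] at this
    omega
  · obtain ⟨⟨a, ha⟩, h3⟩ := (pow_eq_neg_one_iff h2 _ _).1 ((dvd_pow_add_one_iff _).1 h)
    intro h4
    obtain ⟨j, hj⟩ : ∃ j, orderOf (q : ZMod r) = 2 * (2 * j + 1) := ⟨orderOf (q : ZMod r) / 4, by omega⟩
    rw [hj, mul_assoc, Nat.mul_right_inj two_ne_zero] at ha
    have h5 : Even a := by
      have : Even (i + 1) := (Nat.not_even_iff_odd.1 h1).add_one
      rw [ha, Nat.even_mul] at this
      exact this.resolve_left (by simp)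
    obtain ⟨b, rfl⟩ := h5
    exact h3 ⟨b, by rw [ha, hj]; ring⟩

variable {F K V : Type*} [Field F] [Field K] [Algebra F K] [AddCommGroup V]
  [Module F V] [Module K V] [IsScalarTower F K V]
  {B : LinearMap.BilinForm F V} {σ : K →+* K} {ω : K} {ε : F} {M : Subgroup (V ≃ₗ[F] V)}

theorem gu_conj [Fintype F] [Fintype K] (h : GUData B σ ω ε M)
    (hK : Fintype.card K = Fintype.card F ^ 2) : σ = conj hK := by
  have h1 : ∀ a : F, conj hK (algebraMap F K a) = algebraMap F K a := fun a => by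
    rw [conj_apply, ← map_pow, FiniteField.pow_card]
  have h2 : conj hK ω * conj hK ω = ω * ω := by rw [← map_mul, h.sq, h1]
  have h3 : conj hK ω = -ω := (mul_self_eq_mul_self_iff.1 h2).resolve_left fun e =>
    conj_ne_id hK (RingHom.ext fun k => by
      obtain ⟨a, b, rfl⟩ := h.coord k
      simp [h1, e])
  ext k
  obtain ⟨a, b, rfl⟩ := h.coord k
  simp [h1, h3, h.σF, h.σω]

variable [Finite K] [FiniteDimensional K V]

theorem gu_isom (h : GUData B σ ω ε M) {T : End F V} (hc : ∀ (k : K) v, T (k • v) = k • T v)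
    (hT : ∀ u v, B (T u) (T v) = B u v) : Isom h.P (extEnd T hc) :=
  (h.isHerm.isIso_iff _).2 fun _ v => h.P_eq_iff.2 ⟨(congrArg _ (hc ω v).symm).trans (hT _ _), hT _ _⟩

theorem gu_spIso (h : GUData B σ ω ε M) {T : V → V} (hT : h.P.IsIso T) (u v : V) :
    B (T u) (T v) = B u v := (h.P_eq_iff.1 (hT.B_eq u v)).2

theorem gu_invol (h : GUData B σ ω ε M) (hr : finrank F K = 2) {s : ℕ} (hs : s ≤ finrank K V) :
    ∃ y ∈ spIso B, SemiK K y ∧ y * y = 1 ∧
      finrank F (LinearMap.range (y.toLinearMap - 1)) = 2 * s := by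
  obtain ⟨W, -, h1, h2⟩ := herm_exists_nd h.isHerm h.nondeg (nd_top h.nondeg) (m := s) (by simpa)
  obtain ⟨T, h3, h4, -, h5⟩ := exists_invol h.nondeg h.h2K h1
  refine ⟨(h3.toEquiv h.nondeg).restrictScalars F, gu_spIso h h3, semiK_restrict _,
    LinearEquiv.ext fun v => LinearMap.congr_fun ((sq T).symm.trans h4) v, ?_⟩
  rw [finrank_range_extEnd (K := K) fun k v => by exact T.map_smul k v, hr, ← h2, ← h5,
    ← perp_fix_invol h.nondeg h.h2K h3 h4, perp_fix_eq_range h.nondeg h3]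
  rfl

theorem gu_neg (h : GUData B σ ω ε M) : ∃ y ∈ spIso B, SemiK K y ∧ ∀ v, y (y v) = -v := by
  obtain ⟨b, hb⟩ := h.isHerm.exists_orthonormal_basis h.nondeg
  obtain ⟨c, hc⟩ := h.isHerm.norm_surj (-1) (by simp)
  let τ : K →ₗ[F] K :=
    { toFun := fun a => c * σ a
      map_add' := fun a b => by rw [map_add, mul_add]
      map_smul' := fun a b => by simp only [Algebra.smul_def, map_mul, h.σF, RingHom.id_apply]; ring }
  let e := b.equivFun
  let y : End F V := (e.symm.restrictScalars F).toLinearMap ∘ₗ τ.compLeft _ ∘ₗ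
    (e.restrictScalars F).toLinearMap
  have hy : ∀ v, e (y v) = fun i => c * σ (e v i) := fun v => e.apply_symm_apply _
  have h1 : ∀ v, y (y v) = -v := fun v => e.injective (by
    rw [hy, hy, map_neg]; ext i; simp only [map_mul, h.σσ, Pi.neg_apply]; linear_combination e v i * hc)
  have h2 : ∀ u v, h.P.B u v = ∑ i, σ (e u i) * e v i := fun u v => by
    conv_lhs => rw [← b.sum_equivFun u, ← b.sum_equivFun v]
    simp only [map_sum, LinearMap.sum_apply, PQ.B_smul_left, PQ.B_smul_right, hb]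
    simp [e, mul_comm]
  refine ⟨LinearEquiv.ofLinearMap y (-y) (by ext v; simp [h1]) (by ext v; simp [h1]),
    fun u v => ?_, fun k => ⟨σ k, fun v => e.injective ?_⟩, h1⟩
  · have h3 : h.P.B (y u) (y v) = -σ (h.P.B u v) := by
      rw [h2, h2, hy, hy, map_sum, ← Finset.sum_neg_distrib]
      refine Finset.sum_congr rfl fun i _ => ?_
      simp only [map_mul, h.σσ]
      linear_combination e u i * σ (e v i) * hc
    rw [h.P_B, h.P_B, map_add, map_mul, h.σF, h.σF, h.σω] at h3
    exact sub_eq_zero.1 (h.coord_zero (a := B (y u) (ω • y v) + B u (ω • v)) (b := B (y u) (y v) - B u v)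
      (by rw [map_add (algebraMap F K), map_sub (algebraMap F K)]; linear_combination h3)).2
  · change e (y _) = e (_ • y v)
    rw [e.map_smul, hy, hy, e.map_smul]
    ext i
    simp [mul_left_comm]

variable [Fintype F] {p r : ℕ} [hp : Fact p.Prime] [CharP F p] [hr : Fact r.Prime]

theorem gu_card (h : GUData B σ ω ε M) (hK : finrank F K = 2) {n : ℕ} (hn : finrank K V = n) :
    Nat.card h.P.isom = Fintype.card F ^ (n * (n - 1) / 2) * uo (Fintype.card F) n := by
  haveI := Fintype.ofFinite K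
  have hc : Fintype.card K = Fintype.card F ^ 2 := by rw [Module.card_eq_pow_finrank (K := F), hK]
  obtain rfl := gu_conj h hc
  exact herm_card_isom hc h.isHerm h.nondeg hn

theorem gu_rank (h : GUData B σ ω ε M) (hK : finrank F K = 2) (hrp : r ≠ p) (h2 : r ≠ 2)
    (h4 : orderOf (Fintype.card F : ZMod r) % 4 ≠ 2) {T : End F V}
    (hc : ∀ (k : K) v, T (k • v) = k • T v) (hT : ∀ u v, B (T u) (T v) = B u v) (hr : T ^ r = 1) :
    2 * cc F r ∣ finrank F (LinearMap.range (T - 1)) := by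
  haveI := Fintype.ofFinite K
  haveI := charP_of_injective_algebraMap (algebraMap F K).injective p
  have hq : Fintype.card K = Fintype.card F ^ 2 := by rw [Module.card_eq_pow_finrank (K := F), hK]
  obtain rfl := gu_conj h hq
  have h1 := gu_isom h hc hT
  have h3 : extEnd T hc ^ r = 1 := LinearMap.ext fun v => by rw [extEnd_pow, hr]; rfl
  obtain ⟨k, hk, -⟩ := (sdData_u hq hrp h2 rfl rfl rfl).multiples h.nondeg hrp h1 h3 le_rfl
    ((nd_fix h.nondeg hrp h1 h3).perp h.nondeg) (Inv.perp h.nondeg h1 (inv_fix _))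
  rw [finrank_range_extEnd hc, hK, ← perp_fix_eq_range h.nondeg h1, hk]
  refine mul_dvd_mul_left _ (Dvd.dvd.mul_right (dvd_of_eq ?_) _)
  rw [cc, if_neg h4]
  simp only [Nat.even_iff]
  split_ifs <;> omega

end CfsgLib.ElusF
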